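import Cfsg.Agent.Coprime.Action
import Cfsg.Agent.Lib.Hall
import Cfsg.Agent.Cores.Fitting
import Cfsg.Agent.FGS.MinimalAction

/-!
# Coprime action on a solvable group: invariant Hall subgroups
-/

set_option autoImplicit false
set_option linter.style.haveILetI false

universe u

namespace Cfsg.Agent.FGS

open scoped Pointwise

variable {X : Type u} [Group X] [Finite X] {π : Set ℕ}

theorem isPiHallOf_conj {H G : Subgroup X} (hH : Cfsg.IsPiHallOf π H G) {g : X} (hg : g ∈ G) :
    Cfsg.IsPiHallOf π (MulAut.conj g • H) G := by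
  have hG : MulAut.conj g • G = G :=
    Cfsg.Agent.Coprime.conj_smul_eq_self_iff.mpr (Subgroup.le_normalizer hg)
  refine ⟨?_, fun p hp hd => hH.2.1 p hp (by rwa [Cfsg.Agent.SZ.card_conj_smul] at hd),
    fun p hp hpπ hd => hH.2.2 p hp hpπ ?_⟩
  · exact le_of_le_of_eq (Subgroup.pointwise_smul_le_pointwise_smul_iff.mpr hH.1) hG
  · rw [← hG, Subgroup.relIndex_pointwise_smul] at hd
    exact hd

theorem le_normalizer_conj {A H : Subgroup X} {c : X} (hA : A ≤ Subgroup.normalizer (H : Set X))
    (hc : c ∈ Subgroup.centralizer (A : Set X)) :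
    A ≤ Subgroup.normalizer ((MulAut.conj c • H : Subgroup X) : Set X) := by
  rw [← Cfsg.Agent.Coprime.conj_smul_normalizer]
  intro a ha
  rw [Cfsg.Agent.Coprime.mem_conj_smul]
  have h1 : c * a = a * c := (Subgroup.mem_centralizer_iff.mp hc a ha).symm
  have : c⁻¹ * a * c = a := by rw [mul_assoc, ← h1, inv_mul_cancel_left]
  rw [this]
  exact hA ha

theorem exists_invariant_hall (A G : Subgroup X) (hAG : A ≤ Subgroup.normalizer (G : Set X))
    (hcop : (Nat.card A).Coprime (Nat.card G)) (hsolv : Group.IsSolvable G) :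
    ∃ H : Subgroup X, Cfsg.IsPiHallOf π H G ∧ A ≤ Subgroup.normalizer (H : Set X) := by
  haveI := hsolv
  obtain ⟨H, hH⟩ := Cfsg.Agent.Hall.exists_isPiHallOf π G
  set S := (A ⊔ G) ⊓ Subgroup.normalizer (H : Set X) with hS
  have hsup : S ⊔ G = A ⊔ G := by
    refine le_antisymm (sup_le inf_le_left le_sup_right) (sup_le ?_ le_sup_right)
    intro a ha
    have haG : MulAut.conj a • G = G := Cfsg.Agent.Coprime.conj_smul_eq_self_iff.mpr (hAG ha)
    have hH' : Cfsg.IsPiHallOf π (MulAut.conj a • H) G := by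
      refine ⟨le_of_le_of_eq (Subgroup.pointwise_smul_le_pointwise_smul_iff.mpr hH.1) haG,
        fun p hp hd => hH.2.1 p hp (by rwa [Cfsg.Agent.SZ.card_conj_smul] at hd),
        fun p hp hpπ hd => hH.2.2 p hp hpπ ?_⟩
      rw [← haG, Subgroup.relIndex_pointwise_smul] at hd
      exact hd
    obtain ⟨g, hg, hga⟩ := Cfsg.Agent.Hall.conj_isPiHallOf hH hH'
    have hmem : g⁻¹ * a ∈ S := by
      refine ⟨mul_mem (Subgroup.mem_sup_right (inv_mem hg)) (Subgroup.mem_sup_left ha), ?_⟩
      show g⁻¹ * a ∈ Subgroup.normalizer (H : Set X)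
      rw [← Cfsg.Agent.Coprime.conj_smul_eq_self_iff, map_mul, mul_smul, ← hga, smul_smul,
        ← map_mul, inv_mul_cancel, map_one, one_smul]
    have : a = g * (g⁻¹ * a) := by simp
    rw [this]
    exact mul_mem (Subgroup.mem_sup_right hg) (Subgroup.mem_sup_left hmem)
  obtain ⟨k, hk, hAk⟩ :=
    Cfsg.Agent.Coprime.exists_le_conj hAG hcop (Or.inr hsolv) inf_le_left hsup
  refine ⟨MulAut.conj k • H, isPiHallOf_conj hH hk, hAk.trans ?_⟩
  rw [← Cfsg.Agent.Coprime.conj_smul_normalizer]
  exact Subgroup.pointwise_smul_le_pointwise_smul_iff.mpr inf_le_right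

theorem conj_invariant_hall (A G : Subgroup X) (hAG : A ≤ Subgroup.normalizer (G : Set X))
    (hcop : (Nat.card A).Coprime (Nat.card G)) (hsolv : Group.IsSolvable G) {H₁ H₂ : Subgroup X}
    (h₁ : Cfsg.IsPiHallOf π H₁ G) (hA₁ : A ≤ Subgroup.normalizer (H₁ : Set X))
    (h₂ : Cfsg.IsPiHallOf π H₂ G) (hA₂ : A ≤ Subgroup.normalizer (H₂ : Set X)) :
    ∃ c ∈ G ⊓ Subgroup.centralizer (A : Set X), MulAut.conj c • H₁ = H₂ := by
  haveI := hsolv
  obtain ⟨g, hg, hgH⟩ := Cfsg.Agent.Hall.conj_isPiHallOf h₁ h₂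
  obtain ⟨c, hc, hcS⟩ := Cfsg.Agent.Coprime.exists_centralizer_mem_coset hAG hcop (Or.inr hsolv)
    hA₁ hg (by rw [Cfsg.Agent.Coprime.conj_smul_normalizer, hgH]; exact hA₂)
  refine ⟨c, hc, ?_⟩
  have := Cfsg.Agent.Coprime.conj_smul_eq_self_iff.mpr hcS.2
  rw [show c = g * (g⁻¹ * c) by simp, map_mul, mul_smul, this, hgH]

theorem exists_invariant_hall_ge_aux (n : ℕ) : ∀ {X : Type u} [Group X] [Finite X]
    (A G U : Subgroup X), Nat.card G ≤ n → A ≤ Subgroup.normalizer (G : Set X) →
    (Nat.card A).Coprime (Nat.card G) → Group.IsSolvable G → U ≤ G →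
    A ≤ Subgroup.normalizer (U : Set X) → (∀ p : ℕ, p.Prime → p ∣ Nat.card U → p ∈ π) →
    ∃ H : Subgroup X, Cfsg.IsPiHallOf π H G ∧ A ≤ Subgroup.normalizer (H : Set X) ∧ U ≤ H := by
  induction n using Nat.strong_induction_on with
  | _ n ih =>
    intro X _ _ A G U hn hAG hcop hsolv hUG hAU hU
    haveI := hsolv
    by_cases hG1 : G = ⊥
    · obtain ⟨H, hH, hAH⟩ := exists_invariant_hall (π := π) A G hAG hcop hsolv
      exact ⟨H, hH, hAH, le_trans (le_of_le_of_eq hUG hG1) bot_le⟩
    haveI : Nontrivial G := (Subgroup.nontrivial_iff_ne_bot G).mpr hG1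
    obtain ⟨q, N₀, hq, hN₀, hN₀q, hN₀1, -⟩ :=
      Cfsg.Agent.Coprime.exists_normal_pGroup_of_isSolvable G
    haveI := Fact.mk hq
    set N := (Cfsg.pCore q G).map G.subtype with hN
    have hNG : N ≤ G := Subgroup.map_subtype_le _
    have hNq : IsPGroup q N := Cfsg.Agent.Cores.pCore_isPGroup.map _
    have hN1 : N ≠ ⊥ := fun h => hN₀1 (le_bot_iff.mp
      ((Subgroup.map_eq_bot_iff_of_injective _ G.subtype_injective).mp h ▸
        Cfsg.Agent.Cores.le_pCore hN₀ hN₀q))
    have hAN : A ≤ Subgroup.normalizer (N : Set X) := le_normalizer_map_char hAG _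
    have hGN : G ≤ Subgroup.normalizer (N : Set X) := le_normalizer_map_char Subgroup.le_normalizer _
    -- pass to the quotient by `N`
    set Y := Subgroup.normalizer (N : Set X) with hY
    haveI : (N.subgroupOf Y).Normal :=
      (Subgroup.normal_subgroupOf_iff_le_normalizer Subgroup.le_normalizer).mpr le_rfl
    set φ := QuotientGroup.mk' (N.subgroupOf Y) with hφ
    set Gq := (G.subgroupOf Y).map φ with hGq
    set Aq := (A.subgroupOf Y).map φ
    set Uq := (U.subgroupOf Y).map φ
    have hGY : Nat.card (G.subgroupOf Y) = Nat.card G :=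
      Nat.card_congr (Subgroup.subgroupOfEquivOfLe hGN).toEquiv
    have hNY : N.subgroupOf Y ≤ G.subgroupOf Y := fun x hx => hNG hx
    have hcardq : Nat.card Gq = N.relIndex G := by
      have h := Subgroup.relIndex_comap (⊥ : Subgroup (Y ⧸ N.subgroupOf Y)) φ (G.subgroupOf Y)
      rw [Subgroup.relIndex_bot_left, MonoidHom.comap_bot, QuotientGroup.ker_mk'] at h
      rw [hGq, ← h, Subgroup.relIndex_subgroupOf hGN]
    have hlt : Nat.card Gq < Nat.card G := by
      rw [hcardq]
      have h2 : 1 < Nat.card N := (Subgroup.one_lt_card_iff_ne_bot N).mpr hN1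
      have h3 : Nat.card N * N.relIndex G = Nat.card G := by
        rw [← Subgroup.relIndex_bot_left, Subgroup.relIndex_mul_relIndex ⊥ N G bot_le hNG,
          Subgroup.relIndex_bot_left]
      have h4 : 0 < N.relIndex G := Nat.pos_of_ne_zero fun h => by
        rw [h, mul_zero] at h3
        exact (Nat.card_pos (α := G)).ne h3
      nlinarith
    have hmapn : ∀ {S : Subgroup X}, A ≤ Subgroup.normalizer (S : Set X) →
        Aq ≤ Subgroup.normalizer (((S.subgroupOf Y).map φ : Subgroup _) : Set _) := by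
      intro S hS
      refine le_trans ?_ (Subgroup.le_normalizer_map φ)
      refine Subgroup.map_mono fun a ha => Subgroup.mem_normalizer_iff.mpr fun y => ?_
      simp only [Subgroup.mem_subgroupOf, Subgroup.coe_mul, Subgroup.coe_inv]
      exact Subgroup.mem_normalizer_iff.mp (hS ha) y
    have hcopq : (Nat.card Aq).Coprime (Nat.card Gq) := by
      refine (Nat.Coprime.coprime_dvd_left ?_ hcop).coprime_dvd_right ?_
      · rw [← Nat.card_congr (Subgroup.subgroupOfEquivOfLe hAN).toEquiv]
        exact Subgroup.card_map_dvd ..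
      · rw [← hGY]; exact Subgroup.card_map_dvd ..
    haveI : Group.IsSolvable (G.subgroupOf Y) :=
      Group.isSolvable_of_isSolvable_injective (f := (Subgroup.subgroupOfEquivOfLe hGN).toMonoidHom)
        (Subgroup.subgroupOfEquivOfLe hGN).injective
    have hsolvq : Group.IsSolvable Gq :=
      Group.isSolvable_of_surjective (f := φ.subgroupMap (G.subgroupOf Y))
        (φ.subgroupMap_surjective _)
    obtain ⟨Hq, hHq, hAHq, hUHq⟩ := ih (Nat.card Gq) (lt_of_lt_of_le hlt hn) Aq Gq Uq le_rfl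
      (hmapn hAG) hcopq hsolvq (Subgroup.map_mono fun x hx => hUG hx) (hmapn hAU)
      (fun p hp hd => hU p hp (hd.trans ((Subgroup.card_map_dvd ..).trans
        (Nat.card_congr (Subgroup.subgroupOfEquivOfLe (hUG.trans hGN)).toEquiv).dvd)))
    set M := (Hq.comap φ).map Y.subtype with hM
    have hcm : ((G.subgroupOf Y).map φ).comap φ = G.subgroupOf Y := by
      rw [Subgroup.comap_map_eq, QuotientGroup.ker_mk', sup_eq_left.mpr hNY]
    have hMG : M ≤ G := by
      have := Subgroup.map_mono (f := Y.subtype) (Subgroup.comap_mono (f := φ) hHq.1)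
      rw [← hM, hGq, hcm, Subgroup.map_subgroupOf_eq_of_le hGN] at this
      exact this
    have hUM : U ≤ M := fun x hx =>
      ⟨⟨x, hGN (hUG hx)⟩, hUHq ⟨⟨x, hGN (hUG hx)⟩, hx, rfl⟩, rfl⟩
    have hNM : N ≤ M := fun x hx =>
      ⟨⟨x, hGN (hNG hx)⟩, by
        show φ _ ∈ Hq
        rw [show φ ⟨x, hGN (hNG hx)⟩ = 1 from (QuotientGroup.eq_one_iff _).mpr hx]
        exact one_mem _, rfl⟩
    have hAM : A ≤ Subgroup.normalizer (M : Set X) := by
      have key : ∀ a ∈ A, ∀ y ∈ M, a * y * a⁻¹ ∈ M := by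
        rintro a ha _ ⟨y, hy, rfl⟩
        refine ⟨⟨a, hAN ha⟩ * y * ⟨a, hAN ha⟩⁻¹, ?_, rfl⟩
        show φ _ ∈ Hq
        rw [map_mul, map_mul, map_inv]
        exact (Subgroup.mem_normalizer_iff.mp (hAHq ⟨⟨a, hAN ha⟩, ha, rfl⟩) _).mp hy
      intro a ha
      refine Subgroup.mem_normalizer_iff.mpr fun y => ⟨key a ha y, fun hy => ?_⟩
      have := key a⁻¹ (inv_mem ha) _ hy
      simpa [mul_assoc] using this
    have hMY : M.subgroupOf Y = Hq.comap φ := by
      rw [hM, Subgroup.subgroupOf, Subgroup.comap_map_eq_self_of_injective Y.subtype_injective]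
    have hMidx : M.relIndex G = Hq.relIndex Gq := by
      rw [← Subgroup.relIndex_subgroupOf hGN, hMY, Subgroup.relIndex_comap, ← hGq]
    by_cases hMeq : M = G
    · -- `G/N` is a π-group
      by_cases hqπ : q ∈ π
      · refine ⟨G, ⟨le_rfl, fun p hp hd => ?_, fun p hp _ hd => ?_⟩, hAG, hUG⟩
        · have h3 : Nat.card N * Nat.card Gq = Nat.card G := by
            rw [hcardq, ← Subgroup.relIndex_bot_left, Subgroup.relIndex_mul_relIndex ⊥ N G bot_le hNG,
              Subgroup.relIndex_bot_left]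
          have hidx : Hq.relIndex Gq = 1 := by rw [← hMidx, hMeq, Subgroup.relIndex_self]
          have heq : Hq = Gq := le_antisymm hHq.1 (Subgroup.relIndex_eq_one.mp hidx)
          rw [← h3] at hd
          rcases (Nat.Prime.dvd_mul hp).mp hd with h | h
          · obtain ⟨j, hj⟩ := IsPGroup.iff_card.mp hNq
            rw [hj] at h
            exact (Nat.prime_dvd_prime_iff_eq hp hq).mp (hp.dvd_of_dvd_pow h) ▸ hqπ
          · exact hHq.2.1 p hp (heq ▸ h)
        · rw [Subgroup.relIndex_self] at hd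
          exact hp.ne_one (Nat.dvd_one.mp hd)
      · obtain ⟨H, hH, hAH⟩ := exists_invariant_hall (π := π) A G hAG hcop hsolv
        -- `G = H N`
        have hHN : H ⊔ N = G := by
          refine le_antisymm (sup_le hH.1 hNG) ?_
          rw [← Subgroup.relIndex_eq_one]
          by_contra hne
          obtain ⟨p, hp, hpd⟩ := Nat.exists_prime_and_dvd hne
          have h1 : p ∣ H.relIndex G := hpd.trans ⟨_, by
            rw [mul_comm]; exact (Subgroup.relIndex_mul_relIndex H _ G le_sup_left (sup_le hH.1 hNG)).symm⟩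
          have h2 : p ∣ N.relIndex G := hpd.trans ⟨_, by
            rw [mul_comm]; exact (Subgroup.relIndex_mul_relIndex N _ G le_sup_right (sup_le hH.1 hNG)).symm⟩
          have hidx : Hq.relIndex Gq = 1 := by rw [← hMidx, hMeq, Subgroup.relIndex_self]
          have heq : Hq = Gq := le_antisymm hHq.1 (Subgroup.relIndex_eq_one.mp hidx)
          rw [← hcardq, ← heq] at h2
          exact hH.2.2 p hp (hHq.2.1 p hp h2) h1
        have hUN : U ≤ Subgroup.normalizer (N : Set X) := hUG.trans hGN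
        have hcUN : (Nat.card U).Coprime (Nat.card N) := by
          obtain ⟨j, hj⟩ := IsPGroup.iff_card.mp hNq
          rw [hj]
          exact Nat.Coprime.pow_right j (Nat.coprime_comm.mp
            (hq.coprime_iff_not_dvd.mpr fun h => hqπ (hU q hq h)))
        have hcHN : (Nat.card ↥(H ⊓ (U ⊔ N))).Coprime (Nat.card N) := by
          obtain ⟨j, hj⟩ := IsPGroup.iff_card.mp hNq
          rw [hj]
          exact Nat.Coprime.pow_right j (Nat.coprime_comm.mp
            (hq.coprime_iff_not_dvd.mpr fun h =>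
              hqπ (hH.2.1 q hq (h.trans (Subgroup.card_dvd_of_le inf_le_left)))))
        have hsup : (H ⊓ (U ⊔ N)) ⊔ N = U ⊔ N := by
          refine le_antisymm (sup_le inf_le_right le_sup_right) ?_
          intro x hx
          have hxG : x ∈ ((H ⊔ N : Subgroup X) : Set X) := by
            rw [hHN]; exact (sup_le hUG hNG) hx
          rw [Subgroup.coe_mul_of_left_le_normalizer_right H N (hH.1.trans hGN)] at hxG
          obtain ⟨h, hh, m, hm, rfl⟩ := hxG
          have : h ∈ H ⊓ (U ⊔ N) := ⟨hh, by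
            have h' := mul_mem hx (inv_mem (Subgroup.mem_sup_right hm : m ∈ U ⊔ N))
            simpa using h'⟩
          exact mul_mem (Subgroup.mem_sup_left this) (Subgroup.mem_sup_right hm)
        haveI := hNq.isNilpotent
        obtain ⟨k, hk, hkU⟩ := Cfsg.Agent.Coprime.complement_conj hUN hcUN hcHN hsup
          (Or.inr inferInstance)
        have hAW : A ≤ Subgroup.normalizer ((H ⊓ (U ⊔ N) : Subgroup X) : Set X) := by
          have h2 : A ≤ Subgroup.normalizer ((U ⊔ N : Subgroup X) : Set X) :=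
            (le_inf hAU hAN).trans (Subgroup.normalizer_inf_normalizer_le_normalizer_sup _ _)
          intro a ha
          refine Subgroup.mem_normalizer_iff.mpr fun y => ?_
          rw [Subgroup.mem_inf, Subgroup.mem_inf, Subgroup.mem_normalizer_iff.mp (hAH ha) y,
            Subgroup.mem_normalizer_iff.mp (h2 ha) y]
        obtain ⟨c, hc, hcS⟩ := Cfsg.Agent.Coprime.exists_centralizer_mem_coset hAN
          (hcop.coprime_dvd_right (Subgroup.card_dvd_of_le hNG)) (Or.inr inferInstance) hAU hk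
          (by rw [Cfsg.Agent.Coprime.conj_smul_normalizer, ← hkU]; exact hAW)
        refine ⟨MulAut.conj c⁻¹ • H, isPiHallOf_conj hH (inv_mem (hNG hc.1)),
          le_normalizer_conj hAH (inv_mem hc.2), ?_⟩
        have h3 : MulAut.conj c • U = H ⊓ (U ⊔ N) := by
          have := Cfsg.Agent.Coprime.conj_smul_eq_self_iff.mpr hcS.2
          rw [show c = k * (k⁻¹ * c) by simp, map_mul, mul_smul, this, ← hkU]
        intro x hx
        rw [Cfsg.Agent.Coprime.mem_conj_smul, inv_inv]
        have hx' : c * x * c⁻¹ ∈ H ⊓ (U ⊔ N) := by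
          rw [← h3, Cfsg.Agent.Coprime.mem_conj_smul]
          simpa [mul_assoc] using hx
        exact hx'.1
    · -- recursion inside `M`
      have hMlt : Nat.card M < Nat.card G := lt_of_le_of_ne (Subgroup.card_le_of_le hMG)
        fun h => hMeq (Subgroup.eq_of_le_of_card_ge hMG h.ge)
      obtain ⟨H, hH, hAH, hUH⟩ := ih (Nat.card M) (lt_of_lt_of_le hMlt hn) A M U le_rfl hAM
        (hcop.coprime_dvd_right (Subgroup.card_dvd_of_le hMG))
        (Group.isSolvable_of_isSolvable_injective (f := Subgroup.inclusion hMG)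
          (Subgroup.inclusion_injective hMG)) hUM hAU hU
      refine ⟨H, ⟨hH.1.trans hMG, hH.2.1, fun p hp hpπ hd => ?_⟩, hAH, hUH⟩
      rw [← Subgroup.relIndex_mul_relIndex H M G hH.1 hMG] at hd
      rcases (Nat.Prime.dvd_mul hp).mp hd with h | h
      · exact hH.2.2 p hp hpπ h
      · exact hHq.2.2 p hp hpπ (hMidx ▸ h)

end Cfsg.Agent.FGS
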