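import Cfsg.Agent.FGS.AbCentFrob
import Cfsg.Agent.FGS.InvariantHall
import Cfsg.Agent.Lib.WardMain
import Cfsg.Agent.OddLocal.FittingParts
import Cfsg.Agent.S0144

/-!
A group `A` of order `q ^ 2` acting coprimely with all fixed-point subgroups abelian:
basic facts about a minimal non-solvable example.
-/

set_option autoImplicit false
set_option linter.style.haveILetI false

namespace Cfsg.Agent.FGS.AbCent

open Subgroup
open Cfsg.Agent.OddLocal (Fp)

variable {Γ : Type*} [Group Γ] [Finite Γ]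

/-- `A` of order `q ^ 2` and exponent `q` acts coprimely on `K`, all centralizers abelian. -/
structure Hyp (q : ℕ) (K A : Subgroup Γ) : Prop where
  prime : q.Prime
  comm : IsMulCommutative A
  card_eq : Nat.card A = q ^ 2
  pow_eq : ∀ a ∈ A, a ^ q = 1
  normal : K.Normal
  coprime : (Nat.card K).Coprime q
  abel : ∀ a ∈ A, a ≠ 1 → IsMulCommutative ↥(K ⊓ centralizer {a})

/-- A minimal non-solvable configuration. -/
structure Min (q : ℕ) (K A : Subgroup Γ) : Prop extends Hyp q K A where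
  fix : K ⊓ centralizer (A : Set Γ) = ⊥
  notsolv : ¬ Group.IsSolvable K
  proper : ∀ H ≤ K, A ≤ normalizer (H : Set Γ) → H ≠ K → Group.IsSolvable H
  simple : ∀ N ≤ K, A ≤ normalizer (N : Set Γ) → K ≤ normalizer (N : Set Γ) → N = ⊥ ∨ N = K

/-- `X` is an `A`-invariant subgroup of `K`. -/
def Inv (K A X : Subgroup Γ) : Prop := X ≤ K ∧ A ≤ normalizer (X : Set Γ)

/-- `H` is a `{p, r}`-group. -/
def IsPR (p r : ℕ) (H : Subgroup Γ) : Prop :=
  ∀ s : ℕ, s.Prime → s ∣ Nat.card H → s = p ∨ s = r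

/-- `P` is the largest `A`-invariant `p`-subgroup of `K`. -/
structure IsSyl (K A : Subgroup Γ) (p : ℕ) (P : Subgroup Γ) : Prop where
  inv : Inv K A P
  pgroup : IsPGroup p P
  card : Nat.card P = p ^ (Nat.card K).factorization p
  le : ∀ U : Subgroup Γ, Inv K A U → IsPGroup p U → U ≤ P

theorem inv_inf {K A X Y : Subgroup Γ} (hX : Inv K A X) (hY : A ≤ normalizer (Y : Set Γ)) :
    Inv K A (X ⊓ Y) :=
  ⟨inf_le_left.trans hX.1, (le_inf hX.2 hY).trans inf_normalizer_le_normalizer_inf⟩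

theorem inv_sup {K A X Y : Subgroup Γ} (hX : Inv K A X) (hY : Inv K A Y) : Inv K A (X ⊔ Y) :=
  ⟨sup_le hX.1 hY.1, (le_inf hX.2 hY.2).trans (normalizer_inf_normalizer_le_normalizer_sup _ _)⟩

theorem le_normalizer_centralizer {A X : Subgroup Γ} (h : A ≤ normalizer (X : Set Γ)) :
    A ≤ normalizer ((centralizer (X : Set Γ) : Subgroup Γ) : Set Γ) :=
  h.trans (OddLocal.normalizer_le_normalizer_centralizer X)

theorem isPR_of_pGroup {p r : ℕ} [hp : Fact p.Prime] {H : Subgroup Γ} (h : IsPGroup p H) :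
    IsPR p r H := by
  intro s hs hd
  obtain ⟨k, hk⟩ := h.exists_card_eq
  exact Or.inl ((Nat.prime_dvd_prime_iff_eq hs hp.out).1 (hs.dvd_of_dvd_pow (hk ▸ hd)))

theorem IsPR.symm {p r : ℕ} {H : Subgroup Γ} (h : IsPR p r H) : IsPR r p H :=
  fun s hs hd => (h s hs hd).symm

theorem IsPR.mono {p r : ℕ} {H L : Subgroup Γ} (h : IsPR p r H) (hL : L ≤ H) : IsPR p r L :=
  fun s hs hd => h s hs (hd.trans (card_dvd_of_le hL))

/-- A primary invariant part: contains a subgroup of `p`-power order that is full. -/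
theorem le_of_forall_prime {H X : Subgroup Γ}
    (h : ∀ s : ℕ, s.Prime → s ∣ Nat.card H → ∃ S : Subgroup Γ, S ≤ X ⊓ H ∧
      Nat.card S = s ^ (Nat.card H).factorization s) : H ≤ X := by
  have hle : X ⊓ H ≤ H := inf_le_right
  have heq : X ⊓ H = H := by
    refine eq_of_le_of_card_ge hle (Nat.le_of_dvd Nat.card_pos ?_)
    rw [Nat.dvd_iff_prime_pow_dvd_dvd]
    intro s k hs hk
    rcases Nat.eq_zero_or_pos k with rfl | hk0
    · simp
    obtain ⟨S, hS, hcard⟩ := h s hs ((dvd_pow_self s hk0.ne').trans hk)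
    refine dvd_trans ?_ (card_dvd_of_le hS)
    rw [hcard]
    exact pow_dvd_pow s ((hs.pow_dvd_iff_le_factorization Nat.card_pos.ne').1 hk)
  exact inf_eq_right.1 heq

namespace Hyp

variable {q : ℕ} {K A : Subgroup Γ} (h : Hyp q K A)
include h

theorem commute {a b : Γ} (ha : a ∈ A) (hb : b ∈ A) : Commute a b :=
  congrArg Subtype.val (h.comm.is_comm.comm ⟨a, ha⟩ ⟨b, hb⟩)

theorem le_centralizer {a : Γ} (ha : a ∈ A) : A ≤ centralizer {a} :=
  fun b hb => mem_centralizer_singleton_iff.2 (h.commute hb ha).eq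

theorem le_normalizer : A ≤ normalizer (K : Set Γ) := by
  haveI := h.normal
  exact le_normalizer_of_normal

theorem coprime_card {H : Subgroup Γ} (hH : H ≤ K) : (Nat.card A).Coprime (Nat.card H) := by
  rw [h.card_eq]
  exact (h.coprime.symm.pow_left 2).coprime_dvd_right (card_dvd_of_le hH)

theorem isSolvable_A : Group.IsSolvable A :=
  Group.isSolvable_of_comm fun x y => h.comm.is_comm.comm x y

theorem inv_cent {X : Subgroup Γ} (hX : Inv K A X) {a : Γ} (ha : a ∈ A) :
    Inv K A (X ⊓ centralizer {a}) :=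
  inv_inf hX ((h.le_centralizer ha).trans Subgroup.le_normalizer)

theorem card_zpowers {a : Γ} (ha : a ∈ A) (ha1 : a ≠ 1) : Nat.card (zpowers a) = q := by
  haveI := Fact.mk h.prime
  rw [Nat.card_zpowers]
  exact orderOf_eq_prime (h.pow_eq a ha) ha1

theorem zpowers_eq {a b : Γ} (ha : a ∈ A) (hb : b ∈ A) (hb1 : b ≠ 1) (hab : b ∈ zpowers a) :
    zpowers b = zpowers a := by
  rcases eq_or_ne a 1 with rfl | ha1
  · simp at hab; exact absurd hab hb1
  exact eq_of_le_of_card_ge (zpowers_le.2 hab) (by rw [h.card_zpowers ha ha1, h.card_zpowers hb hb1])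

theorem centralizer_eq {a b : Γ} (ha : a ∈ A) (hb : b ∈ A) (hb1 : b ≠ 1) (hab : b ∈ zpowers a) :
    centralizer ({b} : Set Γ) = centralizer {a} := by
  rw [← centralizer_closure ({b} : Set Γ), ← zpowers_eq_closure, h.zpowers_eq ha hb hb1 hab,
    zpowers_eq_closure, centralizer_closure]

theorem notMem_swap {a b : Γ} (ha : a ∈ A) (hb : b ∈ A) (ha1 : a ≠ 1) (hab : b ∉ zpowers a) :
    a ∉ zpowers b := fun hh =>
  hab (h.zpowers_eq hb ha ha1 hh ▸ mem_zpowers b)

theorem sup_eq {a b : Γ} (ha : a ∈ A) (hb : b ∈ A) (ha1 : a ≠ 1) (hab : b ∉ zpowers a) :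
    zpowers a ⊔ zpowers b = A := by
  have hle : zpowers a ⊔ zpowers b ≤ A := sup_le (zpowers_le.2 ha) (zpowers_le.2 hb)
  refine eq_of_le_of_card_ge hle ?_
  obtain ⟨i, -, hcard⟩ := (Nat.dvd_prime_pow h.prime).mp (h.card_eq ▸ card_dvd_of_le hle)
  rw [h.card_eq, hcard]
  refine Nat.pow_le_pow_right h.prime.pos ?_
  by_contra hlt
  have h2 : Nat.card ↥(zpowers a ⊔ zpowers b) ≤ Nat.card (zpowers a) := by
    rw [hcard, h.card_zpowers ha ha1]
    exact (Nat.pow_le_pow_right h.prime.pos (by omega : i ≤ 1)).trans (pow_one q).le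
  exact hab ((eq_of_le_of_card_ge le_sup_left h2) ▸ mem_sup_right (mem_zpowers b))

theorem exists_third {a d : Γ} (ha : a ∈ A) (hd : d ∈ A) :
    ∃ b ∈ A, b ∉ zpowers a ∧ b ∉ zpowers d := by
  classical
  by_contra hh
  push Not at hh
  have hsub : (A : Set Γ) ⊆ (zpowers a : Set Γ) ∪ (zpowers d : Set Γ) := fun b hb => by
    by_cases hba : b ∈ zpowers a
    · exact Or.inl hba
    · exact Or.inr (hh b hb hba)
  have hcard : ∀ x ∈ A, ((zpowers x : Subgroup Γ) : Set Γ).ncard ≤ q := fun x hx => by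
    rw [← Nat.card_coe_set_eq]
    rcases eq_or_ne x 1 with rfl | hx1
    · simp only [SetLike.coe_sort_coe, Nat.card_zpowers, orderOf_one]
      exact h.prime.pos
    · exact (h.card_zpowers hx hx1).le
  have hA : (A : Set Γ).ncard = q ^ 2 := by
    rw [← Nat.card_coe_set_eq]; exact h.card_eq
  rcases eq_or_ne ((zpowers a : Subgroup Γ) : Set Γ).ncard 0 with h0 | -
  · rw [Set.ncard_eq_zero] at h0
    exact Set.Nonempty.ne_empty ⟨1, one_mem (zpowers a)⟩ h0
  have hint : 1 ≤ ((zpowers a : Set Γ) ∩ (zpowers d : Set Γ)).ncard :=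
    (Set.ncard_pos).2 ⟨1, one_mem _, one_mem _⟩
  have h1 := Set.ncard_le_ncard hsub
  have h2 := Set.ncard_union_add_ncard_inter ((zpowers a : Set Γ)) (zpowers d : Set Γ)
  have h3 := hcard a ha
  have h4 := hcard d hd
  have := h.prime.two_le
  rw [hA] at h1
  nlinarith

theorem not_isCyclic : ¬ IsCyclic A := by
  intro hcyc
  obtain ⟨g, hg⟩ := IsCyclic.exists_zpow_surjective (G := A)
  obtain ⟨b, hb, hbg, -⟩ := h.exists_third g.2 g.2
  obtain ⟨k, hk⟩ := hg ⟨b, hb⟩
  exact hbg ⟨k, congrArg Subtype.val hk⟩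

theorem exists_ne_one : ∃ a ∈ A, a ≠ 1 := by
  obtain ⟨b, hb, hb1, -⟩ := h.exists_third (one_mem A) (one_mem A)
  exact ⟨b, hb, fun e => hb1 (by rw [e]; exact one_mem _)⟩

/-- Generation by centralizers. -/
theorem gen {H X : Subgroup Γ} (hH : Inv K A H)
    (hX : ∀ a ∈ A, a ≠ 1 → H ⊓ centralizer {a} ≤ X) : H ≤ X := by
  haveI := h.comm
  rw [← Coprime.iSup_centralizer_eq h.not_isCyclic hH.2 (h.coprime_card hH.1)]
  exact iSup₂_le fun a ha => hX a ha.1 ha.2

theorem abel_le {a : Γ} (ha : a ∈ A) (ha1 : a ≠ 1) {X Y : Subgroup Γ}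
    (hX : X ≤ K ⊓ centralizer {a}) (hY : Y ≤ K ⊓ centralizer {a}) :
    X ≤ Subgroup.centralizer (Y : Set Γ) := fun x hx => mem_centralizer_iff.2 fun y hy =>
  congrArg Subtype.val ((h.abel a ha ha1).is_comm.comm ⟨y, hY hy⟩ ⟨x, hX hx⟩)

end Hyp

namespace Min

variable {q : ℕ} {K A : Subgroup Γ} (h : Min q K A)
include h

theorem toHyp' : Hyp q K A := h.toHyp

/-- Two independent elements of `A` have trivial common fixed points. -/
theorem pair_eq_bot {X : Subgroup Γ} (hX : X ≤ K) {a b : Γ} (ha : a ∈ A) (hb : b ∈ A) (ha1 : a ≠ 1)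
    (hab : b ∉ zpowers a) (hXa : X ≤ centralizer {a}) : X ⊓ centralizer {b} = ⊥ := by
  rw [eq_bot_iff, ← h.fix]
  refine le_inf (inf_le_left.trans hX) ?_
  rw [le_centralizer_iff]
  conv_lhs => rw [← h.toHyp.sup_eq ha hb ha1 hab]
  refine sup_le (zpowers_le.2 ?_) (zpowers_le.2 ?_)
  · exact mem_centralizer_iff.2 fun x hx => mem_centralizer_singleton_iff.1 (hXa hx.1)
  · exact mem_centralizer_iff.2 fun x hx => mem_centralizer_singleton_iff.1 hx.2

theorem ne_bot_K : K ≠ ⊥ := fun e => h.notsolv (by subst e; infer_instance)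

theorem inv_K : Inv K A K := ⟨le_rfl, h.toHyp.le_normalizer⟩

theorem fix_le {H : Subgroup Γ} (hH : H ≤ K) : H ⊓ centralizer (A : Set Γ) = ⊥ :=
  le_bot_iff.1 (h.fix ▸ inf_le_inf_right _ hH)

theorem exists_syl (p : ℕ) [Fact p.Prime] : ∃ P, IsSyl K A p P := by
  obtain ⟨S, hS⟩ := Coprime.exists_invariant_sylow p h.toHyp.le_normalizer
    (h.toHyp.coprime_card le_rfl) (Or.inl h.toHyp.isSolvable_A)
  refine ⟨(S : Subgroup K).map K.subtype,
    ⟨map_subtype_le _, hS⟩, S.isPGroup'.map _, Coprime.card_sylow_map S, fun U hU hUp => ?_⟩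
  obtain ⟨T, hUT, hT⟩ := Coprime.exists_invariant_sylow_ge h.toHyp.le_normalizer
    (h.toHyp.coprime_card le_rfl) (Or.inl h.toHyp.isSolvable_A) hU.1 hU.2 hUp
  obtain ⟨c, hc, hcT⟩ := Coprime.exists_centralizer_conj_sylow h.toHyp.le_normalizer
    (h.toHyp.coprime_card le_rfl) (Or.inl h.toHyp.isSolvable_A) T S hT hS
  rw [h.fix, mem_bot] at hc
  subst hc
  rw [map_one, one_smul] at hcT
  exact hUT.trans hcT.le

/-- The invariant Sylow subgroup of an invariant subgroup. -/
theorem card_inf_syl {p : ℕ} [Fact p.Prime] {P : Subgroup Γ} (hP : IsSyl K A p P) {H : Subgroup Γ}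
    (hH : Inv K A H) : Nat.card ↥(H ⊓ P) = p ^ (Nat.card H).factorization p := by
  obtain ⟨S, hS⟩ := Coprime.exists_invariant_sylow p hH.2
    (h.toHyp.coprime_card hH.1) (Or.inl h.toHyp.isSolvable_A)
  set Q := (S : Subgroup H).map H.subtype with hQ
  have hQP : Q ≤ H ⊓ P :=
    le_inf (map_subtype_le _) (hP.le Q ⟨(map_subtype_le _).trans hH.1, hS⟩ (S.isPGroup'.map _))
  have hcard : Nat.card Q = p ^ (Nat.card H).factorization p := Coprime.card_sylow_map S
  obtain ⟨k, hk⟩ := (hP.pgroup.to_le (inf_le_right : H ⊓ P ≤ P)).exists_card_eq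
  refine Nat.dvd_antisymm ?_ (hcard ▸ card_dvd_of_le hQP)
  rw [hk]
  refine pow_dvd_pow p (((Fact.out : p.Prime).pow_dvd_iff_le_factorization Nat.card_pos.ne').1 ?_)
  rw [← hk]
  exact card_dvd_of_le inf_le_left

/-- An invariant subgroup is generated by its invariant Sylow subgroups. -/
theorem le_of_syl {H X : Subgroup Γ} (hH : Inv K A H)
    (hX : ∀ (s : ℕ) [Fact s.Prime] (S : Subgroup Γ), IsSyl K A s S → s ∣ Nat.card H → H ⊓ S ≤ X) :
    H ≤ X := by
  refine le_of_forall_prime fun s hs hd => ?_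
  haveI := Fact.mk hs
  obtain ⟨S, hS⟩ := h.exists_syl s
  exact ⟨H ⊓ S, le_inf (hX s S hS hd) inf_le_left, h.card_inf_syl hS hH⟩

/-- A `{p, r}`-subgroup is the product of its invariant Sylow subgroups. -/
theorem pr_mul {p r : ℕ} [Fact p.Prime] [Fact r.Prime] (hpr : p ≠ r) {P R : Subgroup Γ}
    (hP : IsSyl K A p P) (hR : IsSyl K A r R) {H : Subgroup Γ} (hH : Inv K A H)
    (hprH : IsPR p r H) {g : Γ} (hg : g ∈ H) :
    ∃ x ∈ H ⊓ P, ∃ y ∈ H ⊓ R, g = x * y := by
  classical
  have hcard : Nat.card H = Nat.card ↥(H ⊓ P) * Nat.card ↥(H ⊓ R) := by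
    rw [h.card_inf_syl hP hH, h.card_inf_syl hR hH]
    refine Nat.eq_of_factorization_eq Nat.card_pos.ne'
      (Nat.mul_ne_zero (pow_ne_zero _ (Fact.out : p.Prime).ne_zero)
        (pow_ne_zero _ (Fact.out : r.Prime).ne_zero)) fun s => ?_
    rw [Nat.factorization_mul (pow_ne_zero _ (Fact.out : p.Prime).ne_zero)
      (pow_ne_zero _ (Fact.out : r.Prime).ne_zero), (Fact.out : p.Prime).factorization_pow,
      (Fact.out : r.Prime).factorization_pow, Finsupp.add_apply, Finsupp.single_apply,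
      Finsupp.single_apply]
    by_cases hsp : p = s
    · subst hsp; rw [if_pos rfl, if_neg hpr.symm, add_zero]
    by_cases hsr : r = s
    · subst hsr; rw [if_neg hsp, if_pos rfl, zero_add]
    rw [if_neg hsp, if_neg hsr, add_zero]
    by_cases hs : s.Prime
    · exact Nat.factorization_eq_zero_of_not_dvd fun hd =>
        (hprH s hs hd).elim (fun e => hsp e.symm) (fun e => hsr e.symm)
    · exact Nat.factorization_eq_zero_of_not_prime _ hs
  have hdisj : Disjoint (H ⊓ P) (H ⊓ R) := by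
    rw [disjoint_iff]
    exact inf_eq_bot_of_coprime (OddLocal.coprime_card_pGroups hpr (hP.pgroup.to_le inf_le_right)
      (hR.pgroup.to_le inf_le_right))
  let f : ↥(H ⊓ P) × ↥(H ⊓ R) → H := fun z =>
    ⟨(z.1 : Γ) * z.2, H.mul_mem z.1.2.1 z.2.2.1⟩
  have hinj : Function.Injective f := by
    intro z w hzw
    exact mul_injective_of_disjoint hdisj (congrArg Subtype.val hzw : (z.1 : Γ) * z.2 = w.1 * w.2)
  have hbij : Function.Bijective f :=
    (Nat.bijective_iff_injective_and_card f).2 ⟨hinj, by rw [Nat.card_prod, hcard]⟩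
  obtain ⟨⟨x, y⟩, hxy⟩ := hbij.2 ⟨g, hg⟩
  exact ⟨x, x.2, y, y.2, (congrArg Subtype.val hxy).symm⟩

theorem ne_K_of_pr {p r : ℕ} [hp : Fact p.Prime] [hr : Fact r.Prime] {H : Subgroup Γ}
    (hprH : IsPR p r H) : H ≠ K := by
  intro e
  rw [e] at hprH
  refine h.notsolv (S0144.result (G := K) p r ((Nat.card K).factorization p)
    (if p = r then 0 else (Nat.card K).factorization r) hp.out hr.out ?_)
  refine Nat.eq_of_factorization_eq Nat.card_pos.ne'
    (Nat.mul_ne_zero (pow_ne_zero _ hp.out.ne_zero) (pow_ne_zero _ hr.out.ne_zero)) fun s => ?_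
  rw [Nat.factorization_mul (pow_ne_zero _ hp.out.ne_zero) (pow_ne_zero _ hr.out.ne_zero),
    hp.out.factorization_pow, hr.out.factorization_pow, Finsupp.add_apply, Finsupp.single_apply,
    Finsupp.single_apply]
  by_cases hsp : p = s
  · subst hsp
    by_cases hpr : p = r
    · subst hpr; simp
    · rw [if_pos rfl, if_neg (Ne.symm hpr), add_zero]
  by_cases hsr : r = s
  · subst hsr; simp [hsp]
  rw [if_neg hsp, if_neg hsr, add_zero]
  by_cases hs : s.Prime
  · exact Nat.factorization_eq_zero_of_not_dvd fun hd =>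
      (hprH s hs hd).elim (fun e => hsp e.symm) (fun e => hsr e.symm)
  · exact Nat.factorization_eq_zero_of_not_prime _ hs

theorem solvable_pr {p r : ℕ} [Fact p.Prime] [Fact r.Prime] {H : Subgroup Γ} (hH : Inv K A H)
    (hprH : IsPR p r H) : Group.IsSolvable H :=
  h.proper H hH.1 hH.2 (h.ne_K_of_pr hprH)

/-- A solvable invariant subgroup has a largest invariant `π`-subgroup. -/
theorem exists_hall (π : Set ℕ) {H : Subgroup Γ} (hH : Inv K A H) (hs : Group.IsSolvable H) :
    ∃ M ≤ H, Inv K A M ∧ (∀ s : ℕ, s.Prime → s ∣ Nat.card M → s ∈ π) ∧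
      ∀ U ≤ H, A ≤ normalizer (U : Set Γ) → (∀ s : ℕ, s.Prime → s ∣ Nat.card U → s ∈ π) →
        U ≤ M := by
  obtain ⟨M, hM, hMA⟩ := FGS.exists_invariant_hall A H hH.2 (h.toHyp.coprime_card hH.1) hs (π := π)
  refine ⟨M, hM.1, ⟨hM.1.trans hH.1, hMA⟩, hM.2.1, fun U hUH hUA hU => ?_⟩
  obtain ⟨M', hM', hM'A, hUM'⟩ := FGS.exists_invariant_hall_ge_aux _ A H U le_rfl hH.2
    (h.toHyp.coprime_card hH.1) hs hUH hUA hU
  obtain ⟨c, hc, hcM⟩ := FGS.conj_invariant_hall A H hH.2 (h.toHyp.coprime_card hH.1) hs hM hMA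
    hM' hM'A
  rw [h.fix_le hH.1, mem_bot] at hc
  subst hc
  rw [← hcM] at hUM'
  simpa using hUM'

theorem center_eq_bot : K ⊓ centralizer (K : Set Γ) = ⊥ := by
  have hA := le_normalizer_centralizer h.toHyp.le_normalizer
  have hI : Inv K A (K ⊓ centralizer (K : Set Γ)) := inv_inf h.inv_K hA
  refine (h.simple _ hI.1 hI.2 ?_).resolve_right fun e => ?_
  · intro g hg
    rw [mem_normalizer_iff]
    intro x
    constructor
    · intro hx
      have hc : g * x * g⁻¹ = x := by rw [mem_centralizer_iff.1 hx.2 g hg]; group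
      rwa [hc]
    · intro hx
      have hc : g * (g * x * g⁻¹) = g * x * g⁻¹ * g := mem_centralizer_iff.1 hx.2 g hg
      have hc' : g * x * g⁻¹ = x := by
        calc g * x * g⁻¹ = g⁻¹ * (g * (g * x * g⁻¹)) := by group
          _ = g⁻¹ * (g * x * g⁻¹ * g) := by rw [hc]
          _ = x := by group
      rwa [hc'] at hx
  · refine h.notsolv (Group.isSolvable_of_comm fun x y => Subtype.ext ?_)
    exact (mem_centralizer_iff.1 (e.ge x.2).2 y y.2).symm

/-- The normalizer of a nontrivial invariant `{p, r}`-subgroup is a proper solvable subgroup. -/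
theorem normalizer_solvable {p r : ℕ} [Fact p.Prime] [Fact r.Prime] {X : Subgroup Γ}
    (hX : Inv K A X) (hX1 : X ≠ ⊥) (hprX : IsPR p r X) :
    Inv K A (K ⊓ normalizer (X : Set Γ)) ∧
      Group.IsSolvable ↥(K ⊓ normalizer (X : Set Γ)) := by
  have hI : Inv K A (K ⊓ normalizer (X : Set Γ)) :=
    inv_inf h.inv_K (hX.2.trans Subgroup.le_normalizer)
  refine ⟨hI, h.proper _ hI.1 hI.2 fun e => ?_⟩
  rcases h.simple X hX.1 hX.2 (inf_eq_left.1 e) with h1 | h1
  · exact hX1 h1
  · exact h.ne_K_of_pr hprX h1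

/-- The centralizer of a nontrivial invariant subgroup is a proper solvable subgroup. -/
theorem centralizer_solvable {X : Subgroup Γ} (hX : Inv K A X) (hX1 : X ≠ ⊥) :
    Inv K A (K ⊓ centralizer (X : Set Γ)) ∧
      Group.IsSolvable ↥(K ⊓ centralizer (X : Set Γ)) := by
  have hI : Inv K A (K ⊓ centralizer (X : Set Γ)) :=
    inv_inf h.inv_K (le_normalizer_centralizer hX.2)
  refine ⟨hI, h.proper _ hI.1 hI.2 fun e => hX1 ?_⟩
  rw [eq_bot_iff, ← h.center_eq_bot]
  exact le_inf hX.1 (le_centralizer_iff.1 (inf_eq_left.1 e))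

/-- Key action lemma. -/
theorem key {s : ℕ} [Fact s.Prime] {V X : Subgroup Γ} (hV : Inv K A V) (hVs : IsPGroup s V)
    (hX : Inv K A X) (hXV : X ≤ normalizer (V : Set Γ)) (hcop : (Nat.card X).Coprime s)
    {a b : Γ} (ha : a ∈ A) (ha1 : a ≠ 1) (hb : b ∈ A) (hab : b ∉ zpowers a)
    (hXa : X ≤ centralizer {a}) (hVb : V ⊓ centralizer {b} ≤ centralizer (X : Set Γ)) :
    X ≤ centralizer (V : Set Γ) := by
  rcases eq_or_ne V ⊥ with rfl | hV1
  · exact fun x _ => mem_centralizer_iff.2 fun y hy => by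
      rw [SetLike.mem_coe, mem_bot] at hy
      subst hy; simp
  refine frob_centralizes hVs h.toHyp.prime (h.toHyp.pow_eq b hb) ?_ (hV.2 hb) (hX.2 hb) hXV hcop
    (h.pair_eq_bot hX.1 ha hb ha1 hab hXa) hVb
  rintro rfl
  have hd : q ∣ Nat.card V := OddLocal.dvd_card_of_pGroup_ne_bot hVs hV1
  exact h.toHyp.prime.not_dvd_one
    (h.toHyp.coprime.coprime_dvd_left (card_dvd_of_le hV.1) ▸ Nat.dvd_gcd hd dvd_rfl)

/-- Ward's theorem inside: modulo its Fitting subgroup an invariant solvable subgroup is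
nilpotent. -/
theorem exists_lcs_le {H : Subgroup Γ} (hH : Inv K A H) (hs : Group.IsSolvable H) :
    ∃ k, (⊤ : Subgroup H).lowerCentralSeries k ≤ Cfsg.fittingSubgroup H := by
  haveI := Fact.mk h.toHyp.prime
  set L := H ⊔ A with hL
  set e := subgroupOfEquivOfLe (le_sup_left : H ≤ L)
  haveI : Group.IsSolvable (H.subgroupOf L) :=
    Group.isSolvable_of_surjective (f := e.symm.toMonoidHom) e.symm.surjective
  have hP : Ward.IsPairAction q (H.subgroupOf L) (A.subgroupOf L) :=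
    { comm := ⟨⟨fun x y => Subtype.ext (Subtype.ext (h.toHyp.commute x.2 y.2).eq)⟩⟩
      card_eq := by
        rw [Nat.card_congr (subgroupOfEquivOfLe (le_sup_right : A ≤ L)).toEquiv, h.toHyp.card_eq]
      pow_eq := fun a ha => Subtype.ext (h.toHyp.pow_eq _ ha)
      normal := (normal_subgroupOf_iff_le_normalizer le_sup_left).2
        (sup_le Subgroup.le_normalizer hH.2)
      coprime := by
        rw [Nat.card_congr e.toEquiv]
        exact h.toHyp.coprime.coprime_dvd_left (card_dvd_of_le hH.1)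
      fix := by
        rw [eq_bot_iff]
        rintro x ⟨hx, hxc⟩
        have hmem : (x : Γ) ∈ K ⊓ centralizer (A : Set Γ) :=
          ⟨hH.1 hx, mem_centralizer_iff.2 fun a ha =>
            congrArg Subtype.val (mem_centralizer_iff.1 hxc ⟨a, mem_sup_right ha⟩ ha)⟩
        rw [h.fix, mem_bot] at hmem
        exact mem_bot.2 (Subtype.ext hmem) }
  obtain ⟨k, hk⟩ := Ward.exists_lowerCentralSeries_le_fitting hP
  refine ⟨k, ?_⟩
  have h1 : ((⊤ : Subgroup (H.subgroupOf L)).lowerCentralSeries k).map e.toMonoidHom =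
      (⊤ : Subgroup H).lowerCentralSeries k := by
    rw [Subgroup.map_lowerCentralSeries, Subgroup.map_top_of_surjective _ e.surjective]
  rw [← h1]
  exact (map_mono hk).trans (Cores.map_fittingSubgroup_equiv e).le

/-- In an invariant `{p, r}`-subgroup `H`, the subgroup `P_H O_r(H)` is normal. -/
theorem sup_Fp_normal {p r : ℕ} [Fact p.Prime] [Fact r.Prime]
    {P : Subgroup Γ} (hP : IsSyl K A p P) {H : Subgroup Γ} (hH : Inv K A H)
    (hprH : IsPR p r H) : H ≤ normalizer (((H ⊓ P) ⊔ Fp H r : Subgroup Γ) : Set Γ) := by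
  haveI hsol := h.solvable_pr hH hprH
  obtain ⟨k, hk⟩ := h.exists_lcs_le hH hsol
  set F := Cfsg.fittingSubgroup H with hF
  set f := QuotientGroup.mk' F with hf
  haveI : Group.IsNilpotent (H ⧸ F) := by
    rw [Subgroup.nilpotent_iff_lowerCentralSeries]
    refine ⟨k, ?_⟩
    rw [← Subgroup.map_top_of_surjective f (QuotientGroup.mk'_surjective F),
      ← Subgroup.map_lowerCentralSeries, Subgroup.map_eq_bot_iff, hf, QuotientGroup.ker_mk']
    exact hk
  set P₀ : Subgroup H := (H ⊓ P).subgroupOf H with hP₀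
  have hP₀card : Nat.card P₀ = p ^ (Nat.card H).factorization p := by
    rw [hP₀, Nat.card_congr (subgroupOfEquivOfLe inf_le_left).toEquiv]
    exact h.card_inf_syl hP hH
  set S : Sylow p H := Sylow.ofCard P₀ hP₀card with hS
  have hSn : ((S : Subgroup H).map f).Normal := by
    have h2 := (Group.isNilpotent_of_finite_tfae (G := H ⧸ F)).out 0 3 rfl rfl
    have h3 := h2.1 inferInstance p ⟨Fact.out⟩ (S.mapSurjective (QuotientGroup.mk'_surjective F))
    rwa [Sylow.coe_mapSurjective] at h3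
  have hN : (P₀ ⊔ F).Normal := by
    have := hSn.comap f
    rwa [comap_map_eq, hf, QuotientGroup.ker_mk', hS, Sylow.coe_ofCard] at this
  have hmap : (P₀ ⊔ F).map H.subtype = (H ⊓ P) ⊔ Fp H r := by
    rw [Subgroup.map_sup, hP₀, map_subgroupOf_eq_of_le inf_le_left]
    refine le_antisymm (sup_le le_sup_left ?_) (sup_le le_sup_left ?_)
    · show Cfsg.fittingOf H ≤ _
      rw [OddLocal.fittingOf_eq_iSup]
      refine iSup_le fun s => ?_
      haveI : Fact (s : ℕ).Prime := ⟨s.2⟩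
      rcases eq_or_ne (Fp H (s : ℕ)) ⊥ with h0 | h0
      · rw [h0]; exact bot_le
      rcases hprH s s.2 ((OddLocal.dvd_card_of_pGroup_ne_bot (OddLocal.isPGroup_Fp H _) h0).trans
        (card_dvd_of_le (OddLocal.Fp_le H _))) with e | e
      · refine le_sup_of_le_left ?_
        have h4 := map_mono (f := H.subtype) (Cores.pCore_le_sylow S)
        rw [hS, Sylow.coe_ofCard, hP₀, map_subgroupOf_eq_of_le inf_le_left] at h4
        rw [e]; exact h4
      · rw [e]; exact le_sup_right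
    · exact le_sup_of_le_right (OddLocal.Fp_le_fittingOf H r)
  rw [← hmap]
  exact OddLocal.le_normalizer_map_subtype _

theorem Fp_inv {H : Subgroup Γ} (hH : Inv K A H) (s : ℕ) : Inv K A (Fp H s) :=
  ⟨(OddLocal.Fp_le H s).trans hH.1,
    hH.2.trans (Coprime.normalizer_le_normalizer_map_characteristic H _)⟩

theorem Fp_le_syl {s : ℕ} [Fact s.Prime] {S : Subgroup Γ} (hS : IsSyl K A s S) {H : Subgroup Γ}
    (hH : Inv K A H) : Fp H s ≤ H ⊓ S :=
  le_inf (OddLocal.Fp_le H s) (hS.le _ (h.Fp_inv hH s) (OddLocal.isPGroup_Fp H s))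

end Min

end Cfsg.Agent.FGS.AbCent
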