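import Cfsg.Agent.Coprime.Action
import Cfsg.Agent.Coprime.Generation
import Cfsg.Agent.Solvable.FixedPointFree
import Cfsg.Agent.PGroup.Frattini

/-!
A group `X` acted on fixed-point-freely by an element `c` of prime order centralizes a coprime
`p`-group `V` as soon as it centralizes the fixed points of `c` on `V`.
-/

set_option autoImplicit false
set_option linter.style.haveILetI false

namespace Cfsg.Agent.FGS.AbCent

open Subgroup
open scoped commutatorElement

variable {Γ : Type*} [Group Γ] [Finite Γ]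

/-- The abelian case. -/
theorem frob_abelian {V X : Subgroup Γ} [IsMulCommutative V] {c : Γ} {q : ℕ} (hq : q.Prime)
    (hcq : c ^ q = 1) (hcV : c ∈ normalizer (V : Set Γ)) (hcX : c ∈ normalizer (X : Set Γ))
    (hXV : X ≤ normalizer (V : Set Γ)) (hcop : (Nat.card X).Coprime (Nat.card V))
    (hXc : X ⊓ centralizer {c} = ⊥) (hVc : V ⊓ centralizer {c} ≤ centralizer (X : Set Γ)) :
    X ≤ centralizer (V : Set Γ) := by
  set W := ⁅V, X⁆ with hW
  have hWV : W ≤ V := Coprime.commutator_le_of_le_normalizer hXV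
  have hcW : c ∈ normalizer (W : Set Γ) :=
    Coprime.normalizer_inf_le_normalizer_commutator V X ⟨hcV, hcX⟩
  have hXW : X ≤ normalizer (W : Set Γ) := Coprime.le_normalizer_commutator_right V X
  set Y := W ⊔ X with hY
  have hcY : ∀ y ∈ Y, c * y * c⁻¹ ∈ Y := fun y hy =>
    (mem_normalizer_iff.1
      (normalizer_inf_normalizer_le_normalizer_sup W X ⟨hcW, hcX⟩) y).1 hy
  let φ : Y ≃* Y :=
    Y.normalizerMonoidHom ⟨c, normalizer_inf_normalizer_le_normalizer_sup W X ⟨hcW, hcX⟩⟩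
  have hφc : ∀ y : Y, (φ y : Γ) = c * y * c⁻¹ := fun y => rfl
  have hWX : W ⊓ X = ⊥ :=
    inf_eq_bot_of_coprime (Nat.Coprime.coprime_dvd_left (card_dvd_of_le hWV) hcop.symm)
  have hfix : ∀ y : Y, φ y = y → y = 1 := by
    intro y hy
    have hy' : c * y * c⁻¹ = (y : Γ) := (hφc y).symm.trans (congrArg Subtype.val hy)
    have hy2 : (y : Γ) ∈ X ⊔ W := by rw [sup_comm]; exact y.2
    obtain ⟨x, hx, w, hw, hxw⟩ := Coprime.exists_mul_of_mem_sup hXW hy2
    rw [hxw] at hy'
    have hx' : x⁻¹ * (c * x * c⁻¹) ∈ W := by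
      have e : x⁻¹ * (c * x * c⁻¹) = w * (c * w * c⁻¹)⁻¹ := by
        have h1 : (c * x * c⁻¹) * (c * w * c⁻¹) = x * w := by rw [← hy']; group
        calc x⁻¹ * (c * x * c⁻¹)
            = x⁻¹ * ((c * x * c⁻¹) * (c * w * c⁻¹)) * (c * w * c⁻¹)⁻¹ := by group
          _ = w * (c * w * c⁻¹)⁻¹ := by rw [h1]; group
      rw [e]
      exact mul_mem hw (inv_mem ((mem_normalizer_iff.1 hcW w).1 hw))
    have hxx : c * x * c⁻¹ = x := by
      have h : x⁻¹ * (c * x * c⁻¹) ∈ W ⊓ X :=
        ⟨hx', X.mul_mem (X.inv_mem hx) ((mem_normalizer_iff.1 hcX x).1 hx)⟩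
      rw [hWX, mem_bot, inv_mul_eq_one] at h
      exact h.symm
    have hx1 : x = 1 := by
      have h : x ∈ X ⊓ centralizer {c} :=
        ⟨hx, mem_centralizer_singleton_iff.2 (mul_inv_eq_iff_eq_mul.1 hxx).symm⟩
      rwa [hXc, mem_bot] at h
    rw [hx1, one_mul] at hy'
    have hw1 : w = 1 := by
      have h : w ∈ (V ⊓ centralizer (X : Set Γ)) ⊓ W :=
        ⟨⟨hWV hw, hVc ⟨hWV hw,
          mem_centralizer_singleton_iff.2 (mul_inv_eq_iff_eq_mul.1 hy').symm⟩⟩, hw⟩
      rwa [Coprime.centralizer_inf_commutator_eq_bot hXV hcop, mem_bot] at h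
    exact Subtype.ext (by rw [hxw, hx1, hw1]; simp)
  have hiter : (⇑φ)^[q] = id := by
    have : ∀ (n : ℕ) (y : Y), (((⇑φ)^[n] y : Y) : Γ) = c ^ n * y * (c ^ n)⁻¹ := by
      intro n
      induction n with
      | zero => intro y; simp
      | succ n ih =>
        intro y
        rw [Function.iterate_succ', Function.comp_apply, hφc, ih, pow_succ']
        group
    funext y
    exact Subtype.ext (by rw [this, hcq]; simp)
  haveI : IsMulCommutative (W.subgroupOf Y) := ⟨⟨fun x y => Subtype.ext (Subtype.ext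
    (show ((x : Y) : Γ) * ((y : Y) : Γ) = ((y : Y) : Γ) * ((x : Y) : Γ) from
      congrArg Subtype.val (IsMulCommutative.is_comm.comm
        (⟨_, hWV x.2⟩ : V) ⟨_, hWV y.2⟩)))⟩⟩
  have hcen := Solvable.centralizes_of_fpf hfix hq hiter (W.subgroupOf Y) (X.subgroupOf Y)
    (fun x hx => by
      rw [mem_subgroupOf, hφc]
      exact (mem_normalizer_iff.1 hcW _).1 hx)
    (fun x hx => by
      rw [mem_subgroupOf, hφc]
      exact (mem_normalizer_iff.1 hcX _).1 hx)
    (fun x hx => by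
      rw [← subgroupOf_normalizer_eq (le_sup_left : W ≤ Y)]
      exact hXW hx)
    (by
      rw [Nat.card_congr (subgroupOfEquivOfLe (le_sup_left : W ≤ Y)).toEquiv,
        Nat.card_congr (subgroupOfEquivOfLe (le_sup_right : X ≤ Y)).toEquiv]
      exact hcop.coprime_dvd_right (card_dvd_of_le hWV))
  refine Coprime.le_centralizer_of_commutator_commutator_eq_bot hXV hcop ?_
  rw [commutator_eq_bot_iff_le_centralizer]
  intro w hw
  rw [mem_centralizer_iff]
  intro x hx
  have h := mem_centralizer_iff.1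
    (hcen (show (⟨x, mem_sup_right hx⟩ : Y) ∈ X.subgroupOf Y from hx))
    ⟨w, mem_sup_left hw⟩ hw
  exact (congrArg Subtype.val h).symm

/-- If `c` of prime order acts fixed-point-freely on `X` and `X` centralizes `C_V(c)`, then `X`
centralizes the coprime `p`-group `V`. -/
theorem frob_centralizes {V X : Subgroup Γ} {s : ℕ} [Fact s.Prime] (hV : IsPGroup s V)
    {c : Γ} {q : ℕ} (hq : q.Prime)
    (hcq : c ^ q = 1) (hqs : q ≠ s) (hcV : c ∈ normalizer (V : Set Γ))
    (hcX : c ∈ normalizer (X : Set Γ))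
    (hXV : X ≤ normalizer (V : Set Γ)) (hcop : (Nat.card X).Coprime s)
    (hXc : X ⊓ centralizer {c} = ⊥) (hVc : V ⊓ centralizer {c} ≤ centralizer (X : Set Γ)) :
    X ≤ centralizer (V : Set Γ) := by
  classical
  set H := normalizer (V : Set Γ) with hH
  set Φ := (frattini V).map V.subtype with hΦ
  have hΦV : Φ ≤ V := map_subtype_le _
  haveI : (Φ.subgroupOf H).Normal :=
    (normal_subgroupOf_iff_le_normalizer (hΦV.trans le_normalizer)).2
      (Coprime.normalizer_le_normalizer_map_characteristic V _)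
  have hXs : (Nat.card X).Coprime (Nat.card V) := by
    obtain ⟨k, hk⟩ := hV.exists_card_eq
    rw [hk]; exact hcop.pow_right k
  set N := Φ.subgroupOf H with hN
  set f := QuotientGroup.mk' N with hf
  set V' := V.subgroupOf H with hV'
  set X' := X.subgroupOf H with hX'
  set c' : H := ⟨c, hcV⟩ with hc'
  have hN_V : N ≤ V' := fun y hy => hΦV hy
  haveI : IsMulCommutative (V'.map f) := by
    refine ⟨⟨fun a b => Subtype.ext ?_⟩⟩
    obtain ⟨x, hx, hxa⟩ := a.2
    obtain ⟨y, hy, hyb⟩ := b.2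
    show (a : H ⧸ N) * b = b * a
    rw [← hxa, ← hyb, ← map_mul, ← map_mul]
    apply QuotientGroup.eq.mpr
    have hc : ⁅(⟨(y : Γ), hy⟩ : V)⁻¹, (⟨(x : Γ), hx⟩ : V)⁻¹⁆ ∈ frattini ↥V :=
      PGroup.commutatorElement_mem_frattini hV _ _
    refine ⟨_, hc, ?_⟩
    simp only [commutatorElement_def, map_mul, map_inv, inv_inv, Subgroup.coe_subtype,
      Subgroup.coe_mul, Subgroup.coe_inv]
    group
  have hcN : (Nat.card (zpowers c')).Coprime (Nat.card N) := by
    obtain ⟨k, hk⟩ := hV.exists_card_eq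
    have h1 : Nat.card (zpowers c') ∣ q := by
      rw [Nat.card_zpowers]
      exact orderOf_dvd_of_pow_eq_one (Subtype.ext hcq)
    have h2 : Nat.card N ∣ s ^ k := by
      rw [← hk, hN, Nat.card_congr (subgroupOfEquivOfLe (hΦV.trans le_normalizer)).toEquiv]
      exact card_dvd_of_le hΦV
    exact Nat.Coprime.coprime_dvd_right h2
      ((((Nat.coprime_primes hq Fact.out).2 hqs).pow_right k).coprime_dvd_left h1)
  have hfixed : ∀ L : Subgroup H, N ≤ L → L.map f ⊓ centralizer {f c'} =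
      (L ⊓ centralizer {c'}).map f := by
    intro L hL
    have h := Coprime.inf_centralizer_map_mk' (zpowers c') L N hL hcN (Or.inl inferInstance)
    rwa [MonoidHom.map_zpowers, zpowers_eq_closure, zpowers_eq_closure, centralizer_closure,
      centralizer_closure] at h
  have hmain : X'.map f ≤ centralizer ((V'.map f : Subgroup (H ⧸ N)) : Set (H ⧸ N)) := by
    refine frob_abelian (c := f c') hq ?_ ?_ ?_ ?_ ?_ ?_ ?_
    · rw [← map_pow, show c' ^ q = 1 from Subtype.ext hcq, map_one]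
    · refine le_normalizer_map f ⟨c', ?_, rfl⟩
      rw [hV', ← subgroupOf_normalizer_eq le_normalizer]
      exact hcV
    · refine le_normalizer_map f ⟨c', ?_, rfl⟩
      rw [hX', ← subgroupOf_normalizer_eq hXV]
      exact hcX
    · refine (map_mono fun x hx => ?_).trans (le_normalizer_map f)
      rw [hV', ← subgroupOf_normalizer_eq le_normalizer]
      exact hXV hx
    · refine Nat.Coprime.coprime_dvd_left (card_map_dvd _ _)
        (Nat.Coprime.coprime_dvd_right (card_map_dvd _ _) ?_)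
      rw [Nat.card_congr (subgroupOfEquivOfLe hXV).toEquiv,
        Nat.card_congr (subgroupOfEquivOfLe (le_normalizer : V ≤ H)).toEquiv]
      exact hXs
    · rw [eq_bot_iff]
      rintro _ ⟨⟨x, hx, rfl⟩, hxc⟩
      have hmem : x⁻¹ * (c' * x * c'⁻¹) ∈ N := by
        rw [← QuotientGroup.eq_one_iff]
        show f _ = 1
        have h := mem_centralizer_singleton_iff.1 hxc
        simp only [map_mul, map_inv]
        rw [← h]
        group
      have hX0 : X ⊓ V = ⊥ := inf_eq_bot_of_coprime hXs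
      have h1 : (x : Γ)⁻¹ * (c * x * c⁻¹) ∈ X ⊓ V :=
        ⟨X.mul_mem (X.inv_mem hx) ((mem_normalizer_iff.1 hcX _).1 hx), hΦV hmem⟩
      rw [hX0, mem_bot, inv_mul_eq_one] at h1
      have h2 : (x : Γ) ∈ X ⊓ centralizer {c} :=
        ⟨hx, mem_centralizer_singleton_iff.2 (mul_inv_eq_iff_eq_mul.1 h1.symm).symm⟩
      rw [hXc, mem_bot] at h2
      rw [show x = 1 from Subtype.ext h2, map_one]
      exact one_mem _
    · rw [hfixed V' hN_V]
      rintro _ ⟨v, ⟨hv, hvc⟩, rfl⟩
      rw [mem_centralizer_iff]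
      rintro _ ⟨x, hx, rfl⟩
      rw [← map_mul, ← map_mul]
      congr 1
      have hvc' : (v : Γ) ∈ V ⊓ centralizer {c} := ⟨hv, mem_centralizer_singleton_iff.2
        (congrArg Subtype.val (mem_centralizer_singleton_iff.1 hvc))⟩
      exact Subtype.ext (mem_centralizer_iff.1 (hVc hvc') _ hx)
  refine Coprime.le_centralizer_of_frattini hXV
    (hXs.coprime_dvd_right (card_subgroup_dvd_card _)) fun x hx k hk => ?_
  have h := mem_centralizer_iff.1 (hmain ⟨⟨x, hXV hx⟩, hx, rfl⟩) (f ⟨k, le_normalizer hk⟩)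
    ⟨⟨k, le_normalizer hk⟩, hk, rfl⟩
  have h1 : f ((⟨k, le_normalizer hk⟩ : H)⁻¹ * ⟨x, hXV hx⟩ * ⟨k, le_normalizer hk⟩ *
      (⟨x, hXV hx⟩ : H)⁻¹) = 1 := by
    simp only [map_mul, map_inv, mul_assoc]
    rw [← mul_assoc (f ⟨x, hXV hx⟩) (f ⟨k, le_normalizer hk⟩), ← h]
    group
  have h2 : ((⟨k, le_normalizer hk⟩ : H)⁻¹ * ⟨x, hXV hx⟩ * ⟨k, le_normalizer hk⟩ *
      (⟨x, hXV hx⟩ : H)⁻¹) ∈ N := (QuotientGroup.eq_one_iff (N := N) _).1 h1
  exact h2

end Cfsg.Agent.FGS.AbCent
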