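import Cfsg.Agent.FGS.AbCentBasic
import Cfsg.Agent.Modules.Thompson
import Cfsg.Agent.Transfer.Frobenius
import Cfsg.Agent.Transfer.Residual
import Cfsg.Agent.H4.ThompsonNPC

/-!
A minimal example: no Sylow subgroup lies in one centralizer `C(a)`, and for odd `p` the invariant
Sylow `p`-subgroup meets `C(b)` for all `b` outside one cyclic subgroup of `A`.
-/

set_option autoImplicit false
set_option linter.style.haveILetI false

namespace Cfsg.Agent.FGS.AbCent.Min

open Subgroup
open scoped Pointwise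
open Cfsg.Agent.OddLocal (Fp)

variable {Γ : Type*} [Group Γ] [Finite Γ] {q : ℕ} {K A : Subgroup Γ} (h : Min q K A)
include h

theorem dvd_of_ne_bot {p : ℕ} [Fact p.Prime] {P : Subgroup Γ} (hP : IsSyl K A p P) (h1 : P ≠ ⊥) :
    p ∣ Nat.card K :=
  (OddLocal.dvd_card_of_pGroup_ne_bot hP.pgroup h1).trans (card_dvd_of_le hP.inv.1)

/-- The invariant Sylow subgroup as a Sylow subgroup of `K`. -/
theorem exists_sylow {p : ℕ} [Fact p.Prime] {P : Subgroup Γ} (hP : IsSyl K A p P) :
    ∃ S : Sylow p K, (S : Subgroup K) = P.subgroupOf K :=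
  ⟨Sylow.ofCard (P.subgroupOf K)
    (by rw [Nat.card_congr (subgroupOfEquivOfLe hP.inv.1).toEquiv, hP.card]), Sylow.coe_ofCard _ _⟩

/-- `K` has no normal `p`-complement. -/
theorem not_npc {p : ℕ} [Fact p.Prime] (hd : p ∣ Nat.card K) :
    ¬ Cfsg.HasNormalPComplement p K := by
  rintro ⟨S, N, hN, hNS⟩
  have hA := h.toHyp.le_normalizer
  have hmem : ∀ g ∈ A, ∀ (x : K) (hx : g * (x : Γ) * g⁻¹ ∈ K), x ∈ N →
      (⟨g * (x : Γ) * g⁻¹, hx⟩ : K) ∈ N := by
    intro g hg x hx hxN
    rw [Transfer.mem_normal_p_complement_iff S N hNS] at hxN ⊢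
    have : orderOf (⟨g * (x : Γ) * g⁻¹, hx⟩ : K) = orderOf x := by
      rw [← Subgroup.orderOf_coe, ← Subgroup.orderOf_coe x]
      exact orderOf_injective (MulAut.conj g).toMonoidHom (MulAut.conj g).injective (x : Γ)
    rwa [this]
  set N' := N.map K.subtype with hN'
  have hN'A : A ≤ normalizer (N' : Set Γ) := by
    intro g hg
    rw [mem_normalizer_iff]
    intro y
    constructor
    · rintro ⟨x, hx, rfl⟩
      exact ⟨⟨_, (mem_normalizer_iff.1 (hA hg) _).1 x.2⟩, hmem g hg x _ hx, rfl⟩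
    · rintro ⟨x, hx, hxy⟩
      have hg' := inv_mem hg
      have hy : y = g⁻¹ * (x : Γ) * g⁻¹⁻¹ := by
        rw [show (x : Γ) = g * y * g⁻¹ from hxy]; group
      subst hy
      exact ⟨⟨_, (mem_normalizer_iff.1 (hA hg') _).1 x.2⟩, hmem _ hg' x _ hx, rfl⟩
  rcases h.simple N' (map_subtype_le _) hN'A (OddLocal.le_normalizer_map_subtype _) with h1 | h1
  · rw [hN', map_eq_bot_iff_of_injective _ K.subtype_injective] at h1
    subst h1
    have hcard := hNS.card_mul
    rw [card_bot, one_mul] at hcard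
    obtain ⟨k, hk⟩ := S.isPGroup'.exists_card_eq
    haveI : Group.IsNilpotent K := (IsPGroup.of_card (hcard.symm.trans hk)).isNilpotent
    exact h.notsolv inferInstance
  · have hcard := hNS.card_mul
    have e : Nat.card N = Nat.card K := by
      rw [← card_map_of_injective K.subtype_injective (K := N), ← hN', h1]
    rw [e] at hcard
    have hS1 : Nat.card (S : Subgroup K) = 1 :=
      Nat.eq_of_mul_eq_mul_left Nat.card_pos (hcard.trans (mul_one _).symm)
    have := S.dvd_card_of_dvd_card hd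
    rw [hS1] at this
    exact (Fact.out : p.Prime).not_dvd_one this

/-- No Sylow subgroup is contained in the centralizer of a single `a ∈ A#`. -/
theorem not_le_cent {p : ℕ} [Fact p.Prime] (hd : p ∣ Nat.card K) {P : Subgroup Γ}
    (hP : IsSyl K A p P) {a : Γ} (ha : a ∈ A) (ha1 : a ≠ 1) : ¬ P ≤ centralizer {a} := by
  intro hPa
  have hPc : P ≤ K ⊓ centralizer {a} := le_inf hP.inv.1 hPa
  obtain ⟨S, hS⟩ := h.exists_sylow hP
  refine h.not_npc hd (Transfer.hasNormalPComplement_of_normalizer_le_centralizer S ?_)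
  have key : K ⊓ normalizer (P : Set Γ) ≤ centralizer (P : Set Γ) := by
    have hH : Inv K A (K ⊓ normalizer (P : Set Γ)) :=
      inv_inf h.inv_K (hP.inv.2.trans Subgroup.le_normalizer)
    refine h.toHyp.gen hH fun d hdA hd1 => ?_
    by_cases hda : d ∈ zpowers a
    · have e := h.toHyp.centralizer_eq ha hdA hd1 hda
      exact h.toHyp.abel_le ha ha1 (le_inf (inf_le_left.trans inf_le_left)
        (inf_le_right.trans e.le)) hPc
    · refine h.le_of_syl (h.toHyp.inv_cent hH hdA) fun s _ T hT _ => ?_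
      obtain ⟨b, hb, hba, hbd⟩ := h.toHyp.exists_third ha hdA
      rcases eq_or_ne s p with rfl | hsp
      · have hPcomm : P ≤ centralizer (P : Set Γ) := h.toHyp.abel_le ha ha1 hPc hPc
        refine le_trans (hP.le _ ?_ (hT.pgroup.to_le inf_le_right)) hPcomm
        exact inv_inf (h.toHyp.inv_cent hH hdA) hT.inv.2
      · refine h.key hP.inv hP.pgroup (inv_inf (h.toHyp.inv_cent hH hdA) hT.inv.2)
          (inf_le_left.trans (inf_le_left.trans inf_le_right)) ?_ hdA hd1 hb hbd
          (inf_le_left.trans inf_le_right) ?_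
        · obtain ⟨k, hk⟩ := (hT.pgroup.to_le (inf_le_right :
            (K ⊓ normalizer (P : Set Γ) ⊓ centralizer {d}) ⊓ T ≤ T)).exists_card_eq
          rw [hk]
          exact ((Nat.coprime_primes Fact.out Fact.out).2 hsp).pow_left k
        · rw [h.pair_eq_bot hP.inv.1 ha hb ha1 hba hPa]
          exact bot_le
  intro x hx
  rw [mem_centralizer_iff]
  intro y hy
  have hxn : (x : Γ) ∈ K ⊓ normalizer (P : Set Γ) := by
    refine ⟨x.2, ?_⟩
    rw [hS, ← subgroupOf_normalizer_eq hP.inv.1] at hx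
    exact hx
  rw [hS] at hy
  exact Subtype.ext (mem_centralizer_iff.1 (key hxn) (y : Γ) hy)

/-- A proper solvable invariant overgroup of `P` without normal `p`-complement contains an
invariant subgroup of some `C(d)` normalizing `P` without centralizing it. -/
theorem exists_acting {p : ℕ} [Fact p.Prime] {P : Subgroup Γ} (hP : IsSyl K A p P)
    {H : Subgroup Γ} (hH : Inv K A H) (hs : Group.IsSolvable H) (hPH : P ≤ H)
    (hn : ¬ Cfsg.HasNormalPComplement p H) :
    ∃ d ∈ A, d ≠ 1 ∧ ∃ Y : Subgroup Γ, Inv K A Y ∧ Y ≤ centralizer {d} ∧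
      Y ≤ normalizer (P : Set Γ) ∧ (Nat.card Y).Coprime p ∧ ¬ Y ≤ centralizer (P : Set Γ) := by
  classical
  by_contra hcon
  apply hn
  have hcop : ∀ (s : ℕ) [Fact s.Prime] (X : Subgroup Γ), IsPGroup s X → s ≠ p →
      (Nat.card X).Coprime p := fun s _ X hX hsp => by
    obtain ⟨k, hk⟩ := hX.exists_card_eq
    rw [hk]; exact ((Nat.coprime_primes Fact.out Fact.out).2 hsp).pow_left k
  have hnorm : ∀ (s : ℕ) [Fact s.Prime] (S : Subgroup Γ), IsSyl K A s S → s ≠ p →
      P ≤ normalizer ((H ⊓ S : Subgroup Γ) : Set Γ) := by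
    intro s _ S hS hsp
    obtain ⟨L, hLH, hL, hLπ, hLmax⟩ := h.exists_hall {t | t = p ∨ t = s} hH hs
    have hprL : IsPR p s L := hLπ
    have hPL : P ≤ L := hLmax P hPH hP.inv.2 fun t ht hdt => isPR_of_pGroup hP.pgroup t ht hdt
    have hSinv : Inv K A (H ⊓ S) := inv_inf hH hS.inv.2
    have hSL : H ⊓ S ≤ L := hLmax _ inf_le_left hSinv.2 fun t ht hdt =>
      (isPR_of_pGroup (r := p) (hS.pgroup.to_le inf_le_right) t ht hdt).symm
    have hnor := h.sup_Fp_normal (r := s) hP hL hprL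
    rw [inf_eq_right.2 hPL] at hnor
    have hFpS : Fp L s ≤ H ⊓ S := le_inf ((OddLocal.Fp_le L s).trans hLH)
      ((h.Fp_le_syl hS hL).trans inf_le_right)
    -- the elements of `H ⊓ S` normalizing `P` centralize it
    have hN : (H ⊓ S) ⊓ normalizer (P : Set Γ) ≤ centralizer (P : Set Γ) := by
      refine h.toHyp.gen (inv_inf hSinv (hP.inv.2.trans Subgroup.le_normalizer)) fun d hdA hd1 => ?_
      by_contra hY
      exact hcon ⟨d, hdA, hd1, _, h.toHyp.inv_cent (inv_inf hSinv
        (hP.inv.2.trans Subgroup.le_normalizer)) hdA, inf_le_right,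
        inf_le_left.trans inf_le_right,
        hcop s _ (hS.pgroup.to_le (inf_le_left.trans (inf_le_left.trans inf_le_right))) hsp, hY⟩
    -- Frattini argument in `L`
    obtain ⟨U, hU⟩ : ∃ U : Sylow p ↥(P ⊔ Fp L s : Subgroup Γ),
        (U : Subgroup ↥(P ⊔ Fp L s)).map (P ⊔ Fp L s).subtype = P := by
      refine Coprime.exists_sylow_map_eq le_sup_left ?_
      rw [← h.card_inf_syl hP (inv_sup hP.inv (h.Fp_inv hL s)),
        inf_eq_right.2 (le_sup_left : P ≤ P ⊔ Fp L s)]
    have hfr : ∀ g ∈ H ⊓ S, ∃ o ∈ Fp L s, ∃ n ∈ normalizer (P : Set Γ), g = o * n := by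
      intro g hg
      have hgM : g ∈ normalizer ((P ⊔ Fp L s : Subgroup Γ) : Set Γ) := hnor (hSL hg)
      have hconj : MulAut.conj g • P ≤ P ⊔ Fp L s :=
        (Coprime.conj_smul_mono le_sup_left g).trans (Coprime.conj_smul_eq_self_iff.2 hgM).le
      obtain ⟨T, hT⟩ := Coprime.exists_sylow_map_eq hconj (p := p) (by
        rw [Coprime.card_conj_smul, ← h.card_inf_syl hP (inv_sup hP.inv (h.Fp_inv hL s)),
          inf_eq_right.2 (le_sup_left : P ≤ P ⊔ Fp L s)])
      obtain ⟨m, hm, hmT⟩ := Coprime.sylow_map_conj U T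
      rw [hU, hT] at hmT
      obtain ⟨o, ho, x, hx, rfl⟩ := Coprime.exists_mul_of_mem_sup'
        (hPL.trans (OddLocal.le_normalizer_Fp L s)) hm
      refine ⟨o, ho, o⁻¹ * g, ?_, by group⟩
      rw [← Coprime.conj_smul_eq_self_iff, ← Coprime.conj_smul_conj_smul, ← hmT,
        Coprime.conj_smul_conj_smul, inv_mul_cancel_left]
      exact Coprime.conj_smul_eq_self_iff.2 (Subgroup.le_normalizer hx)
    intro x hx
    have hone : ∀ y ∈ P, ∀ g ∈ H ⊓ S, y * g * y⁻¹ ∈ H ⊓ S := by
      intro y hy g hg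
      obtain ⟨o, ho, n, hn', rfl⟩ := hfr g hg
      have hn2 : n ∈ H ⊓ S := by
        have := Subgroup.mul_mem _ (Subgroup.inv_mem _ (hFpS ho)) hg
        rwa [inv_mul_cancel_left] at this
      have hcomm := mem_centralizer_iff.1 (hN ⟨hn2, hn'⟩) y hy
      have e : y * (o * n) * y⁻¹ = (y * o * y⁻¹) * n := by
        calc y * (o * n) * y⁻¹ = y * o * y⁻¹ * (y * n) * y⁻¹ := by group
          _ = (y * o * y⁻¹) * n := by rw [hcomm]; group
      rw [e]
      exact Subgroup.mul_mem _ (hFpS ((mem_normalizer_iff.1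
        (OddLocal.le_normalizer_Fp L s (hPL hy)) o).1 ho)) hn2
    rw [mem_normalizer_iff]
    intro g
    refine ⟨hone x hx g, fun hg => ?_⟩
    have h2 := hone x⁻¹ (inv_mem hx) _ hg
    simpa [mul_assoc] using h2
  -- the normal `p`-complement of `H`
  obtain ⟨M, hMH, hM, hMπ, hMmax⟩ := h.exists_hall {t | t ≠ p} hH hs
  have hSM : ∀ (s : ℕ) [Fact s.Prime] (S : Subgroup Γ), IsSyl K A s S → s ≠ p → H ⊓ S ≤ M :=
    fun s _ S hS hsp => hMmax _ inf_le_left (inv_inf hH hS.inv.2).2 fun t ht hdt => by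
      rcases isPR_of_pGroup (r := s) (hS.pgroup.to_le inf_le_right) t ht hdt with e | e <;>
        · rw [e]; exact hsp
  have hMp : ¬ p ∣ Nat.card M := fun hd => hMπ p Fact.out hd rfl
  have hPM : P ≤ normalizer (M : Set Γ) := by
    intro x hx
    refine mem_normalizer_iff_map_conj_eq.2 (eq_of_le_of_card_ge ?_
      (by rw [card_map_of_injective (MulAut.conj x).injective]))
    rw [map_le_iff_le_comap]
    refine h.le_of_syl hM fun s _ S hS hds => ?_
    have hsp : s ≠ p := fun e => hMp (e ▸ hds)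
    intro g hg
    exact hSM s S hS hsp ((mem_normalizer_iff.1 (hnorm s S hS hsp hx) g).1 ⟨hMH hg.1, hg.2⟩)
  have hHeq : H ≤ M ⊔ P := by
    refine h.le_of_syl hH fun s _ S hS _ => ?_
    rcases eq_or_ne s p with rfl | hsp
    · exact le_sup_of_le_right (hP.le _ (inv_inf hH hS.inv.2) (hS.pgroup.to_le inf_le_right))
    · exact le_sup_of_le_left (hSM s S hS hsp)
  have hnorm' : H ≤ normalizer (M : Set Γ) := hHeq.trans (sup_le Subgroup.le_normalizer hPM)
  haveI : (M.subgroupOf H).Normal := (normal_subgroupOf_iff_le_normalizer hMH).2 hnorm'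
  refine ⟨Sylow.ofCard (P.subgroupOf H) ?_, M.subgroupOf H, inferInstance, ?_⟩
  · rw [Nat.card_congr (subgroupOfEquivOfLe hPH).toEquiv]
    have := h.card_inf_syl hP hH
    rwa [inf_eq_right.2 hPH] at this
  rw [Sylow.coe_ofCard]
  have hcopMP : (Nat.card M).Coprime (Nat.card P) := by
    obtain ⟨k, hk⟩ := hP.pgroup.exists_card_eq
    rw [hk]
    exact (((Fact.out : p.Prime).coprime_iff_not_dvd.2 hMp).symm).pow_right k
  refine isComplement'_of_coprime ?_ ?_
  · have hc := Coprime.card_sup_of_coprime (A := P) (K := M) hPM hcopMP.symm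
    rw [Nat.card_congr (subgroupOfEquivOfLe hPH).toEquiv,
      Nat.card_congr (subgroupOfEquivOfLe hMH).toEquiv, mul_comm, ← hc, sup_comm,
      le_antisymm (sup_le hMH hPH) hHeq]
  · rw [Nat.card_congr (subgroupOfEquivOfLe hPH).toEquiv,
      Nat.card_congr (subgroupOfEquivOfLe hMH).toEquiv]
    exact hcopMP

/-- For odd `p`, the Sylow `p`-subgroup meets all but one of the centralizers. -/
theorem exists_full {p : ℕ} [Fact p.Prime] (hp : p ≠ 2) (hd : p ∣ Nat.card K) {P : Subgroup Γ}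
    (hP : IsSyl K A p P) :
    ∃ d ∈ A, d ≠ 1 ∧ ∀ b ∈ A, b ∉ zpowers d → P ⊓ centralizer {b} ≠ ⊥ := by
  classical
  obtain ⟨S, hS⟩ := h.exists_sylow hP
  have hSmap : (S : Subgroup K).map K.subtype = P := by
    rw [hS, map_subgroupOf_eq_of_le hP.inv.1]
  set J := Cfsg.thompsonSubgroupOf p P with hJ
  set Z := P ⊓ centralizer (P : Set Γ) with hZ
  have hPne : P ≠ ⊥ := fun e => by
    have h1 := S.dvd_card_of_dvd_card hd
    rw [hS, e, bot_subgroupOf, card_bot] at h1
    exact (Fact.out : p.Prime).not_dvd_one h1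
  have hJI : Inv K A J :=
    ⟨(Modules.thompsonSubgroupOf_le p P).trans hP.inv.1,
      hP.inv.2.trans (Modules.normalizer_le_normalizer_thompsonSubgroupOf p P)⟩
  have hJne : J ≠ ⊥ := Modules.thompsonSubgroupOf_ne_bot (OddLocal.dvd_card_of_pGroup_ne_bot hP.pgroup hPne)
  have hJp : IsPGroup p J := hP.pgroup.to_le (Modules.thompsonSubgroupOf_le p P)
  have hZI : Inv K A Z := inv_inf hP.inv (le_normalizer_centralizer hP.inv.2)
  have hZne : Z ≠ ⊥ := Modules.inf_centralizer_ne_bot hP.pgroup hPne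
  obtain ⟨hI1, hs1⟩ := h.normalizer_solvable (p := p) (r := p) hJI hJne (isPR_of_pGroup hJp)
  obtain ⟨hI2, hs2⟩ := h.centralizer_solvable hZI hZne
  have hP1 : P ≤ K ⊓ normalizer (J : Set Γ) := le_inf hP.inv.1
    (Subgroup.le_normalizer.trans (Modules.normalizer_le_normalizer_thompsonSubgroupOf p P))
  have hP2 : P ≤ K ⊓ centralizer (Z : Set Γ) :=
    le_inf hP.inv.1 (le_centralizer_iff.1 inf_le_right)
  suffices hsuff : ∃ H : Subgroup Γ, Inv K A H ∧ Group.IsSolvable H ∧ P ≤ H ∧
      ¬ Cfsg.HasNormalPComplement p H by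
    obtain ⟨H, hH, hs, hPH, hn⟩ := hsuff
    obtain ⟨d, hdA, hd1, Y, hY, hYd, hYP, hYp, hYC⟩ := h.exists_acting hP hH hs hPH hn
    refine ⟨d, hdA, hd1, fun b hb hbd hbot => hYC ?_⟩
    exact h.key hP.inv hP.pgroup hY hYP hYp hdA hd1 hb hbd hYd (hbot.le.trans bot_le)
  by_contra hno
  push Not at hno
  refine h.not_npc hd (H4.thompson_npc hp S ?_ ?_)
  · have h1 := hno _ hI1 hs1 hP1
    set X := normalizer ((Cfsg.thompsonSubgroupOf p (S : Subgroup K) : Subgroup K) : Set K) with hX
    have e : X = (normalizer (J : Set Γ)).subgroupOf K := by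
      rw [hX, show J = (Cfsg.thompsonSubgroupOf p (S : Subgroup K)).map K.subtype by
        rw [hJ, Modules.map_thompsonSubgroupOf K.subtype_injective, hSmap],
        subgroupOf_normalizer_eq (map_subtype_le _), subgroupOf, comap_map_eq_self_of_injective
          K.subtype_injective]
    let φ : X →* ↥(K ⊓ normalizer (J : Set Γ)) :=
      (K.subtype.comp X.subtype).codRestrict _ fun x => ⟨(x : K).2, (e ▸ x.2 :
        (x : K) ∈ (normalizer (J : Set Γ)).subgroupOf K)⟩
    exact Transfer.hasNormalPComplement_of_injective φ (fun x y hxy => by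
      have hv := congrArg Subtype.val hxy
      exact Subtype.ext (Subtype.ext hv)) h1
  · have h2 := hno _ hI2 hs2 hP2
    set X := centralizer ((((S : Subgroup K) ⊓ centralizer ((S : Subgroup K) : Set K)) :
      Subgroup K) : Set K) with hX
    have e : ∀ x : K, x ∈ X → (x : Γ) ∈ centralizer (Z : Set Γ) := by
      intro x hx
      rw [mem_centralizer_iff]
      rintro z ⟨hzP, hzC⟩
      have hz' : (⟨z, hP.inv.1 hzP⟩ : K) ∈ (S : Subgroup K) ⊓
          centralizer ((S : Subgroup K) : Set K) := by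
        refine ⟨?_, mem_centralizer_iff.2 fun y hy => Subtype.ext ?_⟩
        · rw [hS]; exact hzP
        · rw [hS] at hy
          exact mem_centralizer_iff.1 hzC (y : Γ) hy
      exact congrArg Subtype.val (mem_centralizer_iff.1 hx _ hz')
    let φ : X →* ↥(K ⊓ centralizer (Z : Set Γ)) :=
      (K.subtype.comp X.subtype).codRestrict _ fun x => ⟨(x : K).2, e _ x.2⟩
    exact Transfer.hasNormalPComplement_of_injective φ (fun x y hxy => by
      have hv := congrArg Subtype.val hxy
      exact Subtype.ext (Subtype.ext hv)) h2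

end Cfsg.Agent.FGS.AbCent.Min
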