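import Cfsg.Agent.FGS.AbCentLines
import Cfsg.Agent.PSolv.HallHigman

/-!
In a minimal example any two invariant Sylow subgroups generate a `{p, r}`-subgroup.
-/

set_option autoImplicit false
set_option linter.style.haveILetI false

namespace Cfsg.Agent.FGS.AbCent.Min

open Subgroup
open scoped Pointwise
open Cfsg.Agent.OddLocal (Fp)

variable {Γ : Type*} [Group Γ] [Finite Γ] {q : ℕ} {K A : Subgroup Γ} (h : Min q K A)
include h

variable {p r : ℕ} [hp : Fact p.Prime] [hr : Fact r.Prime] {P R : Subgroup Γ}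

/-- `M` is a maximal invariant `{p, r}`-subgroup. -/
def _root_.Cfsg.Agent.FGS.AbCent.IsMax (K A : Subgroup Γ) (p r : ℕ) (M : Subgroup Γ) : Prop :=
  Inv K A M ∧ IsPR p r M ∧ ∀ U, Inv K A U → IsPR p r U → M ≤ U → U = M

omit h hp hr in
theorem isMax_symm {M : Subgroup Γ} (hM : IsMax K A p r M) : IsMax K A r p M :=
  ⟨hM.1, hM.2.1.symm, fun U hU hU' => hM.2.2 U hU hU'.symm⟩

omit h hp hr in
theorem exists_max {U : Subgroup Γ} (hU : Inv K A U) (hpr : IsPR p r U) :
    ∃ M, U ≤ M ∧ IsMax K A p r M := by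
  obtain ⟨M, hUM, hM⟩ := Finite.exists_le_maximal (a := U)
    (p := fun V : Subgroup Γ => Inv K A V ∧ IsPR p r V) ⟨hU, hpr⟩
  exact ⟨M, hUM, hM.1.1, hM.1.2, fun V hV hV' hle => le_antisymm (hM.2 ⟨hV, hV'⟩ hle) hle⟩

/-- A maximal subgroup absorbs the invariant `{p, r}`-subgroups of the normalizer of each of its
nontrivial invariant normal subgroups. -/
theorem le_max {M X U : Subgroup Γ} (hM : IsMax K A p r M) (hX : Inv K A X) (hXM : X ≤ M)
    (hX1 : X ≠ ⊥) (hMX : M ≤ normalizer (X : Set Γ)) (hU : Inv K A U) (hUpr : IsPR p r U)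
    (hUX : U ≤ normalizer (X : Set Γ)) : U ≤ M := by
  obtain ⟨hI, hs⟩ := h.normalizer_solvable hX hX1 (hM.2.1.mono hXM)
  obtain ⟨N, hNle, hN, hNπ, hNmax⟩ := h.exists_hall {t | t = p ∨ t = r} hI hs
  have hMN : M ≤ N := hNmax M (le_inf hM.1.1 hMX) hM.1.2 hM.2.1
  rw [← hM.2.2 N hN hNπ hMN]
  exact hNmax U (le_inf hU.1 hUX) hU.2 hUpr

omit h hp hr in
theorem isPR_sup_of_le {U V : Subgroup Γ} (hU : IsPR p r U) (hV : IsPR p r V)
    (hUV : U ≤ normalizer (V : Set Γ)) : IsPR p r (U ⊔ V) := by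
  intro s hs hd
  have : Nat.card ↥(U ⊔ V) ∣ Nat.card U * Nat.card V := by
    haveI : (V.subgroupOf (U ⊔ V)).Normal := (normal_subgroupOf_iff_le_normalizer le_sup_right).2
      (sup_le hUV Subgroup.le_normalizer)
    have h1 := Cores.card_sup_dvd_mul (U.subgroupOf (U ⊔ V)) (V.subgroupOf (U ⊔ V))
    rw [← subgroupOf_sup le_sup_left le_sup_right, subgroupOf_self, card_top,
      Nat.card_congr (subgroupOfEquivOfLe (le_sup_left : U ≤ U ⊔ V)).toEquiv,
      Nat.card_congr (subgroupOfEquivOfLe (le_sup_right : V ≤ U ⊔ V)).toEquiv] at h1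
    exact h1
  rcases hs.dvd_mul.1 (hd.trans this) with h' | h'
  · exact hU s hs h'
  · exact hV s hs h'

/-- `W₁ ≤ O_r(H)` when `H` contains normal subgroups `U₁`, `W₁` of a subgroup `M` which absorbs the
normalizer of `U₁`. -/
theorem le_Fp_of_absorb (hpr : p ≠ r) (hP : IsSyl K A p P) (hR : IsSyl K A r R)
    {M U₁ W₁ H : Subgroup Γ} (hU : Inv K A U₁) (hUp : IsPGroup p U₁) (hW : Inv K A W₁)
    (hWr : IsPGroup r W₁) (hWM : M ≤ normalizer (W₁ : Set Γ)) (hUW : W₁ ≤ centralizer (U₁ : Set Γ))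
    (hN : P ⊓ normalizer (U₁ : Set Γ) ≤ M) (hH : Inv K A H) (hHpr : IsPR p r H)
    (hUH : U₁ ≤ H) (hWH : W₁ ≤ H) : W₁ ≤ Fp H r := by
  haveI hsol := h.solvable_pr hH hHpr
  set O := Cfsg.pCore r H with hO
  set f := QuotientGroup.mk' O with hf
  set PH : Subgroup H := (H ⊓ P).subgroupOf H with hPH
  have hPHp : IsPGroup p PH :=
    (hP.pgroup.to_le (inf_le_right : H ⊓ P ≤ P)).comap_subtype
  have hdisj : PH ⊓ O = ⊥ := inf_eq_bot_of_coprime
    (OddLocal.coprime_card_pGroups (G := H) hpr hPHp Cores.pCore_isPGroup)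
  set V := PH.map f with hV
  have hVn : V.Normal := by
    have h1 := h.sup_Fp_normal (r := r) hP hH hHpr
    haveI h2 : (((H ⊓ P) ⊔ Fp H r).subgroupOf H).Normal :=
      (normal_subgroupOf_iff_le_normalizer (sup_le inf_le_left (OddLocal.Fp_le H r))).2 h1
    have e : ((H ⊓ P) ⊔ Fp H r).subgroupOf H = PH ⊔ O := by
      rw [subgroupOf_sup inf_le_left (OddLocal.Fp_le H r), hPH, hO]
      congr 1
      exact comap_map_eq_self_of_injective H.subtype_injective _
    have h3 := h2.map f (QuotientGroup.mk'_surjective O)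
    rw [e, Subgroup.map_sup, (Subgroup.map_eq_bot_iff _).2 (QuotientGroup.ker_mk' O).ge,
      sup_bot_eq] at h3
    exact h3
  haveI := hVn
  have hU₁ : U₁.subgroupOf H ≤ PH := fun x hx => ⟨x.2, hP.le U₁ hU hUp hx⟩
  set U' := (U₁.subgroupOf H).map f with hU'
  set W' := (W₁.subgroupOf H).map f with hW'
  have hcW : W' ≤ centralizer (V : Set (H ⧸ O)) := by
    refine Coprime.pxq_lemma (P := U') ((hUp.comap_subtype).map f) ?_ (hPHp.map f)
      le_normalizer_of_normal le_normalizer_of_normal ?_ ?_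
    · have hW'r : IsPGroup r W' := (hWr.comap_subtype).map f
      obtain ⟨k, hk⟩ := hW'r.exists_card_eq
      rw [hk]
      exact ((Nat.coprime_primes hr.out hp.out).2 hpr.symm).pow_left k
    · rintro _ ⟨u, hu, rfl⟩
      rw [mem_centralizer_iff]
      rintro _ ⟨w, hw, rfl⟩
      rw [← map_mul, ← map_mul]
      congr 1
      exact Subtype.ext (mem_centralizer_iff.1 (hUW hw) (u : Γ) hu).symm
    · rintro _ ⟨w, hw, rfl⟩
      rw [mem_centralizer_iff]
      rintro _ ⟨⟨y, hy, rfl⟩, hyc⟩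
      -- `y` centralizes `U₁`
      have hyU : (y : Γ) ∈ centralizer (U₁ : Set Γ) := by
        rw [mem_centralizer_iff]
        intro u hu
        have hu' : (⟨u, hUH hu⟩ : H) ∈ U₁.subgroupOf H := hu
        have h1 : f (⟨u, hUH hu⟩ * y * (⟨u, hUH hu⟩ : H)⁻¹ * y⁻¹) = 1 := by
          have h2 := mem_centralizer_iff.1 hyc _ (mem_map_of_mem f hu')
          simp only [map_mul, map_inv]
          rw [h2]; group
        have h3 : ⟨u, hUH hu⟩ * y * (⟨u, hUH hu⟩ : H)⁻¹ * y⁻¹ ∈ PH ⊓ O :=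
          ⟨PH.mul_mem (PH.mul_mem (PH.mul_mem (hU₁ hu') hy) (PH.inv_mem (hU₁ hu')))
            (PH.inv_mem hy), (QuotientGroup.eq_one_iff _).1 h1⟩
        rw [hdisj, mem_bot, mul_inv_eq_one, mul_inv_eq_iff_eq_mul] at h3
        exact congrArg Subtype.val h3
      have hyM : (y : Γ) ∈ M := hN ⟨hy.2, centralizer_le_normalizer _ hyU⟩
      -- the commutator with `w` is trivial in the quotient
      have hcm : f (y * w * y⁻¹ * w⁻¹) = 1 := by
        have hin : y * w * y⁻¹ * w⁻¹ ∈ W₁.subgroupOf H :=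
          Subgroup.mul_mem _ (show y * w * y⁻¹ ∈ W₁.subgroupOf H from
            (mem_normalizer_iff.1 (hWM hyM) (w : Γ)).1 hw) (Subgroup.inv_mem _ hw)
        have hV1 : f (y * w * y⁻¹ * w⁻¹) ∈ V := by
          rw [show y * w * y⁻¹ * w⁻¹ = y * (w * y⁻¹ * w⁻¹) by group, map_mul]
          refine V.mul_mem (mem_map_of_mem f hy) ?_
          rw [map_mul, map_mul, map_inv f w]
          exact hVn.conj_mem _ (mem_map_of_mem f (PH.inv_mem hy)) _
        have hb : V ⊓ W' = ⊥ := inf_eq_bot_of_coprime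
          (OddLocal.coprime_card_pGroups hpr (hPHp.map f) ((hWr.comap_subtype).map f))
        have := hb.le ⟨hV1, mem_map_of_mem f hin⟩
        rwa [mem_bot] at this
      simp only [map_mul, map_inv, mul_inv_eq_one, mul_inv_eq_iff_eq_mul, one_mul] at hcm
      exact hcm
  -- `C(V) ≤ V` in `H / O`
  haveI : Group.IsSolvable (H ⧸ O) := Group.isSolvable_of_surjective (QuotientGroup.mk'_surjective O)
  have hprQ : ∀ s : ℕ, s.Prime → s ∣ Nat.card (H ⧸ O) → s = p ∨ s = r := fun s hs hd =>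
    hHpr s hs (hd.trans O.card_quotient_dvd_card)
  have hpc : Cfsg.pPrimeCore p (H ⧸ O) = ⊥ := by
    have hq0 : Cfsg.pCore r (H ⧸ O) = ⊥ := Cores.pCore_quotient_pCore_eq_bot
    rw [eq_bot_iff, ← hq0]
    refine Cores.le_pCore inferInstance ?_
    set N := Cfsg.pPrimeCore p (H ⧸ O)
    refine IsPGroup.iff_orderOf.2 fun g => ?_
    obtain ⟨m, hm⟩ : ∃ m, Nat.card N = r ^ m := by
      refine ⟨(Nat.card N).primeFactorsList.length,
        Nat.eq_prime_pow_of_unique_prime_dvd Nat.card_pos.ne' fun {s} hs hd => ?_⟩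
      rcases hprQ s hs (hd.trans (card_subgroup_dvd_card N)) with e | e
      · subst e; exact absurd hd Cores.not_dvd_card_pPrimeCore
      · exact e
    obtain ⟨i, -, hi⟩ := (Nat.dvd_prime_pow hr.out).1 (hm ▸ orderOf_dvd_natCard g)
    exact ⟨i, hi⟩
  have hcore : Cfsg.pCore p (H ⧸ O) ≤ V := by
    set S : Sylow p H := Sylow.ofCard PH (by
      rw [hPH, Nat.card_congr (subgroupOfEquivOfLe inf_le_left).toEquiv]
      exact h.card_inf_syl hP hH) with hS
    have h1 := Cores.pCore_le_sylow (S.mapSurjective (QuotientGroup.mk'_surjective O))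
    rwa [Sylow.coe_mapSurjective, hS, Sylow.coe_ofCard] at h1
  have hVcore : V ≤ Cfsg.pCore p (H ⧸ O) := Cores.le_pCore hVn (hPHp.map f)
  have hself : centralizer (V : Set (H ⧸ O)) ≤ V := by
    have h1 := PSolv.centralizer_pCore_le (G := H ⧸ O) (p := p)
      (PSolv.isPSolvable_of_isSolvable inferInstance) hpc
    rw [le_antisymm hcore hVcore] at h1
    exact h1
  intro w hw
  have hb : V ⊓ W' = ⊥ := inf_eq_bot_of_coprime
    (OddLocal.coprime_card_pGroups hpr (hPHp.map f) ((hWr.comap_subtype).map f))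
  have hmem : f ⟨w, hWH hw⟩ ∈ W' := mem_map_of_mem f (show (⟨w, hWH hw⟩ : H) ∈ W₁.subgroupOf H from hw)
  have h2 := hb.le ⟨hself (hcW hmem), hmem⟩
  rw [mem_bot] at h2
  exact ⟨⟨w, hWH hw⟩, (QuotientGroup.eq_one_iff _).1 h2, rfl⟩

/-- Uniqueness of the maximal subgroup over the centres of the two parts of a mixed one. -/
theorem eq_of_mixed (hpr : p ≠ r) (hP : IsSyl K A p P) (hR : IsSyl K A r R) {M H : Subgroup Γ}
    (hM : IsMax K A p r M) (hH : IsMax K A p r H) (hMU : Fp M p ≠ ⊥) (hMW : Fp M r ≠ ⊥)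
    (hZU : Fp M p ⊓ centralizer (Fp M p : Set Γ) ≤ H)
    (hZW : Fp M r ⊓ centralizer (Fp M r : Set Γ) ≤ H) : H = M := by
  set U := Fp M p with hU
  set W := Fp M r with hW
  have hUI : Inv K A U := h.Fp_inv hM.1 p
  have hWI : Inv K A W := h.Fp_inv hM.1 r
  have hUn : M ≤ normalizer (U : Set Γ) := OddLocal.le_normalizer_Fp M p
  have hWn : M ≤ normalizer (W : Set Γ) := OddLocal.le_normalizer_Fp M r
  have hUM : U ≤ M := OddLocal.Fp_le M p
  have hWM : W ≤ M := OddLocal.Fp_le M r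
  have hUp : IsPGroup p U := OddLocal.isPGroup_Fp M p
  have hWr : IsPGroup r W := OddLocal.isPGroup_Fp M r
  set U₁ := U ⊓ centralizer (U : Set Γ) with hU₁
  set W₁ := W ⊓ centralizer (W : Set Γ) with hW₁
  have hU₁I : Inv K A U₁ := inv_inf hUI (le_normalizer_centralizer hUI.2)
  have hW₁I : Inv K A W₁ := inv_inf hWI (le_normalizer_centralizer hWI.2)
  have hnU₁ : M ≤ normalizer (U₁ : Set Γ) :=
    (le_inf hUn (le_normalizer_centralizer hUn)).trans inf_normalizer_le_normalizer_inf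
  have hnW₁ : M ≤ normalizer (W₁ : Set Γ) :=
    (le_inf hWn (le_normalizer_centralizer hWn)).trans inf_normalizer_le_normalizer_inf
  have hU₁ne : U₁ ≠ ⊥ := Modules.inf_centralizer_ne_bot hUp hMU
  have hW₁ne : W₁ ≠ ⊥ := Modules.inf_centralizer_ne_bot hWr hMW
  have hcomm : W ≤ centralizer (U : Set Γ) := fun w hw =>
    mem_centralizer_iff.2 fun u hu => OddLocal.Fp_commute hpr hu hw
  have hcomm₁ : W₁ ≤ centralizer (U₁ : Set Γ) :=
    inf_le_left.trans (hcomm.trans (centralizer_le inf_le_left))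
  have habs : ∀ {X : Subgroup Γ}, Inv K A X → X ≤ M → X ≠ ⊥ → M ≤ normalizer (X : Set Γ) →
      ∀ {s : ℕ} [Fact s.Prime] {S : Subgroup Γ}, IsSyl K A s S → (s = p ∨ s = r) →
      S ⊓ normalizer (X : Set Γ) ≤ M := by
    intro X hX hXM hX1 hMX s _ S hS hs
    refine h.le_max hM hX hXM hX1 hMX (inv_inf hS.inv (hX.2.trans Subgroup.le_normalizer)) ?_
      inf_le_right
    intro t ht hdt
    rcases isPR_of_pGroup (r := s) (hS.pgroup.to_le inf_le_left) t ht hdt with e | e <;>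
      exact e ▸ hs
  have hWH : W₁ ≤ Fp H r := h.le_Fp_of_absorb hpr hP hR hU₁I (hUp.to_le inf_le_left) hW₁I
    (hWr.to_le inf_le_left) hnW₁ hcomm₁
    (habs hU₁I (inf_le_left.trans hUM) hU₁ne hnU₁ hP (Or.inl rfl)) hH.1 hH.2.1 hZU hZW
  have hUH : U₁ ≤ Fp H p := h.le_Fp_of_absorb hpr.symm hR hP hW₁I (hWr.to_le inf_le_left) hU₁I
    (hUp.to_le inf_le_left) hnU₁ (le_centralizer_iff.1 hcomm₁)
    (habs hW₁I (inf_le_left.trans hWM) hW₁ne hnW₁ hR (Or.inr rfl)) hH.1 hH.2.1.symm hZW hZU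
  have hUne' : Fp H p ≠ ⊥ := ne_bot_of_le_ne_bot hU₁ne hUH
  have hWne' : Fp H r ≠ ⊥ := ne_bot_of_le_ne_bot hW₁ne hWH
  have hHcomm : Fp H r ≤ centralizer (Fp H p : Set Γ) := fun w hw =>
    mem_centralizer_iff.2 fun u hu => OddLocal.Fp_commute hpr hu hw
  have hU'M : Fp H p ≤ M := by
    refine h.le_max hM hW₁I (inf_le_left.trans hWM) hW₁ne hnW₁ (h.Fp_inv hH.1 p)
      (hH.2.1.mono (OddLocal.Fp_le H p)) (le_trans ?_ (centralizer_le_normalizer _))
    exact (le_centralizer_iff.1 hHcomm).trans (centralizer_le hWH)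
  have hW'M : Fp H r ≤ M := by
    refine h.le_max hM hU₁I (inf_le_left.trans hUM) hU₁ne hnU₁ (h.Fp_inv hH.1 r)
      (hH.2.1.mono (OddLocal.Fp_le H r)) (le_trans ?_ (centralizer_le_normalizer _))
    exact hHcomm.trans (centralizer_le hUH)
  have habsH : ∀ {X : Subgroup Γ}, Inv K A X → X ≤ H → X ≠ ⊥ → H ≤ normalizer (X : Set Γ) →
      ∀ {s : ℕ} [Fact s.Prime] {S : Subgroup Γ}, IsSyl K A s S → (s = p ∨ s = r) →
      S ⊓ normalizer (X : Set Γ) ≤ H := by
    intro X hX hXM hX1 hMX s _ S hS hs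
    refine h.le_max hH hX hXM hX1 hMX (inv_inf hS.inv (hX.2.trans Subgroup.le_normalizer)) ?_
      inf_le_right
    intro t ht hdt
    rcases isPR_of_pGroup (r := s) (hS.pgroup.to_le inf_le_left) t ht hdt with e | e <;>
      exact e ▸ hs
  have h1 : Fp H r ≤ W := h.le_Fp_of_absorb hpr hP hR (h.Fp_inv hH.1 p) (OddLocal.isPGroup_Fp H p)
    (h.Fp_inv hH.1 r) (OddLocal.isPGroup_Fp H r) (OddLocal.le_normalizer_Fp H r) hHcomm
    (habsH (h.Fp_inv hH.1 p) (OddLocal.Fp_le H p) hUne' (OddLocal.le_normalizer_Fp H p) hP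
      (Or.inl rfl)) hM.1 hM.2.1 hU'M hW'M
  have h2 : Fp H p ≤ U := h.le_Fp_of_absorb hpr.symm hR hP (h.Fp_inv hH.1 r)
    (OddLocal.isPGroup_Fp H r) (h.Fp_inv hH.1 p) (OddLocal.isPGroup_Fp H p)
    (OddLocal.le_normalizer_Fp H p) (le_centralizer_iff.1 hHcomm)
    (habsH (h.Fp_inv hH.1 r) (OddLocal.Fp_le H r) hWne' (OddLocal.le_normalizer_Fp H r) hR
      (Or.inr rfl)) hM.1 hM.2.1.symm hW'M hU'M
  have hW_H : W ≤ H := by
    refine h.le_max hH (h.Fp_inv hH.1 p) (OddLocal.Fp_le H p) hUne' (OddLocal.le_normalizer_Fp H p)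
      hWI (hM.2.1.mono hWM) (le_trans ?_ (centralizer_le_normalizer _))
    exact hcomm.trans (centralizer_le h2)
  have hU_H : U ≤ H := by
    refine h.le_max hH (h.Fp_inv hH.1 r) (OddLocal.Fp_le H r) hWne' (OddLocal.le_normalizer_Fp H r)
      hUI (hM.2.1.mono hUM) (le_trans ?_ (centralizer_le_normalizer _))
    exact (le_centralizer_iff.1 hcomm).trans (centralizer_le h1)
  have h3 : U ≤ Fp H p := h.le_Fp_of_absorb hpr.symm hR hP hWI hWr hUI hUp hUn
    (le_centralizer_iff.1 hcomm) (habs hWI hWM hMW hWn hR (Or.inr rfl)) hH.1 hH.2.1.symm hW_H hU_H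
  have e : U = Fp H p := le_antisymm h3 h2
  have hHM : H ≤ M := h.le_max hM hUI hUM hMU hUn hH.1 hH.2.1
    (e ▸ OddLocal.le_normalizer_Fp H p)
  exact (hH.2.2 M hM.1 hM.2.1 hHM).symm

/-- The two Sylow subgroups lie in a common invariant `{p, r}`-subgroup. -/
def _root_.Cfsg.Agent.FGS.AbCent.Big (K A : Subgroup Γ) (p r : ℕ) (P R : Subgroup Γ) : Prop :=
  ∃ H, Inv K A H ∧ IsPR p r H ∧ P ≤ H ∧ R ≤ H

/-- A mixed maximal subgroup contains the Sylow `r`-subgroup. -/
theorem syl_le_of_mixed (hpr : p ≠ r) (hP : IsSyl K A p P) (hR : IsSyl K A r R) {M : Subgroup Γ}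
    (hM : IsMax K A p r M) (hMU : Fp M p ≠ ⊥) (hMW : Fp M r ≠ ⊥) : R ≤ M := by
  classical
  by_contra hRM
  set RM := M ⊓ R with hRMdef
  have hRMI : Inv K A RM := inv_inf hM.1 hR.inv.2
  have hlt : ¬ R ⊓ normalizer (RM : Set Γ) ≤ M := by
    intro hle
    have h1 : normalizer (RM : Set Γ) ⊓ R ≤ RM := fun x hx => ⟨hle ⟨hx.2, hx.1⟩, hx.2⟩
    exact hRM (inf_eq_right.1 (Signalizer.eq_of_normalizer_inf_le_self hR.pgroup inf_le_right h1).symm)
  obtain ⟨c, hc, hc1, e, he, hec, heM⟩ : ∃ c ∈ A, c ≠ 1 ∧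
      ∃ e ∈ R ⊓ normalizer (RM : Set Γ), e ∈ centralizer {c} ∧ e ∉ M := by
    by_contra hcon
    push Not at hcon
    exact hlt (h.toHyp.gen (inv_inf hR.inv (hRMI.2.trans Subgroup.le_normalizer))
      fun a ha ha1 x hx => hcon a ha ha1 x hx.1 hx.2)
  set U := Fp M p with hU
  set W := Fp M r with hW
  have hUI : Inv K A U := h.Fp_inv hM.1 p
  have hWI : Inv K A W := h.Fp_inv hM.1 r
  have hUp : IsPGroup p U := OddLocal.isPGroup_Fp M p
  have hWr : IsPGroup r W := OddLocal.isPGroup_Fp M r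
  have hUn : M ≤ normalizer (U : Set Γ) := OddLocal.le_normalizer_Fp M p
  have hWn : M ≤ normalizer (W : Set Γ) := OddLocal.le_normalizer_Fp M r
  have hWRM : W ≤ RM := h.Fp_le_syl hR hM.1
  have hcomm : W ≤ centralizer (U : Set Γ) := fun w hw =>
    mem_centralizer_iff.2 fun u hu => OddLocal.Fp_commute hpr hu hw
  -- `c` fixes nothing in `F(M)`
  have hX : ∀ X : Subgroup Γ, Inv K A X → X ≤ centralizer {c} → X ≠ ⊥ →
      U ⊓ centralizer (U : Set Γ) ≤ centralizer (X : Set Γ) →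
      W ⊓ centralizer (W : Set Γ) ≤ centralizer (X : Set Γ) → False := by
    intro X hX hXc hX1 hUX hWX
    obtain ⟨hI, hs⟩ := h.centralizer_solvable hX hX1
    obtain ⟨N, hNle, hN, hNπ, hNmax⟩ := h.exists_hall {t | t = p ∨ t = r} hI hs
    obtain ⟨H, hNH, hH⟩ := exists_max hN hNπ
    have hUN : U ⊓ centralizer (U : Set Γ) ≤ N := hNmax _
      (le_inf (inf_le_left.trans hUI.1) hUX) (inv_inf hUI (le_normalizer_centralizer hUI.2)).2
      (hM.2.1.mono (inf_le_left.trans (OddLocal.Fp_le M p)))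
    have hWN : W ⊓ centralizer (W : Set Γ) ≤ N := hNmax _
      (le_inf (inf_le_left.trans hWI.1) hWX) (inv_inf hWI (le_normalizer_centralizer hWI.2)).2
      (hM.2.1.mono (inf_le_left.trans (OddLocal.Fp_le M r)))
    have heq := h.eq_of_mixed hpr hP hR hM hH hMU hMW (hUN.trans hNH) (hWN.trans hNH)
    have hRc : R ⊓ centralizer {c} ≤ N := hNmax _
      (le_inf (inf_le_left.trans hR.inv.1) (h.toHyp.abel_le hc hc1
        (le_inf (inf_le_left.trans hR.inv.1) inf_le_right) (le_inf hX.1 hXc)))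
      (h.toHyp.inv_cent hR.inv hc).2
      (fun t ht hdt => (isPR_of_pGroup (r := p) (hR.pgroup.to_le inf_le_left) t ht hdt).symm)
    exact heM (heq ▸ hNH (hRc ⟨he.1, hec⟩))
  have hUc : U ⊓ centralizer {c} = ⊥ := by
    by_contra hne
    exact hX _ (h.toHyp.inv_cent hUI hc) inf_le_right hne
      (inf_le_right.trans (centralizer_le inf_le_left))
      (inf_le_left.trans (hcomm.trans (centralizer_le inf_le_left)))
  have hWc : W ⊓ centralizer {c} = ⊥ := by
    by_contra hne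
    exact hX _ (h.toHyp.inv_cent hWI hc) inf_le_right hne
      (inf_le_left.trans ((le_centralizer_iff.1 hcomm).trans (centralizer_le inf_le_left)))
      (inf_le_right.trans (centralizer_le inf_le_left))
  -- the fixed points in `RM` of the other elements lie in `W`
  have hcentU : RM ⊓ centralizer (U : Set Γ) ≤ W := by
    set N₁ := (RM ⊔ U) ⊓ centralizer (U : Set Γ) with hN₁
    have hRU : RM ≤ normalizer (U : Set Γ) := inf_le_left.trans hUn
    have hnor : M ≤ normalizer ((RM ⊔ U : Subgroup Γ) : Set Γ) :=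
      h.sup_Fp_normal (r := p) hR hM.1 hM.2.1.symm
    have hN₁n : M ≤ normalizer (N₁ : Set Γ) :=
      (le_inf hnor (le_normalizer_centralizer hUn)).trans inf_normalizer_le_normalizer_inf
    have hkey : ∀ y ∈ N₁, (∃ k, orderOf y = r ^ k) → y ∈ RM ⊓ centralizer (U : Set Γ) := by
      rintro y ⟨hy, hyC⟩ ⟨k, hk⟩
      obtain ⟨x, hx, u, hu, rfl⟩ := Coprime.exists_mul_of_mem_sup hRU hy
      have hxu : Commute x u := by
        have h1 : u * (x * u) = x * u * u := mem_centralizer_iff.1 hyC u hu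
        have h2 : u * x = x * u := by
          apply mul_right_cancel (b := u)
          rw [mul_assoc]; exact h1
        exact h2.symm
      obtain ⟨i, hi⟩ := Element.orderOf_eq_pow_of_mem_isPGroup
        (hR.pgroup.to_le (inf_le_right : RM ≤ R)) hx
      obtain ⟨j, hj⟩ := Element.orderOf_eq_pow_of_mem_isPGroup hUp hu
      have hco : (orderOf x).Coprime (orderOf u) := by
        rw [hi, hj]; exact ((Nat.coprime_primes hr.out hp.out).2 hpr.symm).pow i j
      have hm := hxu.orderOf_mul_eq_mul_orderOf_of_coprime hco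
      have hu1 : u = 1 := by
        rw [← orderOf_eq_one_iff]
        have hd : orderOf u ∣ r ^ k := by rw [← hk, hm]; exact dvd_mul_left _ _
        rw [hj] at hd ⊢
        exact Nat.eq_one_of_dvd_coprimes
          (((Nat.coprime_primes hp.out hr.out).2 hpr).pow j k) dvd_rfl hd
      subst hu1
      rw [mul_one] at hyC ⊢
      exact ⟨hx, hyC⟩
    refine OddLocal.le_Fp (inf_le_left.trans inf_le_left) ?_ (hR.pgroup.to_le (inf_le_left.trans inf_le_right))
    intro g hg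
    rw [mem_normalizer_iff]
    have hone : ∀ g ∈ M, ∀ x ∈ RM ⊓ centralizer (U : Set Γ),
        g * x * g⁻¹ ∈ RM ⊓ centralizer (U : Set Γ) := by
      intro g hg x hx
      refine hkey _ ((mem_normalizer_iff.1 (hN₁n hg) x).1 ⟨mem_sup_left hx.1, hx.2⟩) ?_
      obtain ⟨i, hi⟩ := Element.orderOf_eq_pow_of_mem_isPGroup
        (hR.pgroup.to_le (inf_le_right : RM ≤ R)) hx.1
      refine ⟨i, ?_⟩
      rw [← hi]
      exact orderOf_injective (MulAut.conj g).toMonoidHom (MulAut.conj g).injective x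
    intro x
    refine ⟨hone g hg x, fun hx => ?_⟩
    have h2 := hone g⁻¹ (inv_mem hg) _ hx
    simpa [mul_assoc] using h2
  have hQ : ∀ a ∈ A, a ∉ zpowers c → RM ⊓ centralizer {a} ≤ W := by
    intro a ha hac
    refine le_trans (le_inf inf_le_left ?_) hcentU
    refine h.key hUI hUp (h.toHyp.inv_cent hRMI ha)
      (inf_le_left.trans (inf_le_left.trans hUn)) ?_ ha (fun e => hac (e ▸ one_mem _))
      hc (h.toHyp.notMem_swap hc ha hc1 hac) inf_le_right (hUc.le.trans bot_le)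
    obtain ⟨k, hk⟩ := (hR.pgroup.to_le (inf_le_left.trans inf_le_right :
      RM ⊓ centralizer {a} ≤ R)).exists_card_eq
    rw [hk]; exact ((Nat.coprime_primes hr.out hp.out).2 hpr.symm).pow_left k
  have hT : RM ≤ (RM ⊓ centralizer {c}) ⊔ W := h.toHyp.gen hRMI fun a ha ha1 => by
    by_cases hac : a ∈ zpowers c
    · rw [h.toHyp.centralizer_eq hc ha ha1 hac]; exact le_sup_left
    · exact (hQ a ha hac).trans le_sup_right
  -- `x ↦ x⁻¹ x^c` maps `RM` onto `W`
  have hsub : ∀ x ∈ RM, x⁻¹ * (c * x * c⁻¹) ∈ W := by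
    intro x hx
    obtain ⟨t, ht, w, hw, rfl⟩ := Coprime.exists_mul_of_mem_sup
      (inf_le_left.trans (inf_le_left.trans hWn)) (hT hx)
    have htc : t * c = c * t := mem_centralizer_singleton_iff.1 ht.2
    have e1 : (t * w)⁻¹ * (c * (t * w) * c⁻¹) = w⁻¹ * (c * w * c⁻¹) := by
      rw [← mul_assoc c t w, ← htc]; group
    rw [e1]
    exact W.mul_mem (W.inv_mem hw) ((mem_normalizer_iff.1 (hWI.2 hc) w).1 hw)
  let δ : W → W := fun w => ⟨(w : Γ)⁻¹ * (c * w * c⁻¹),
    W.mul_mem (W.inv_mem w.2) ((mem_normalizer_iff.1 (hWI.2 hc) _).1 w.2)⟩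
  have hinj : Function.Injective δ := by
    intro u v huv
    have h1 : (u : Γ)⁻¹ * (c * u * c⁻¹) = (v : Γ)⁻¹ * (c * v * c⁻¹) := congrArg Subtype.val huv
    have h2 : c * ((v : Γ) * (u : Γ)⁻¹) * c⁻¹ = (v : Γ) * (u : Γ)⁻¹ := by
      calc c * ((v : Γ) * (u : Γ)⁻¹) * c⁻¹
          = v * ((v : Γ)⁻¹ * (c * v * c⁻¹)) * ((u : Γ)⁻¹ * (c * u * c⁻¹))⁻¹ * (u : Γ)⁻¹ := by group
        _ = (v : Γ) * (u : Γ)⁻¹ := by rw [h1]; group
    have h3 : (v : Γ) * (u : Γ)⁻¹ ∈ W ⊓ centralizer {c} := ⟨W.mul_mem v.2 (W.inv_mem u.2),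
      mem_centralizer_singleton_iff.2 (mul_inv_eq_iff_eq_mul.1 h2).symm⟩
    rw [hWc, mem_bot, mul_inv_eq_one] at h3
    exact Subtype.ext h3.symm
  have heW : e ∈ normalizer (W : Set Γ) := by
    refine mem_normalizer_iff_map_conj_eq.2 (eq_of_le_of_card_ge ?_
      (le_of_eq (card_map_of_injective (f := (MulAut.conj e).toMonoidHom)
        (MulAut.conj e).injective).symm))
    rintro _ ⟨w, hw, rfl⟩
    obtain ⟨⟨x, hx⟩, hxw⟩ := Finite.surjective_of_injective hinj ⟨w, hw⟩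
    have hxw' : x⁻¹ * (c * x * c⁻¹) = w := congrArg Subtype.val hxw
    have hec' : e * c = c * e := mem_centralizer_singleton_iff.1 hec
    have h4 := hsub _ ((mem_normalizer_iff.1 he.2 x).1 (hWRM hx))
    show e * w * e⁻¹ ∈ W
    have e2 : (e * x * e⁻¹)⁻¹ * (c * (e * x * e⁻¹) * c⁻¹) = e * w * e⁻¹ := by
      rw [← hxw']
      calc (e * x * e⁻¹)⁻¹ * (c * (e * x * e⁻¹) * c⁻¹)
          = e * x⁻¹ * e⁻¹ * (c * e * x * (c * e)⁻¹) := by group
        _ = e * x⁻¹ * e⁻¹ * (e * c * x * (e * c)⁻¹) := by rw [hec']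
        _ = e * (x⁻¹ * (c * x * c⁻¹)) * e⁻¹ := by group
    rwa [e2] at h4
  refine heM (h.le_max hM hWI (OddLocal.Fp_le M r) hMW hWn
    (inv_inf hR.inv (hWI.2.trans Subgroup.le_normalizer))
    (fun t ht hdt => (isPR_of_pGroup (r := p) (hR.pgroup.to_le inf_le_left) t ht hdt).symm)
    inf_le_right ⟨he.1, heW⟩)

/-- A maximal subgroup with `O_r = 1` contains `P` as a normal subgroup. -/
theorem syl_le_of_pure (hP : IsSyl K A p P) (hP1 : P ≠ ⊥) {M : Subgroup Γ}
    (hM : IsMax K A p r M) (hMr : Fp M r = ⊥) : P ≤ M ∧ M ≤ normalizer (P : Set Γ) := by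
  set PM := M ⊓ P with hPMdef
  have hnor : M ≤ normalizer (PM : Set Γ) := by
    have h1 := h.sup_Fp_normal (r := r) hP hM.1 hM.2.1
    rwa [hMr, sup_bot_eq] at h1
  have hPMI : Inv K A PM := inv_inf hM.1 hP.inv.2
  rcases eq_or_ne PM ⊥ with h0 | h0
  · -- then `M` is an `r`-group, so `M = O_r(M) = 1`
    exfalso
    have hM1 : M = ⊥ := by
      rw [← hMr]
      refine le_antisymm ?_ (OddLocal.Fp_le M r)
      refine OddLocal.le_Fp le_rfl Subgroup.le_normalizer ?_
      refine IsPGroup.of_card (n := (Nat.card M).factorization r) ?_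
      refine Nat.eq_of_factorization_eq Nat.card_pos.ne' (pow_ne_zero _ hr.out.ne_zero) fun s => ?_
      rw [hr.out.factorization_pow, Finsupp.single_apply]
      by_cases hsr : r = s
      · subst hsr; rw [if_pos rfl]
      rw [if_neg hsr]
      by_cases hs : s.Prime
      · refine Nat.factorization_eq_zero_of_not_dvd fun hd => ?_
        rcases hM.2.1 s hs hd with e | e
        · subst e
          have h2 := h.card_inf_syl hP hM.1
          rw [← hPMdef, h0, card_bot] at h2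
          have h3 : (Nat.card M).factorization s ≠ 0 :=
            (hp.out.factorization_pos_of_dvd Nat.card_pos.ne' hd).ne'
          exact hp.out.ne_one ((pow_eq_one_iff.1 h2.symm).resolve_right h3)
        · exact hsr e.symm
      · exact Nat.factorization_eq_zero_of_not_prime _ hs
    have h1 := hM.2.2 P hP.inv (fun t ht hdt => isPR_of_pGroup hP.pgroup t ht hdt) (hM1 ▸ bot_le)
    exact hP1 (h1.trans hM1)
  · have h1 : normalizer (PM : Set Γ) ⊓ P ≤ PM := fun x hx => ⟨h.le_max hM hPMI inf_le_left h0 hnor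
      (inv_inf hP.inv (hPMI.2.trans Subgroup.le_normalizer))
      (fun t ht hdt => isPR_of_pGroup (hP.pgroup.to_le inf_le_left) t ht hdt)
      inf_le_right ⟨hx.2, hx.1⟩, hx.2⟩
    have h2 : M ⊓ P = P := (Signalizer.eq_of_normalizer_inf_le_self hP.pgroup inf_le_right h1).symm
    refine ⟨inf_eq_right.1 h2, ?_⟩
    rw [hPMdef, h2] at hnor
    exact hnor

/-- Any maximal subgroup normalizes `P` or `R`, unless some subgroup contains both. -/
theorem cases_max (hpr : p ≠ r) (hP : IsSyl K A p P) (hR : IsSyl K A r R) (hP1 : P ≠ ⊥)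
    (hR1 : R ≠ ⊥) (hnot : ¬ Big K A p r P R) {M : Subgroup Γ} (hM : IsMax K A p r M) :
    (P ≤ M ∧ M ≤ normalizer (P : Set Γ)) ∨ (R ≤ M ∧ M ≤ normalizer (R : Set Γ)) := by
  by_cases hW : Fp M r = ⊥
  · exact Or.inl (h.syl_le_of_pure hP hP1 hM hW)
  by_cases hU : Fp M p = ⊥
  · exact Or.inr (h.syl_le_of_pure hR hR1 (isMax_symm hM) hU)
  exact absurd ⟨M, hM.1, hM.2.1, h.syl_le_of_mixed hpr.symm hR hP (isMax_symm hM) hW hU,
    h.syl_le_of_mixed hpr hP hR hM hU hW⟩ hnot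

/-- Without a common subgroup, only `1` in `P` normalizes and centralizes `R`. -/
theorem inf_centralizer_eq_bot (hpr : p ≠ r) (hP : IsSyl K A p P) (hR : IsSyl K A r R)
    (hP1 : P ≠ ⊥) (hR1 : R ≠ ⊥) (hnot : ¬ Big K A p r P R) :
    P ⊓ centralizer (R : Set Γ) = ⊥ := by
  set X := P ⊓ centralizer (R : Set Γ) with hX
  have hXI : Inv K A X := inv_inf hP.inv (le_normalizer_centralizer hR.inv.2)
  have hpr' : IsPR p r (X ⊔ R) := isPR_sup_of_le
    (fun t ht hdt => isPR_of_pGroup (hP.pgroup.to_le inf_le_left) t ht hdt)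
    (fun t ht hdt => (isPR_of_pGroup (r := p) hR.pgroup t ht hdt).symm)
    (inf_le_right.trans (centralizer_le_normalizer _))
  obtain ⟨M, hXM, hM⟩ := exists_max (inv_sup hXI hR.inv) hpr'
  rcases h.cases_max hpr hP hR hP1 hR1 hnot hM with h1 | h1
  · exact absurd ⟨M, hM.1, hM.2.1, h1.1, le_sup_right.trans hXM⟩ hnot
  · -- `O_p(M) = 1`
    have hU : Fp M p = ⊥ := by
      by_contra hU
      have hW : Fp M r ≠ ⊥ :=
        ne_bot_of_le_ne_bot hR1 (OddLocal.le_Fp h1.1 h1.2 hR.pgroup)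
      exact hnot ⟨M, hM.1, hM.2.1, h.syl_le_of_mixed hpr.symm hR hP (isMax_symm hM) hW hU, h1.1⟩
    haveI hsol := h.solvable_pr hM.1 hM.2.1
    have hF : ∀ x ∈ X, x ∈ R := by
      intro x hx
      have hxM : x ∈ M := hXM (mem_sup_left hx)
      have hfit : x ∈ Cfsg.fittingOf M := by
        refine OddLocal.mem_fittingOf_of_commute hsol hxM fun t ht y hy => ?_
        haveI := Fact.mk ht
        rcases eq_or_ne (Fp M t) ⊥ with h0 | h0
        · rw [h0, mem_bot] at hy; subst hy; simp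
        rcases hM.2.1 t ht ((OddLocal.dvd_card_of_pGroup_ne_bot (OddLocal.isPGroup_Fp M t) h0).trans
          (card_dvd_of_le (OddLocal.Fp_le M t))) with e | e
        · exact absurd (e ▸ hU) h0
        · subst e
          exact mem_centralizer_iff.1 hx.2 y ((h.Fp_le_syl hR hM.1 hy).2)
      have hle : Cfsg.fittingOf M ≤ R := by
        rw [OddLocal.fittingOf_eq_iSup]
        refine iSup_le fun t => ?_
        haveI : Fact (t : ℕ).Prime := ⟨t.2⟩
        rcases eq_or_ne (Fp M (t : ℕ)) ⊥ with h0 | h0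
        · rw [h0]; exact bot_le
        rcases hM.2.1 t t.2 ((OddLocal.dvd_card_of_pGroup_ne_bot (OddLocal.isPGroup_Fp M _) h0).trans
          (card_dvd_of_le (OddLocal.Fp_le M _))) with e | e
        · exact absurd (e ▸ hU) h0
        · rw [e]; exact (h.Fp_le_syl hR hM.1).trans inf_le_right
      exact hle hfit
    rw [eq_bot_iff, ← inf_eq_bot_of_coprime
      (OddLocal.coprime_card_pGroups hpr hP.pgroup hR.pgroup)]
    exact fun x hx => ⟨hx.1, hF x hx⟩

/-- Every invariant `{p, r}`-subgroup normalizes `P` or `R`. -/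
theorem le_or_le (hpr : p ≠ r) (hP : IsSyl K A p P) (hR : IsSyl K A r R) (hP1 : P ≠ ⊥)
    (hR1 : R ≠ ⊥) (hnot : ¬ Big K A p r P R) {U : Subgroup Γ} (hU : Inv K A U)
    (hUpr : IsPR p r U) : U ≤ normalizer (P : Set Γ) ∨ U ≤ normalizer (R : Set Γ) := by
  obtain ⟨M, hUM, hM⟩ := exists_max hU hUpr
  exact (h.cases_max hpr hP hR hP1 hR1 hnot hM).imp (fun h1 => hUM.trans h1.2)
    (fun h1 => hUM.trans h1.2)

/-- The part of `C(b)` of order divisible only by `p` and `r`. -/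
theorem pair_isPR (hP : IsSyl K A p P) (hR : IsSyl K A r R) {b : Γ} (hb : b ∈ A) (hb1 : b ≠ 1) :
    IsPR p r ((P ⊓ centralizer {b}) ⊔ (R ⊓ centralizer {b})) :=
  isPR_sup_of_le (fun t ht hdt => isPR_of_pGroup (hP.pgroup.to_le inf_le_left) t ht hdt)
    (fun t ht hdt => (isPR_of_pGroup (r := p) (hR.pgroup.to_le inf_le_left) t ht hdt).symm)
    ((h.toHyp.abel_le hb hb1 (inf_le_inf_right _ hP.inv.1) (inf_le_inf_right _ hR.inv.1)).trans
      (centralizer_le_normalizer _))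

/-- Without a common subgroup, `N_P(R) = 1`. -/
theorem inf_normalizer_eq_bot (hpr : p ≠ r) (hP : IsSyl K A p P) (hR : IsSyl K A r R)
    (hP1 : P ≠ ⊥) (hR1 : R ≠ ⊥) (hnot : ¬ Big K A p r P R) :
    P ⊓ normalizer (R : Set Γ) = ⊥ := by
  classical
  set P2 := P ⊓ normalizer (R : Set Γ) with hP2
  set R1 := R ⊓ normalizer (P : Set Γ) with hR1'
  have hP2I : Inv K A P2 := inv_inf hP.inv (hR.inv.2.trans Subgroup.le_normalizer)
  have hcomm : P2 ≤ centralizer (R1 : Set Γ) := fun x hx => mem_centralizer_iff.2 fun y hy =>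
    (OddLocal.commute_of_normalizing (OddLocal.coprime_card_pGroups hpr hP.pgroup hR.pgroup)
      hx.1 hy.1 hx.2 hy.2).symm
  have hcent := h.inf_centralizer_eq_bot hpr hP hR hP1 hR1 hnot
  -- a subgroup of `P2` in `C(c)` centralizing `C_R(b)` is trivial
  have hkill : ∀ (c b : Γ), c ∈ A → c ≠ 1 → b ∈ A → b ∉ zpowers c →
      R ⊓ centralizer {b} ≤ centralizer ((P2 ⊓ centralizer {c} : Subgroup Γ) : Set Γ) →
      P2 ⊓ centralizer {c} = ⊥ := by
    intro c b hc hc1 hb hbc hle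
    rw [eq_bot_iff, ← hcent]
    refine le_inf (inf_le_left.trans inf_le_left) ?_
    refine h.key hR.inv hR.pgroup (h.toHyp.inv_cent hP2I hc) (inf_le_left.trans inf_le_right) ?_
      hc hc1 hb hbc inf_le_right hle
    obtain ⟨k, hk⟩ := (hP.pgroup.to_le (inf_le_left.trans inf_le_left :
      P2 ⊓ centralizer {c} ≤ P)).exists_card_eq
    rw [hk]; exact ((Nat.coprime_primes hp.out hr.out).2 hpr).pow_left k
  -- some `C_P(b)` does not normalize `R`
  obtain ⟨b, hb, hb1, hbP⟩ : ∃ b ∈ A, b ≠ 1 ∧ ¬ P ⊓ centralizer {b} ≤ normalizer (R : Set Γ) := by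
    by_contra hcon
    push Not at hcon
    have hPN : P ≤ normalizer (R : Set Γ) := h.toHyp.gen hP.inv hcon
    exact hnot ⟨P ⊔ R, inv_sup hP.inv hR.inv, isPR_sup_of_le
      (fun t ht hdt => isPR_of_pGroup hP.pgroup t ht hdt)
      (fun t ht hdt => (isPR_of_pGroup (r := p) hR.pgroup t ht hdt).symm) hPN,
      le_sup_left, le_sup_right⟩
  have hbR1 : R ⊓ centralizer {b} ≤ R1 := by
    refine le_inf inf_le_left ?_
    rcases h.le_or_le hpr hP hR hP1 hR1 hnot
      (inv_sup (h.toHyp.inv_cent hP.inv hb) (h.toHyp.inv_cent hR.inv hb))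
      (h.pair_isPR hP hR hb hb1) with h1 | h1
    · exact le_sup_right.trans h1
    · exact absurd (le_sup_left.trans h1) hbP
  have hoff : ∀ c ∈ A, c ≠ 1 → c ∉ zpowers b → P2 ⊓ centralizer {c} = ⊥ := by
    intro c hc hc1 hcb
    refine hkill c b hc hc1 hb (h.toHyp.notMem_swap hb hc hb1 hcb) ?_
    exact le_centralizer_iff.1 (inf_le_left.trans (hcomm.trans (centralizer_le hbR1)))
  have hP2b : P2 ≤ centralizer {b} := h.toHyp.gen hP2I fun c hc hc1 => by
    by_cases hcb : c ∈ zpowers b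
    · rw [h.toHyp.centralizer_eq hb hc hc1 hcb]; exact inf_le_right
    · rw [hoff c hc hc1 hcb]; exact bot_le
  by_contra hne
  -- every other `C_P(d)` is trivial
  have hDd : ∀ d ∈ A, d ≠ 1 → d ∉ zpowers b → P ⊓ centralizer {d} = ⊥ := by
    intro d hd hd1 hdb
    rcases h.le_or_le hpr hP hR hP1 hR1 hnot
      (inv_sup (h.toHyp.inv_cent hP.inv hd) (h.toHyp.inv_cent hR.inv hd))
      (h.pair_isPR hP hR hd hd1) with h1 | h1
    · exfalso
      apply hne
      have hdR1 : R ⊓ centralizer {d} ≤ R1 := le_inf inf_le_left (le_sup_right.trans h1)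
      have h2 := hkill b d hb hb1 hd hdb
        (le_centralizer_iff.1 (inf_le_left.trans (hcomm.trans (centralizer_le hdR1))))
      rwa [inf_eq_left.2 hP2b] at h2
    · rw [eq_bot_iff, ← hoff d hd hd1 hdb]
      exact le_inf (le_inf inf_le_left (le_sup_left.trans h1)) inf_le_right
  refine h.not_le_cent (h.dvd_of_ne_bot hP hP1) hP hb hb1 (h.toHyp.gen hP.inv fun d hd hd1 => ?_)
  by_cases hdb : d ∈ zpowers b
  · rw [h.toHyp.centralizer_eq hb hd hd1 hdb]; exact inf_le_right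
  · rw [hDd d hd hd1 hdb]; exact bot_le

/-- Any two invariant Sylow subgroups generate a `{p, r}`-group. -/
theorem big (hpr : p ≠ r) (hP : IsSyl K A p P) (hR : IsSyl K A r R) : Big K A p r P R := by
  rcases eq_or_ne P ⊥ with hP1 | hP1
  · exact ⟨R, hR.inv, fun t ht hdt => (isPR_of_pGroup (r := p) hR.pgroup t ht hdt).symm,
      hP1 ▸ bot_le, le_rfl⟩
  rcases eq_or_ne R ⊥ with hR1 | hR1
  · exact ⟨P, hP.inv, fun t ht hdt => isPR_of_pGroup hP.pgroup t ht hdt, le_rfl, hR1 ▸ bot_le⟩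
  by_contra hnot
  have hnot' : ¬ Big K A r p R P := fun ⟨H, h1, h2, h3, h4⟩ => hnot ⟨H, h1, h2.symm, h4, h3⟩
  have hP2 := h.inf_normalizer_eq_bot hpr hP hR hP1 hR1 hnot
  have hR2 := h.inf_normalizer_eq_bot hpr.symm hR hP hR1 hP1 hnot'
  -- disjoint supports
  have hdis : ∀ a ∈ A, a ≠ 1 → P ⊓ centralizer {a} = ⊥ ∨ R ⊓ centralizer {a} = ⊥ := by
    intro a ha ha1
    rcases h.le_or_le hpr hP hR hP1 hR1 hnot
      (inv_sup (h.toHyp.inv_cent hP.inv ha) (h.toHyp.inv_cent hR.inv ha))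
      (h.pair_isPR hP hR ha ha1) with h1 | h1
    · exact Or.inr (le_bot_iff.1 (hR2 ▸ le_inf inf_le_left (le_sup_right.trans h1)))
    · exact Or.inl (le_bot_iff.1 (hP2 ▸ le_inf inf_le_left (le_sup_left.trans h1)))
  have main : ∀ {s t : ℕ} [Fact s.Prime] [Fact t.Prime] {S T : Subgroup Γ},
      IsSyl K A s S → IsSyl K A t T → S ≠ ⊥ → T ≠ ⊥ → s ≠ 2 →
      (∀ a ∈ A, a ≠ 1 → S ⊓ centralizer {a} = ⊥ ∨ T ⊓ centralizer {a} = ⊥) → False := by
    intro s t _ _ S T hS hT hS1 hT1 hs hd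
    obtain ⟨d, hd', hd1, hfull⟩ := h.exists_full hs (h.dvd_of_ne_bot hS hS1) hS
    refine h.not_le_cent (h.dvd_of_ne_bot hT hT1) hT hd' hd1
      (h.toHyp.gen hT.inv fun b hb hb1 => ?_)
    by_cases hbd : b ∈ zpowers d
    · rw [h.toHyp.centralizer_eq hd' hb hb1 hbd]; exact inf_le_right
    · rw [(hd b hb hb1).resolve_left (hfull b hb hbd)]; exact bot_le
  rcases eq_or_ne p 2 with hp2 | hp2
  · exact main hR hP hR1 hP1 (fun e => hpr (hp2.trans e.symm)) fun a ha ha1 => (hdis a ha ha1).symm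
  · exact main hP hR hP1 hR1 hp2 hdis

end Cfsg.Agent.FGS.AbCent.Min
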