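import Cfsg.Agent.FGS.AbCentPerm
import Cfsg.Agent.S0021

/-!
If `A` of order `q ^ 2` and exponent `q` acts coprimely on `K` with all `C_K(a)` abelian, then `K`
is solvable.
-/

set_option autoImplicit false
set_option linter.style.haveILetI false

namespace Cfsg.Agent.FGS.AbCent

open Subgroup
open scoped Pointwise

universe u

section restrict

variable {Γ : Type*} [Group Γ] [Finite Γ] {q : ℕ} {K A : Subgroup Γ}

/-- The hypothesis inside `H ⊔ A`. -/
theorem Hyp.restrict (h : Hyp q K A) {H : Subgroup Γ} (hH : Inv K A H) :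
    Hyp q (H.subgroupOf (H ⊔ A)) (A.subgroupOf (H ⊔ A)) where
  prime := h.prime
  comm := ⟨⟨fun x y => Subtype.ext (Subtype.ext (h.commute x.2 y.2).eq)⟩⟩
  card_eq := by
    rw [Nat.card_congr (subgroupOfEquivOfLe (le_sup_right : A ≤ H ⊔ A)).toEquiv, h.card_eq]
  pow_eq a ha := Subtype.ext (h.pow_eq _ ha)
  normal := (normal_subgroupOf_iff_le_normalizer le_sup_left).2 (sup_le Subgroup.le_normalizer hH.2)
  coprime := by
    rw [Nat.card_congr (subgroupOfEquivOfLe (le_sup_left : H ≤ H ⊔ A)).toEquiv]
    exact h.coprime.coprime_dvd_left (card_dvd_of_le hH.1)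
  abel a ha ha1 := by
    have hc : ∀ z : ↥(H.subgroupOf (H ⊔ A) ⊓ centralizer {a}),
        ((z : ↥(H ⊔ A)) : Γ) ∈ K ⊓ centralizer {(a : Γ)} := fun z =>
      ⟨hH.1 z.2.1, mem_centralizer_singleton_iff.2
        (congrArg Subtype.val (mem_centralizer_singleton_iff.1 z.2.2))⟩
    have habel := h.abel (a : Γ) ha (fun e => ha1 (Subtype.ext e))
    refine ⟨⟨fun x y => ?_⟩⟩
    have e := congrArg Subtype.val (habel.is_comm.comm ⟨_, hc x⟩ ⟨_, hc y⟩)
    exact Subtype.ext (Subtype.ext e)

/-- The hypothesis in a quotient. -/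
theorem Hyp.quotient (h : Hyp q K A) (N : Subgroup Γ) [N.Normal] (hNK : N ≤ K) :
    Hyp q (K.map (QuotientGroup.mk' N)) (A.map (QuotientGroup.mk' N)) where
  prime := h.prime
  comm := by haveI := h.comm; infer_instance
  card_eq := by
    rw [← h.card_eq]
    have hinj : Function.Injective ((QuotientGroup.mk' N).comp A.subtype) := by
      rw [← MonoidHom.ker_eq_bot_iff, eq_bot_iff]
      intro a ha
      have haN : (a : Γ) ∈ K := hNK ((QuotientGroup.eq_one_iff _).mp ha)
      have hd : (a : Γ) ∈ K ⊓ A := ⟨haN, a.2⟩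
      rw [inf_eq_bot_of_coprime (h.coprime_card le_rfl).symm, mem_bot] at hd
      exact mem_bot.2 (Subtype.ext hd)
    have hr : A.map (QuotientGroup.mk' N) = ((QuotientGroup.mk' N).comp A.subtype).range := by
      rw [MonoidHom.range_comp, range_subtype]
    rw [hr]
    exact (Nat.card_congr (MonoidHom.ofInjective hinj).toEquiv).symm
  pow_eq := by
    rintro _ ⟨a, ha, rfl⟩
    rw [← map_pow, h.pow_eq a ha, map_one]
  normal := h.normal.map _ (QuotientGroup.mk'_surjective N)
  coprime := h.coprime.coprime_dvd_left (card_map_dvd K _)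
  abel := by
    rintro _ ⟨a, ha, rfl⟩ ha1
    have ha1' : a ≠ 1 := fun e => ha1 (by rw [e, map_one])
    haveI := h.abel a ha ha1'
    have hcop : (Nat.card (zpowers a)).Coprime (Nat.card N) :=
      (h.coprime_card hNK).coprime_dvd_left (card_dvd_of_le (zpowers_le.2 ha))
    have e := Coprime.inf_centralizer_map_mk' (zpowers a) K N hNK hcop (Or.inl inferInstance)
    rw [MonoidHom.map_zpowers, zpowers_eq_closure, zpowers_eq_closure, centralizer_closure,
      centralizer_closure] at e
    rw [e]
    infer_instance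

end restrict

theorem isSolvable_aux : ∀ (n : ℕ) {Γ : Type u} [Group Γ] [Finite Γ] {q : ℕ} {K A : Subgroup Γ},
    Hyp q K A → Nat.card K = n → Group.IsSolvable K := by
  intro n
  induction n using Nat.strong_induction_on with
  | _ n ih =>
  intro Γ _ _ q K A h hn
  classical
  have hproper : ∀ H ≤ K, A ≤ normalizer (H : Set Γ) → H ≠ K → Group.IsSolvable H := by
    intro H hHK hHA hne
    have hlt : Nat.card H < n := hn ▸ lt_of_le_of_ne (Nat.le_of_dvd Nat.card_pos (card_dvd_of_le hHK))
      (fun e => hne (eq_of_le_of_card_ge hHK e.ge))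
    have hs := ih _ hlt (h.restrict ⟨hHK, hHA⟩)
      (Nat.card_congr (subgroupOfEquivOfLe (le_sup_left : H ≤ H ⊔ A)).toEquiv)
    haveI := hs
    exact Group.isSolvable_of_surjective
      (f := (subgroupOfEquivOfLe (le_sup_left : H ≤ H ⊔ A)).toMonoidHom)
      (subgroupOfEquivOfLe (le_sup_left : H ≤ H ⊔ A)).surjective
  by_contra hns
  -- there is no proper nontrivial invariant normal subgroup
  have hsimple : ∀ N ≤ K, A ≤ normalizer (N : Set Γ) → K ≤ normalizer (N : Set Γ) →
      N = ⊥ ∨ N = K := by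
    intro N hNK hNA hKN
    by_contra hcon
    push Not at hcon
    apply hns
    haveI hNs := hproper N hNK hNA hcon.2
    set L := K ⊔ A with hL
    have hKL := h.restrict (H := K) ⟨le_rfl, h.le_normalizer⟩
    rw [← hL] at hKL
    set N' := N.subgroupOf L with hN'
    haveI : N'.Normal := (normal_subgroupOf_iff_le_normalizer (hNK.trans le_sup_left)).2
      (sup_le hKN hNA)
    have hN'K : N' ≤ K.subgroupOf L := fun x hx => hNK hx
    set f := QuotientGroup.mk' N'
    have hlt : Nat.card ↥((K.subgroupOf L).map f) < n := by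
      have hcard : Nat.card (K.subgroupOf L) =
          Nat.card ↥((K.subgroupOf L).map f) * Nat.card N' := by
        rw [mul_comm, ← Cores.card_comap_mk_eq N' ((K.subgroupOf L).map f), comap_map_eq,
          QuotientGroup.ker_mk', sup_eq_left.2 hN'K]
      rw [Nat.card_congr (subgroupOfEquivOfLe (le_sup_left : K ≤ L)).toEquiv, hn,
        Nat.card_congr (subgroupOfEquivOfLe (hNK.trans le_sup_left : N ≤ L)).toEquiv] at hcard
      have h1 : 1 < Nat.card N := (one_lt_card_iff_ne_bot N).2 hcon.1
      have h2 : 0 < Nat.card ↥((K.subgroupOf L).map f) := Nat.card_pos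
      nlinarith
    have hquot := ih _ hlt (hKL.quotient N' hN'K) rfl
    haveI := hquot
    let g := f.subgroupMap (K.subgroupOf L)
    haveI : Group.IsSolvable N' := Group.isSolvable_of_surjective
      (f := (subgroupOfEquivOfLe (hNK.trans le_sup_left : N ≤ L)).symm.toMonoidHom)
      (subgroupOfEquivOfLe (hNK.trans le_sup_left : N ≤ L)).symm.surjective
    haveI : Group.IsSolvable (K.subgroupOf L) := by
      refine Group.isSolvable_of_ker_le_range (inclusion hN'K) g ?_
      intro x hx
      have : (x : L) ∈ N' := (QuotientGroup.eq_one_iff _).1 (congrArg Subtype.val hx)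
      exact ⟨⟨x, this⟩, rfl⟩
    exact Group.isSolvable_of_surjective
      (f := (subgroupOfEquivOfLe (le_sup_left : K ≤ L)).toMonoidHom)
      (subgroupOfEquivOfLe (le_sup_left : K ≤ L)).surjective
  -- `C_K(A)` is central
  have hfix : K ⊓ centralizer (A : Set Γ) = ⊥ := by
    set C := K ⊓ centralizer (A : Set Γ)
    set Z := K ⊓ centralizer (K : Set Γ)
    have hCZ : C ≤ Z := by
      refine le_inf inf_le_left ?_
      rw [le_centralizer_iff]
      exact h.gen ⟨le_rfl, h.le_normalizer⟩ fun a ha ha1 => h.abel_le ha ha1 le_rfl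
        (inf_le_inf_left _ (centralizer_le (Set.singleton_subset_iff.2 ha)))
    have hZn : K ≤ normalizer (Z : Set Γ) :=
      (le_inf Subgroup.le_normalizer (le_normalizer_centralizer Subgroup.le_normalizer)).trans
        inf_normalizer_le_normalizer_inf
    rcases hsimple Z inf_le_left
      (inv_inf (K := K) ⟨le_rfl, h.le_normalizer⟩ (le_normalizer_centralizer h.le_normalizer)).2
      hZn with h1 | h1
    · exact le_bot_iff.1 (hCZ.trans h1.le)
    · exfalso
      refine hns (Group.isSolvable_of_comm fun x y => Subtype.ext ?_)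
      exact (mem_centralizer_iff.1 (h1.ge x.2).2 y y.2).symm
  have hmin : Min q K A := { toHyp := h, fix := hfix, notsolv := hns, proper := hproper,
                             simple := hsimple }
  -- the invariant Sylow subgroups permute
  haveI := fun p : Nat.Primes => Fact.mk p.2
  choose P hP using fun p : Nat.Primes => hmin.exists_syl (p : ℕ)
  choose S hS using fun p : Nat.Primes => hmin.exists_sylow (hP p)
  refine hns (S0021.result S fun p r => ?_)
  rcases eq_or_ne p r with rfl | hpr
  · rfl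
  have hpr' : (p : ℕ) ≠ r := fun e => hpr (Subtype.ext e)
  obtain ⟨H, hH, hHpr, hPH, hRH⟩ := hmin.big hpr' (hP p) (hP r)
  have key : ∀ (s t : Nat.Primes), (s : ℕ) ≠ t → IsPR (s : ℕ) t H → P s ≤ H → P t ≤ H →
      (S t : Set K) * (S s : Set K) ⊆ (S s : Set K) * (S t : Set K) := by
    intro s t hst hst' hsH htH
    rintro _ ⟨y, hy, x, hx, rfl⟩
    have hy' : y ∈ (S t : Subgroup K) := hy
    have hx' : x ∈ (S s : Subgroup K) := hx
    rw [hS t] at hy'
    rw [hS s] at hx'
    obtain ⟨x', hxm, y', hym, he⟩ := hmin.pr_mul hst (hP s) (hP t) hH hst'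
      (show ((y * x : K) : Γ) ∈ H from H.mul_mem (htH hy') (hsH hx'))
    refine ⟨⟨x', (hP s).inv.1 hxm.2⟩, ?_, ⟨y', (hP t).inv.1 hym.2⟩, ?_, Subtype.ext he.symm⟩
    · show _ ∈ (S s : Subgroup K); rw [hS s]; exact hxm.2
    · show _ ∈ (S t : Subgroup K); rw [hS t]; exact hym.2
  exact le_antisymm (key r p hpr'.symm hHpr.symm hRH hPH) (key p r hpr' hHpr hPH hRH)

theorem isSolvable {Γ : Type u} [Group Γ] [Finite Γ] {q : ℕ} {K A : Subgroup Γ} (h : Hyp q K A) :
    Group.IsSolvable K :=
  isSolvable_aux _ h rfl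

end Cfsg.Agent.FGS.AbCent
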