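import Mathlib.GroupTheory.SemidirectProduct
import Mathlib.GroupTheory.GroupAction.FixedPoints
import Mathlib.Algebra.Group.Subgroup.Pointwise
import Mathlib.GroupTheory.Commutator.Basic
import Mathlib.Algebra.GroupWithZero.Action.Defs
import Cfsg.Agent.Coprime.Action

/-!
A coprime action seen inside the semidirect product.
-/

set_option autoImplicit false

namespace Cfsg.Agent.FGS.ActSD

open Subgroup SemidirectProduct
open scoped commutatorElement

universe u

variable (A G : Type u) [Group A] [Group G] [MulDistribMulAction A G]

/-- The semidirect product of the action. -/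
abbrev Amb : Type u := G ⋊[MulDistribMulAction.toMulAut A G] A

/-- The acting group inside the semidirect product. -/
def actor : Subgroup (Amb A G) := (inr : A →* Amb A G).range

/-- The acted group inside the semidirect product. -/
def base : Subgroup (Amb A G) := (inl : G →* Amb A G).range

variable {A G}

theorem finite_amb [Finite A] [Finite G] : Finite (Amb A G) :=
  Finite.of_equiv _ (SemidirectProduct.equivProd).symm

theorem card_actor : Nat.card (actor A G) = Nat.card A :=
  (Nat.card_congr (MonoidHom.ofInjective inr_injective).toEquiv).symm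

theorem card_base : Nat.card (base A G) = Nat.card G :=
  (Nat.card_congr (MonoidHom.ofInjective inl_injective).toEquiv).symm

theorem conj_inl (a : A) (g : G) :
    (inr a : Amb A G) * inl g * (inr a)⁻¹ = inl (a • g) := by
  rw [← map_inv]
  exact (inl_aut (φ := MulDistribMulAction.toMulAut A G) a g).symm

theorem actor_le_normalizer : actor A G ≤ normalizer (base A G : Set (Amb A G)) := by
  have key : ∀ (a : A) (x : Amb A G), x ∈ base A G → (inr a : Amb A G) * x * (inr a)⁻¹ ∈ base A G := by
    rintro a _ ⟨g, rfl⟩
    exact ⟨a • g, (conj_inl a g).symm⟩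
  rintro _ ⟨a, rfl⟩
  refine mem_normalizer_iff.2 fun x => ⟨key a x, fun hx => ?_⟩
  have := key a⁻¹ _ hx
  simpa [mul_assoc] using this

theorem map_fixed (a : A) :
    (FixedPoints.subgroup (zpowers a) G).map (inl : G →* Amb A G)
      = base A G ⊓ centralizer {(inr a : Amb A G)} := by
  ext x
  constructor
  · rintro ⟨g, hg, rfl⟩
    refine ⟨⟨g, rfl⟩, mem_centralizer_singleton_iff.2 ?_⟩
    have := conj_inl (G := G) a g
    rw [show a • g = g from hg ⟨a, mem_zpowers a⟩] at this
    exact (mul_inv_eq_iff_eq_mul.1 this).symm
  · rintro ⟨⟨g, rfl⟩, hx⟩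
    refine ⟨g, ?_, rfl⟩
    have h1 : a • g = g := by
      apply inl_injective (φ := MulDistribMulAction.toMulAut A G)
      rw [← conj_inl, ← mem_centralizer_singleton_iff.1 hx, mul_inv_cancel_right]
    rintro ⟨b, hb⟩
    have hle : zpowers a ≤ MulAction.stabilizer A g := zpowers_le.2 h1
    exact hle hb

theorem card_commutator_fixed (a : A) :
    Nat.card (commutator (FixedPoints.subgroup (zpowers a) G)) =
      Nat.card ↥(⁅base A G ⊓ centralizer {(inr a : Amb A G)}, base A G ⊓ centralizer {(inr a : Amb A G)}⁆) := by
  rw [← map_fixed, ← Subgroup.map_commutator, card_map_of_injective inl_injective,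
    ← map_subtype_commutator, card_map_of_injective (subtype_injective _)]

theorem card_commutator : Nat.card (commutator G) = Nat.card ↥(⁅base A G, base A G⁆) := by
  rw [base, MonoidHom.range_eq_map, ← Subgroup.map_commutator,
    card_map_of_injective inl_injective, commutator_def]

end Cfsg.Agent.FGS.ActSD
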