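import Cfsg.Agent.PermP.ZassCore

/-!
First properties of Frobenius complements, stated for abstract groups.
-/

set_option autoImplicit false

namespace Cfsg.Agent.FGS.FC

open Subgroup

variable {G : Type*} [Group G] [Finite G]

theorem isFC_subgroup (h : IsFC G) (D : Subgroup G) [Nontrivial D] : IsFC D := by
  obtain ⟨r, -, -, V, _, _, _, -, f, hf⟩ := exists_module_of_isFC h
  exact isFC_of_fpf (f.comp D.subtype) fun a ha v hv =>
    hf a.1 (fun e => ha (Subtype.ext e)) v hv

theorem isFC_abelian_cyclic (h : IsFC G) {E : Subgroup G} (hE : ∀ x ∈ E, ∀ y ∈ E, x * y = y * x) :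
    IsCyclic E := by
  obtain ⟨L, _, _, H, hH, ⟨e⟩⟩ := h
  haveI : IsMulCommutative E := ⟨⟨fun a b => Subtype.ext (hE _ a.2 _ b.2)⟩⟩
  set E' : Subgroup L := (E.map e.toMonoidHom).map H.subtype
  haveI := isCyclic_of_isMulCommutative hH E' (map_subtype_le _) inferInstance
  exact isCyclic_of_injective
    ((E.equivMapOfInjective e.toMonoidHom e.injective).trans
      ((E.map e.toMonoidHom).equivMapOfInjective H.subtype H.subtype_injective)).toMonoidHom
    (MulEquiv.injective _)

theorem isFC_involution_eq (h : IsFC G) {x y : G} (hx : orderOf x = 2) (hy : orderOf y = 2) :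
    x = y := by
  obtain ⟨n, ρ, hn, hf⟩ := PermP.Zass.exists_rat_rep h
  haveI : Nonempty (Fin n) := ⟨⟨0, hn⟩⟩
  have key : ∀ w : G, orderOf w = 2 → ρ w = -1 := fun w hw => by
    have hw1 : w ≠ 1 := fun e => by rw [e, orderOf_one] at hw; norm_num at hw
    have hww : w * w = 1 := by rw [← pow_two, ← hw, pow_orderOf_eq_one]
    have e : (ρ w - 1) * (ρ w + 1) = (ρ w - 1) * 0 := by
      rw [mul_zero, sub_mul, mul_add, mul_one, one_mul, ← map_mul, hww, map_one]; abel
    exact eq_neg_of_add_eq_zero_left ((hf w hw1).mul_left_cancel e)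
  by_contra hne
  have hyy : y * y = 1 := by rw [← pow_two, ← hy, pow_orderOf_eq_one]
  have hxy : x * y ≠ 1 := fun e => hne (mul_right_cancel (e.trans hyy.symm))
  have := hf _ hxy
  rw [map_mul, key x hx, key y hy, neg_one_mul, neg_neg, sub_self] at this
  exact not_isUnit_zero this

theorem isFC_central_involution (h : IsFC G) (h2 : 2 ∣ Nat.card G) :
    ∃ z : G, orderOf z = 2 ∧ z ∈ center G ∧ ∀ x : G, x * x = 1 → x = 1 ∨ x = z := by
  haveI : Fact (Nat.Prime 2) := ⟨Nat.prime_two⟩
  obtain ⟨z, hz⟩ := exists_prime_orderOf_dvd_card' (G := G) 2 h2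
  refine ⟨z, hz, mem_center_iff.2 fun g => ?_, fun x hx => ?_⟩
  · have := isFC_involution_eq h (x := g * z * g⁻¹) (y := z)
      (((MulAut.conj g).orderOf_eq z).trans hz) hz
    exact mul_inv_eq_iff_eq_mul.1 this
  · by_cases h1 : x = 1
    · exact Or.inl h1
    · exact Or.inr (isFC_involution_eq h (orderOf_eq_prime (by rw [pow_two]; exact hx) h1) hz)

/-- A 2-subgroup of order four or more contains an element of order four. -/
theorem isFC_exists_four (h : IsFC G) (C : Subgroup G) (h4 : 4 ∣ Nat.card C) :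
    ∃ c ∈ C, orderOf c = 4 := by
  haveI : Fact (Nat.Prime 2) := ⟨Nat.prime_two⟩
  obtain ⟨E, hE⟩ := Sylow.exists_subgroup_card_pow_prime 2 (n := 2) (G := C) (by simpa using h4)
  set E' := E.map C.subtype
  have hc : Nat.card E' = 2 ^ 2 := (card_map_of_injective C.subtype_injective).trans hE
  haveI : IsMulCommutative E' := IsPGroup.isMulCommutative_of_card_eq_prime_sq (p := 2) hc
  haveI := isFC_abelian_cyclic h (E := E') fun x hx y hy =>
    congrArg Subtype.val (mul_comm' (⟨x, hx⟩ : E') ⟨y, hy⟩)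
  obtain ⟨⟨g, hg⟩, hgo⟩ := IsCyclic.exists_ofOrder_eq_natCard (α := E')
  refine ⟨g, map_subtype_le E hg, ?_⟩
  rw [← show orderOf (⟨g, hg⟩ : E') = orderOf g from (Subgroup.orderOf_coe _).symm, hgo, hc]
  norm_num

theorem isFC_isZGroup_of_not_four_dvd (h : IsFC G) (C : Subgroup G) (h4 : ¬ 4 ∣ Nat.card C) :
    IsZGroup C := by
  refine ⟨fun p hp P => ?_⟩
  haveI := Fact.mk hp
  by_cases hp2 : p = 2
  · subst hp2
    obtain ⟨k, hk⟩ := IsPGroup.iff_card.1 P.isPGroup'
    refine isCyclic_of_card_dvd_prime (p := 2) ?_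
    rw [hk]
    refine (Nat.pow_dvd_pow_iff_le_right (by norm_num)).2 ?_ |>.trans (pow_one 2).dvd
    by_contra hk2
    exact h4 (((pow_dvd_pow 2 (show 2 ≤ k by omega)).trans (hk ▸ P.card_subgroup_dvd_card)))
  · haveI := PermP.Zass.isCyclic_of_isPGroup h hp2 (P.isPGroup'.map C.subtype)
    exact isCyclic_of_injective
      ((P : Subgroup C).equivMapOfInjective C.subtype C.subtype_injective).toMonoidHom
      (MulEquiv.injective _)

theorem isFC_sylow_two (h : IsFC G) (T : Sylow 2 G) :
    IsCyclic (T : Subgroup G) ∨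
      ∃ n : ℕ, 1 ≤ n ∧ Nonempty ((T : Subgroup G) ≃* QuaternionGroup (2 ^ n)) := by
  rcases TwoGroups.cyclic_or_quaternion_of_unique_involution T.isPGroup' (fun x y hx hy =>
      Subtype.ext (isFC_involution_eq h ((Subgroup.orderOf_coe x).trans hx)
        ((Subgroup.orderOf_coe y).trans hy))) with hc | ⟨n, hn, -, he⟩
  · exact Or.inl hc
  · exact Or.inr ⟨n - 1, by omega, he⟩

theorem isFC_isZGroup_of_cyclic_sylow (h : IsFC G) (T : Sylow 2 G)
    (hT : IsCyclic (T : Subgroup G)) : IsZGroup G := by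
  refine ⟨fun p hp P => ?_⟩
  haveI := Fact.mk hp
  by_cases hp2 : p = 2
  · subst hp2
    exact isCyclic_of_injective (T.equiv P).symm.toMonoidHom (MulEquiv.injective _)
  · exact PermP.Zass.isCyclic_of_isPGroup h hp2 P.isPGroup'

end Cfsg.Agent.FGS.FC
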