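import Cfsg.Agent.PermP.ZassCore

/-!
Normal subgroups and Sylow 2-subgroups of `SL(2,5)`.
-/

set_option autoImplicit false
set_option maxHeartbeats 1000000

namespace Cfsg.Agent.FGS.FC

open Subgroup
open Cfsg.Agent.Recog.Icosahedral
open Cfsg.Agent.PermP.Zass

local notation "SL5" => Matrix.SpecialLinearGroup (Fin 2) (ZMod 5)

/-- An element of order four of `SL(2,5)`. -/
def slI : SL5 := ⟨!![2, 0; 0, 3], by decide⟩

/-- An element of order three normalising a Sylow 2-subgroup of `SL(2,5)`. -/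
def slG : SL5 := ⟨!![1, 1; 2, 3], by decide⟩

theorem sl_four_comm : ∀ g : SL5, g = 1 ∨ g = slNeg ∨ ∃ h : SL5,
    let c := g * (h * g⁻¹ * h⁻¹)
    c * c = slNeg ∨ (c * c * c) * (c * c * c) = 1 ∧ c ≠ 1 ∧ c ≠ slNeg := by decide +kernel

theorem sl_four_comm_six : ∀ g : SL5, (g * g * g) * (g * g * g) = 1 → g = 1 ∨ g = slNeg ∨
    ∃ h : SL5, g * (h * g⁻¹ * h⁻¹) * (g * (h * g⁻¹ * h⁻¹)) = slNeg := by decide +kernel

theorem sl_four_conj : ∀ u : SL5, u * u = slNeg → ∃ h : SL5, h * slI * h⁻¹ = u := by decide +kernel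

theorem sl_gen_four : (∃ u v : SL5, u * u = slNeg ∧ v * v = slNeg ∧ slX = u * v) ∧
    (∃ u v : SL5, u * u = slNeg ∧ v * v = slNeg ∧ slY = u * v) := by decide +kernel

theorem sl_normal_cases (N : Subgroup SL5) [hN : N.Normal] :
    N = ⊤ ∨ ∀ g ∈ N, g = 1 ∨ g = slNeg := by
  by_contra hcon
  push Not at hcon
  obtain ⟨htop, g, hg, hg1, hg2⟩ := hcon
  obtain ⟨h, hh⟩ := ((sl_four_comm g).resolve_left hg1).resolve_left hg2
  obtain ⟨c, hcN, hh⟩ : ∃ c ∈ N, c * c = slNeg := by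
    have hmem : ∀ g ∈ N, ∀ h : SL5, g * (h * g⁻¹ * h⁻¹) ∈ N := fun g hg h =>
      mul_mem hg (hN.conj_mem _ (inv_mem hg) h)
    rcases hh with e | ⟨e6, e1, e2⟩
    · exact ⟨_, hmem g hg h, e⟩
    · obtain ⟨h', hh'⟩ := ((sl_four_comm_six _ e6).resolve_left e1).resolve_left e2
      exact ⟨_, hmem _ (hmem g hg h) h', hh'⟩
  obtain ⟨k, hk⟩ := sl_four_conj c hh
  have hI : slI ∈ N := by
    have := hN.conj_mem _ hcN k⁻¹
    rwa [← hk, inv_inv, show k⁻¹ * (k * slI * k⁻¹) * k = slI by group] at this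
  have hall : ∀ u : SL5, u * u = slNeg → u ∈ N := fun u hu => by
    obtain ⟨m, hm⟩ := sl_four_conj u hu
    exact hm ▸ hN.conj_mem _ hI m
  obtain ⟨⟨u, v, hu, hv, hX⟩, ⟨u', v', hu', hv', hY⟩⟩ := sl_gen_four
  apply htop
  rw [eq_top_iff, ← sl_closure, closure_le]
  rintro x (rfl | rfl)
  · exact hX ▸ mul_mem (hall u hu) (hall v hv)
  · exact hY ▸ mul_mem (hall u' hu') (hall v' hv')

/-- The eight elements of a Sylow 2-subgroup of `SL(2,5)`. -/
def slQSet : List SL5 :=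
  [⟨!![1, 0; 0, 1], by decide⟩, ⟨!![4, 0; 0, 4], by decide⟩, ⟨!![2, 0; 0, 3], by decide⟩,
    ⟨!![3, 0; 0, 2], by decide⟩, ⟨!![0, 1; 4, 0], by decide⟩, ⟨!![0, 4; 1, 0], by decide⟩,
    ⟨!![0, 2; 2, 0], by decide⟩, ⟨!![0, 3; 3, 0], by decide⟩]

theorem slQ_facts : (∀ x ∈ slQSet, x⁻¹ ∈ slQSet) ∧ (∀ x ∈ slQSet, ∀ y ∈ slQSet, x * y ∈ slQSet) ∧
    (∀ x ∈ slQSet, slG * x * slG⁻¹ ∈ slQSet) ∧ (∀ x ∈ slQSet, slG⁻¹ * x * slG ∈ slQSet) ∧
    slQSet.Nodup ∧ slG ^ 3 = 1 ∧ slG ≠ 1 := by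
  refine ⟨?_, ?_, ?_, ?_, ?_, ?_, ?_⟩ <;> decide +kernel

/-- A Sylow 2-subgroup of `SL(2,5)`. -/
def slQ : Subgroup SL5 where
  carrier := {x | x ∈ slQSet}
  mul_mem' := fun hx hy => slQ_facts.2.1 _ hx _ hy
  one_mem' := by decide +kernel
  inv_mem' := fun hx => slQ_facts.1 _ hx

theorem card_slQ : Nat.card slQ = 8 := by
  rw [show Nat.card slQ = slQSet.toFinset.card by
    rw [← Nat.card_eq_finsetCard]
    exact Nat.card_congr (Equiv.subtypeEquivRight fun x => by
      rw [List.mem_toFinset]; rfl)]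
  rw [List.toFinset_card_of_nodup slQ_facts.2.2.2.2.1]
  rfl

theorem card_sylow_two_sl : Nat.card (Sylow 2 SL5) = 5 := by
  haveI : Fact (Nat.Prime 2) := ⟨Nat.prime_two⟩
  haveI : Finite SL5 := inferInstance
  let P : Sylow 2 SL5 := (IsPGroup.of_card (p := 2) (n := 3) card_slQ).toSylow (by
    have h := slQ.card_mul_index
    rw [card_slQ, nat_card_SL] at h
    rw [show slQ.index = 15 by omega]; norm_num)
  have hP : (P : Subgroup SL5) = slQ := rfl
  set M := normalizer ((P : Subgroup SL5) : Set SL5)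
  have hG : slG ∈ M := by
    rw [Subgroup.mem_normalizer_iff]
    intro x
    refine ⟨fun hx => slQ_facts.2.2.1 x hx, fun hx => ?_⟩
    have := slQ_facts.2.2.2.1 _ hx
    rwa [show slG⁻¹ * (slG * x * slG⁻¹) * slG = x by group] at this
  have h8 : 8 ∣ Nat.card M := by
    rw [← card_slQ]; exact card_dvd_of_le (hP ▸ le_normalizer)
  have h3 : 3 ∣ Nat.card M := by
    haveI : Fact (Nat.Prime 3) := ⟨Nat.prime_three⟩
    rw [← orderOf_eq_prime slQ_facts.2.2.2.2.2.1 slQ_facts.2.2.2.2.2.2]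
    exact orderOf_dvd_natCard M hG
  have h24 : 24 ∣ Nat.card M := Nat.Coprime.mul_dvd_of_dvd_of_dvd (by norm_num) h8 h3
  have hmul := M.card_mul_index
  rw [nat_card_SL] at hmul
  obtain ⟨a, ha⟩ := h24
  have h5 : M.index ∣ 5 := ⟨a, by rw [ha] at hmul; nlinarith⟩
  rcases (Nat.dvd_prime (by norm_num)).1 h5 with h | h
  · exfalso
    haveI : slQ.Normal := normalizer_eq_top_iff.1 (hP ▸ index_eq_one.1 h)
    rcases sl_normal_cases slQ with ht | hz
    · have := card_slQ; rw [ht, card_top, nat_card_SL] at this; norm_num at this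
    · have hI : slI ∈ slQ := show slI ∈ slQSet by decide +kernel
      rcases hz _ hI with e | e <;> exact absurd e (by decide)
  · rw [Sylow.card_eq_index_normalizer P]; exact h

variable {D : Type*} [Group D]

theorem sl_iso_normal (e : D ≃* SL5) (N : Subgroup D) [hN : N.Normal] :
    N = ⊤ ∨ ∀ x ∈ N, x * x = 1 := by
  haveI : (N.map e.toMonoidHom).Normal := hN.map _ e.surjective
  rcases sl_normal_cases (N.map e.toMonoidHom) with h | h
  · left; exact map_injective e.injective (h.trans (map_top_of_surjective _ e.surjective).symm)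
  · right
    intro x hx
    apply e.injective
    rw [map_mul, map_one]
    rcases h _ ⟨x, hx, rfl⟩ with h' | h' <;>
      · rw [show e x = _ from h']; decide +kernel

theorem sl_iso_card (e : D ≃* SL5) : Nat.card D = 120 :=
  (Nat.card_congr e.toEquiv).trans nat_card_SL

theorem sl_iso_card_sylow (e : D ≃* SL5) : Nat.card (Sylow 2 D) = 5 := by
  haveI : Fact (Nat.Prime 2) := ⟨Nat.prime_two⟩
  haveI : Finite D := Finite.of_equiv _ e.symm.toEquiv
  obtain ⟨P⟩ : Nonempty (Sylow 2 D) := inferInstance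
  have h1 := Sylow.card_eq_index_normalizer P
  let P' := P.mapSurjective (f := e.toMonoidHom) e.surjective
  have h2 := Sylow.card_eq_index_normalizer P'
  rw [card_sylow_two_sl] at h2
  have h3 : (normalizer ((P' : Subgroup SL5) : Set SL5)).index
      = (normalizer ((P : Subgroup D) : Set D)).index := by
    have h : (normalizer ((P : Subgroup D) : Set D)).map e.toMonoidHom
        = normalizer ((P' : Subgroup SL5) : Set SL5) :=
      map_normalizer_eq_of_bijective _ e.bijective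
    rw [← h]
    exact index_map_of_bijective e.bijective _
  exact h1.trans (h3.symm.trans h2.symm)

end Cfsg.Agent.FGS.FC
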