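import Mathlib

/-!
An element `T` of prime order `p` without fixed vectors which normalizes a finite group whose image
modulo scalars is abelian, acted on without fixed points and with non-degenerate commutator pairing:
then that quotient has order `(p - 1) ^ 2`.
-/

set_option linter.unusedSectionVars false

namespace Cfsg.Agent.FGS.HH

open Module Module.End
open scoped BigOperators

section fourier

variable {k : Type*} [Field k] {M : Type*} [AddCommGroup M] [Module k M] {p : ℕ} [hp : Fact p.Prime]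

/-- the `i`-th Fourier projection of an operator with `Θ ^ p = 1` -/
noncomputable def proj (Θ : End k M) (ψ : AddChar (ZMod p) k) (i : ZMod p) : End k M :=
  (p : k)⁻¹ • ∑ l : ZMod p, ψ (-(i * l)) • Θ ^ l.val

theorem pow_val_add {Θ : End k M} (hΘ : Θ ^ p = 1) (a b : ZMod p) :
    Θ ^ (a + b).val = Θ ^ a.val * Θ ^ b.val := by
  rw [← pow_add, pow_eq_pow_mod (a.val + b.val) hΘ, ← ZMod.val_add]

theorem proj_mem_eigen {Θ : End k M} (hΘ : Θ ^ p = 1) (ψ : AddChar (ZMod p) k) (i : ZMod p) (f : M) :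
    proj Θ ψ i f ∈ eigenspace Θ (ψ i) := by
  rw [mem_eigenspace_iff]
  simp only [proj, LinearMap.smul_apply, LinearMap.sum_apply, map_smul, map_sum]
  rw [smul_comm (ψ i), Finset.smul_sum (r := ψ i)]
  congr 1
  refine Fintype.sum_equiv (Equiv.addRight 1) _ _ fun l => ?_
  have h1 : (1 : ZMod p).val = 1 := ZMod.val_one p
  have h2 : Θ ^ (l + 1).val = Θ * Θ ^ l.val := by
    rw [add_comm, pow_val_add hΘ, h1, pow_one]
  rw [Equiv.coe_addRight, smul_smul, ← AddChar.map_add_eq_mul, h2, Module.End.mul_apply]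
  congr 2
  ring

theorem sum_proj {Θ : End k M} (hΘ : Θ ^ p = 1) {ψ : AddChar (ZMod p) k} (hψ : ψ.IsPrimitive)
    (hpk : (p : k) ≠ 0) (f : M) : ∑ i, proj Θ ψ i f = f := by
  simp only [proj, LinearMap.smul_apply, LinearMap.sum_apply]
  rw [← Finset.smul_sum, Finset.sum_comm]
  simp only [← Finset.sum_smul]
  have h : ∀ l : ZMod p, ∑ i, ψ (-(i * l)) = if l = 0 then (p : k) else 0 := by
    intro l
    have := AddChar.sum_mulShift (-l) hψ
    simp only [neg_eq_zero, ZMod.card, mul_neg] at this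
    rw [this]
    split_ifs <;> simp
  simp only [h, ite_smul, zero_smul, Finset.sum_ite_eq', Finset.mem_univ, if_true]
  rw [smul_smul, inv_mul_cancel₀ hpk, one_smul, ZMod.val_zero, pow_zero, Module.End.one_apply]

theorem proj_mem {Θ : End k M} (ψ : AddChar (ZMod p) k) (i : ZMod p) {U : Submodule k M}
    (hU : ∀ f ∈ U, Θ f ∈ U) {f : M} (hf : f ∈ U) : proj Θ ψ i f ∈ U := by
  have hpow : ∀ n : ℕ, (Θ ^ n) f ∈ U := fun n => by
    induction n with
    | zero => simpa using hf
    | succ n ih => rw [pow_succ', Module.End.mul_apply]; exact hU _ ih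
  simp only [proj, LinearMap.smul_apply, LinearMap.sum_apply]
  exact U.smul_mem _ (U.sum_mem fun l _ => U.smul_mem _ (hpow _))

theorem proj_eigen {Θ : End k M} {ψ : AddChar (ZMod p) k} (hψ : ψ.IsPrimitive)
    (hpk : (p : k) ≠ 0) (i j : ZMod p) {f : M} (hf : f ∈ eigenspace Θ (ψ j)) :
    proj Θ ψ i f = if i = j then f else 0 := by
  rw [mem_eigenspace_iff] at hf
  have hpow : ∀ n : ℕ, (Θ ^ n) f = ψ (n • j) • f := fun n => by
    induction n with
    | zero => simp
    | succ n ih =>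
      rw [pow_succ', Module.End.mul_apply, ih, map_smul, hf, smul_smul, succ_nsmul,
        AddChar.map_add_eq_mul]
  simp only [proj, LinearMap.smul_apply, LinearMap.sum_apply, hpow, smul_smul]
  rw [← Finset.sum_smul]
  have h : ∀ l : ZMod p, ψ (-(i * l)) * ψ (l.val • j) = ψ (l * (j - i)) := fun l => by
    rw [← AddChar.map_add_eq_mul, nsmul_eq_mul, ZMod.natCast_zmod_val]
    congr 1
    ring
  simp only [h, AddChar.sum_mulShift (j - i) hψ, sub_eq_zero, ZMod.card]
  rcases eq_or_ne i j with rfl | hne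
  · rw [if_pos rfl, if_pos rfl, smul_smul, inv_mul_cancel₀ hpk, one_smul]
  · rw [if_neg hne.symm, if_neg hne, Nat.cast_zero, zero_smul, smul_zero]

/-- the dimension of an invariant subspace is the sum of the dimensions of its eigen-parts -/
theorem finrank_eq_sum [FiniteDimensional k M] {Θ : End k M} (hΘ : Θ ^ p = 1)
    {ψ : AddChar (ZMod p) k} (hψ : ψ.IsPrimitive) (hpk : (p : k) ≠ 0) {U : Submodule k M}
    (hU : ∀ f ∈ U, Θ f ∈ U) :
    finrank k U = ∑ i, finrank k ↥(eigenspace Θ (ψ i) ⊓ U : Submodule k M) := by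
  classical
  rw [← Module.finrank_pi_fintype k]
  refine LinearEquiv.finrank_eq ?_
  refine LinearEquiv.ofBijective
    (LinearMap.pi fun i => ((proj Θ ψ i).comp U.subtype).codRestrict _
      fun f => Submodule.mem_inf.2 ⟨proj_mem_eigen hΘ ψ i _, proj_mem ψ i hU f.2⟩) ⟨?_, ?_⟩
  · intro f g hfg
    apply Subtype.ext
    rw [← sum_proj hΘ hψ hpk (f : M), ← sum_proj hΘ hψ hpk (g : M)]
    exact Finset.sum_congr rfl fun i _ => congrArg Subtype.val (congrFun hfg i)
  · intro g
    refine ⟨⟨∑ i, (g i : M), U.sum_mem fun i _ => (g i).2.2⟩, ?_⟩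
    funext i
    apply Subtype.ext
    show proj Θ ψ i (∑ j, (g j : M)) = g i
    simp [map_sum, proj_eigen hψ hpk i _ (g _).2.1]

end fourier

/-- the integer inequality behind the theorem -/
theorem le_one_of_shift {p : ℕ} [Fact p.Prime] (m : ZMod p → ℕ) (h0 : m 0 = 0)
    (h : ∀ j : ZMod p, j ≠ 0 → ∑ i, m i * m i ≤ 1 + ∑ i, m i * m (i + j)) (j : ZMod p) : m j ≤ 1 := by
  rcases eq_or_ne j 0 with rfl | hj
  · omega
  have h' : (∑ i, (m i : ℤ) * m i) ≤ 1 + ∑ i, (m i : ℤ) * m (i + j) := by exact_mod_cast h j hj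
  have hshift : ∀ f : ZMod p → ℤ, ∑ i, f (i + j) = ∑ i, f i := fun f =>
    Fintype.sum_equiv (Equiv.addRight j) _ _ fun i => rfl
  set d : ZMod p → ℤ := fun i => (m i : ℤ) - m (i + j) with hd
  have hsum : ∑ i, d i = 0 := by
    simp only [hd, Finset.sum_sub_distrib, hshift fun i => (m i : ℤ), sub_self]
  have hsq : ∑ i, d i ^ 2 ≤ 2 := by
    have e : ∑ i, d i ^ 2 =
        2 * (∑ i, (m i : ℤ) * m i) - 2 * ∑ i, (m i : ℤ) * m (i + j) := by
      have e1 : ∑ i, (m (i + j) : ℤ) * m (i + j) = ∑ i, (m i : ℤ) * m i :=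
        hshift fun i => (m i : ℤ) * m i
      calc ∑ i, d i ^ 2 = ∑ i, ((m i : ℤ) * m i - 2 * ((m i : ℤ) * m (i + j)) +
            (m (i + j) : ℤ) * m (i + j)) := Finset.sum_congr rfl fun i _ => by simp only [hd]; ring
        _ = _ := by rw [Finset.sum_add_distrib, Finset.sum_sub_distrib, ← Finset.mul_sum, e1]; ring
    linarith
  have hd0 : d 0 = -(m j : ℤ) := by simp [hd, h0]
  rw [← Finset.add_sum_erase _ _ (Finset.mem_univ (0 : ZMod p))] at hsum hsq
  have hrest : (m j : ℤ) ≤ ∑ i ∈ Finset.univ.erase (0 : ZMod p), d i ^ 2 := by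
    calc (m j : ℤ) = ∑ i ∈ Finset.univ.erase (0 : ZMod p), d i := by linarith
      _ ≤ _ := Finset.sum_le_sum fun i _ => Int.le_self_sq _
  rw [hd0] at hsq
  have : (m j : ℤ) ≤ 1 := by nlinarith [sq_nonneg ((m j : ℤ) - 1)]
  exact_mod_cast this

/-- a function on `Q` twisted by `ζ` along a fixed-point-free permutation of prime order -/
theorem exists_twist {Q : Type*} [Fintype Q] {p : ℕ} [hp : Fact p.Prime] (σ : Equiv.Perm Q)
    (hσ : σ ^ p = 1) (o : Q) (ho : σ o = o) (hfpf : ∀ q, σ q = q → q = o) {k : Type*} [Field k]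
    {ζ : k} (hζ : ζ ^ p = 1) : ∃ g : Q → k, g o = 0 ∧ (∀ q, g (σ q) = ζ * g q) ∧ ∀ q, q ≠ o → g q ≠ 0 := by
  classical
  have hz0 : ζ ≠ 0 := fun h => by simp [h, hp.out.ne_zero] at hζ
  let s : Setoid Q := MulAction.orbitRel (Subgroup.zpowers σ) Q
  let r : Q → Q := fun q => (Quotient.mk s q).out
  have hr : ∀ q, ∃ i : ℕ, (σ ^ i) (r q) = q := by
    intro q
    have h : s (r q) q := Quotient.exact (Quotient.out_eq (Quotient.mk s q))
    obtain ⟨⟨g, n, hn⟩, hg⟩ := MulAction.orbitRel_apply.1 (Setoid.symm h)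
    refine ⟨(n % (p : ℤ)).toNat, ?_⟩
    have e : σ ^ ((n % (p : ℤ)).toNat) = g := by
      rw [← hn, ← zpow_natCast, Int.toNat_of_nonneg (Int.emod_nonneg _ (by exact_mod_cast hp.out.ne_zero))]
      have : σ ^ ((p : ℕ) : ℤ) = 1 := by rw [zpow_natCast, hσ]
      exact (zpow_eq_zpow_emod n this).symm
    rw [e]
    exact hg
  choose i hi using hr
  have hstab : ∀ x, x ≠ o → ∀ a b : ℕ, (σ ^ a) x = (σ ^ b) x → ζ ^ a = ζ ^ b := by
    intro x hx a b hab
    have hord : orderOf σ = p := by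
      refine orderOf_eq_prime hσ fun h => hx (hfpf x ?_)
      rw [h]; rfl
    let S : Subgroup (Equiv.Perm Q) := MulAction.stabilizer (Equiv.Perm Q) x ⊓ Subgroup.zpowers σ
    have hS : (σ ^ a)⁻¹ * σ ^ b ∈ S := by
      refine ⟨?_, (Subgroup.zpowers σ).mul_mem ((Subgroup.zpowers σ).inv_mem ((Subgroup.zpowers σ).pow_mem (Subgroup.mem_zpowers σ) a)) ((Subgroup.zpowers σ).pow_mem (Subgroup.mem_zpowers σ) b)⟩
      show ((σ ^ a)⁻¹ * σ ^ b) x = x
      rw [Equiv.Perm.mul_apply, ← hab]
      exact Equiv.symm_apply_apply _ x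
    have hdvd : Nat.card S ∣ p := by
      rw [← hord, ← Nat.card_zpowers]
      exact Subgroup.card_dvd_of_le inf_le_right
    rcases hp.out.eq_one_or_self_of_dvd _ hdvd with h1 | hpp
    · rw [Subgroup.card_eq_one] at h1
      rw [h1, Subgroup.mem_bot, inv_mul_eq_one] at hS
      have := (pow_eq_pow_iff_modEq.1 hS)
      rw [hord] at this
      rw [pow_eq_pow_mod a hζ, pow_eq_pow_mod b hζ, this]
    · exfalso
      have : σ ∈ S := by
        have e : S = Subgroup.zpowers σ := Subgroup.eq_of_le_of_card_ge inf_le_right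
          (by rw [hpp, Nat.card_zpowers, hord])
        rw [e]
        exact Subgroup.mem_zpowers σ
      exact hx (hfpf x this.1)
  refine ⟨fun q => if q = o then 0 else ζ ^ i q, if_pos rfl, fun q => ?_, fun q hq => ?_⟩
  · rcases eq_or_ne q o with rfl | hq
    · rw [ho]; simp
    have hsq : σ q ≠ o := fun h => hq (σ.injective (h.trans ho.symm))
    simp only [if_neg hq, if_neg hsq]
    have hrr : r (σ q) = r q := by
      show (Quotient.mk s (σ q)).out = (Quotient.mk s q).out
      congr 1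
      exact Quotient.sound (MulAction.orbitRel_apply.2 ⟨⟨σ, Subgroup.mem_zpowers σ⟩, rfl⟩)
    have hro : r q ≠ o := by
      intro h
      apply hq
      rw [← hi q, h]
      exact Function.IsFixedPt.perm_pow (show Function.IsFixedPt σ o from ho) (i q)
    rw [← pow_succ']
    refine hstab (r q) hro _ _ ?_
    calc (σ ^ i (σ q)) (r q) = σ q := by rw [← hrr]; exact hi (σ q)
      _ = (σ ^ (i q + 1)) (r q) := by rw [pow_succ', Equiv.Perm.mul_apply, hi q]
  · simp only [if_neg hq]
    exact pow_ne_zero _ hz0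

end Cfsg.Agent.FGS.HH
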