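import Cfsg.Agent.FGS.FpfExtra
import Cfsg.Agent.PGroup.Frattini

/-!
An element of prime order `p` without fixed vectors, normalizing an `s`-group which acts in coprime
characteristic, centralizes it, unless `s = 2` and `p` is a Fermat prime.
-/

set_option linter.unusedSectionVars false

namespace Cfsg.Agent.FGS.HH

open Module Module.End
open scoped BigOperators commutatorElement

variable {k : Type*} [Field k] {V : Type*} [AddCommGroup V] [Module k V]

/-- no proper non-zero subspace is invariant under the image of `ρ` and under `T` -/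
def Irred {P : Type*} [Monoid P] (ρ : P →* End k V) (T : End k V) : Prop :=
  ∀ W : Submodule k V, (∀ x, ∀ v ∈ W, ρ x v ∈ W) → (∀ v ∈ W, T v ∈ W) → W = ⊥ ∨ W = ⊤

theorem eq_smul_one [IsAlgClosed k] [FiniteDimensional k V] [Nontrivial V] {P : Type*} [Monoid P]
    {ρ : P →* End k V} {T : End k V} (hirr : Irred ρ T) (f : End k V)
    (hf : ∀ x, Commute f (ρ x)) (hfT : Commute f T) : ∃ c : k, f = c • (1 : End k V) := by
  obtain ⟨c, hc⟩ := exists_eigenvalue f
  refine ⟨c, ?_⟩
  have hinv : ∀ g : End k V, Commute f g → ∀ v ∈ eigenspace f c, g v ∈ eigenspace f c := by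
    intro g hg v hv
    rw [mem_eigenspace_iff] at hv ⊢
    rw [← Module.End.mul_apply, hg.eq, Module.End.mul_apply, hv, map_smul]
  rcases hirr _ (fun x => hinv _ (hf x)) (hinv _ hfT) with h | h
  · exact absurd h hc
  · ext v
    have hv : v ∈ eigenspace f c := h ▸ Submodule.mem_top
    simpa [mem_eigenspace_iff] using hv

theorem eq_one_of_sq_eq_zero {X : End k V} {m : ℕ} (hm : X ^ m = 1) (hmk : (m : k) ≠ 0)
    (h : (X - 1) * (X - 1) = 0) : X = 1 := by
  have key : ∀ n : ℕ, X ^ n = 1 + (n : k) • (X - 1) := by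
    intro n
    induction n with
    | zero => simp
    | succ n ih =>
      have e : X = 1 + (X - 1) := by abel
      rw [pow_succ, ih]
      nth_rw 2 [e]
      rw [add_mul, one_mul, smul_mul_assoc, mul_add, mul_one, h, add_zero, Nat.cast_succ, add_smul,
        one_smul]
      abel
  have := key m
  rw [hm, left_eq_add, smul_eq_zero_iff_right hmk, sub_eq_zero] at this
  exact this

section core

variable [IsAlgClosed k] [FiniteDimensional k V] {p : ℕ} [hp : Fact p.Prime]
  {P : Type*} [Group P] [Finite P]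

omit [IsAlgClosed k] [FiniteDimensional k V] in
theorem arith {p D o E : ℕ} (h2 : 2 ≤ D) (h1 : D ≤ p - 1) (ho : D ≤ 1 + o) (hE : 1 ≤ E)
    (h : E + p * o = D * D) : D = p - 1 ∧ E = 1 := by
  obtain ⟨d, rfl⟩ : ∃ d, D = d + 2 := ⟨D - 2, by omega⟩
  obtain ⟨e, rfl⟩ : ∃ e, p = d + 3 + e := ⟨p - (d + 3), by omega⟩
  obtain ⟨f, rfl⟩ : ∃ f, o = d + 1 + f := ⟨o - (d + 1), by omega⟩
  obtain ⟨g, rfl⟩ : ∃ g, E = g + 1 := ⟨E - 1, by omega⟩
  have hz : g + e * (d + 1) + f * (d + 3 + e) = 0 := by nlinarith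
  obtain ⟨h12, -⟩ := Nat.add_eq_zero_iff.1 hz
  obtain ⟨hg, he⟩ := Nat.add_eq_zero_iff.1 h12
  have he' : e = 0 := (Nat.mul_eq_zero.1 he).resolve_right (Nat.succ_ne_zero d)
  exact ⟨by omega, by omega⟩

theorem rho_ne_zero [Nontrivial V] (ρ : P →* End k V) (x : P) : ρ x ≠ 0 := fun h => by
  have h1 : ρ x * ρ x⁻¹ = 1 := by rw [← map_mul, mul_inv_cancel, map_one]
  rw [h, zero_mul] at h1
  exact zero_ne_one h1

set_option maxHeartbeats 1600000 in
/-- The extraspecial case. -/
theorem card_quotient_eq [Nontrivial V] (ρ : P →* End k V) (φ : MulAut P) (T : End k V)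
    (hpk : (p : k) ≠ 0) (hPk : (Nat.card P : k) ≠ 0) (hφ : φ ^ p = 1) (hT : T ^ p = 1)
    (hρT : ∀ x, T * ρ x = ρ (φ x) * T) (hfix : ∀ v, T v = v → v = 0) (hirr : Irred ρ T)
    (Z : Subgroup P) [Z.Normal] (hZ : ∀ x, x ∈ Z ↔ ∀ y, Commute (ρ x) (ρ y))
    (hscal : ∀ x ∈ Z, ∃ c : k, ρ x = c • (1 : End k V)) (hcom : ∀ x y : P, ⁅x, y⁆ ∈ Z)
    (hfpf : ∀ x, x⁻¹ * φ x ∈ Z → x ∈ Z) (hne : Z ≠ ⊤) :
    Nat.card (P ⧸ Z) = (p - 1) ^ 2 := by
  classical
  haveI : Fintype P := Fintype.ofFinite P
  haveI : Fintype (P ⧸ Z) := Fintype.ofFinite _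
  have hu : ∀ x, ρ x * ρ x⁻¹ = 1 := fun x => by rw [← map_mul, mul_inv_cancel, map_one]
  have hu' : ∀ x, ρ x⁻¹ * ρ x = 1 := fun x => by rw [← map_mul, inv_mul_cancel, map_one]
  have hinj : ∀ (X : End k V), X ≠ 0 → ∀ a b : k, a • X = b • X → a = b :=
    fun X hX a b h => smul_left_injective k hX h
  -- `φ` stabilizes `Z`
  set T' := T ^ (p - 1) with hT'
  have hTT : T * T' = 1 := by
    rw [hT', ← pow_succ', Nat.sub_add_cancel hp.out.one_le, hT]
  have hTT' : T' * T = 1 := by
    rw [hT', ← pow_succ, Nat.sub_add_cancel hp.out.one_le, hT]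
  have hconj : ∀ x, ρ (φ x) = T * ρ x * T' := fun x => by
    rw [hρT, mul_assoc, hTT, mul_one]
  have hφZ : Z.map φ.toMonoidHom = Z := by
    refine Subgroup.eq_of_le_of_card_ge ?_ ?_
    · rintro _ ⟨x, hx, rfl⟩
      rw [hZ]
      intro y
      obtain ⟨y', rfl⟩ := φ.surjective y
      have h := ((hZ x).1 hx y').eq
      show ρ (φ x) * ρ (φ y') = ρ (φ y') * ρ (φ x)
      rw [← map_mul ρ, ← map_mul ρ, ← map_mul φ, ← map_mul φ, hconj, hconj, map_mul ρ, map_mul ρ, h]
    · rw [Subgroup.card_map_of_injective φ.injective]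
  let φq : P ⧸ Z ≃* P ⧸ Z := QuotientGroup.congr Z Z φ hφZ
  -- the commutator pairing
  let c : P → P → k := fun h u => Classical.choose (hscal _ (hcom h u))
  have hc : ∀ h u, ρ h * ρ u = c h u • (ρ u * ρ h) := by
    intro h u
    have h1 := Classical.choose_spec (hscal _ (hcom h u))
    calc ρ h * ρ u = ρ ⁅h, u⁆ * (ρ u * ρ h) := by
          rw [← map_mul, ← map_mul, ← map_mul, commutatorElement_def]; congr 1; group
      _ = _ := by rw [h1, smul_mul_assoc, one_mul]
  have huniq : ∀ h u (a : k), ρ h * ρ u = a • (ρ u * ρ h) → c h u = a := fun h u a ha =>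
    hinj (ρ u * ρ h) (by rw [← map_mul]; exact rho_ne_zero ρ _) _ _ ((hc h u).symm.trans ha)
  have hcl : ∀ h h' u, c (h * h') u = c h u * c h' u := by
    intro h h' u
    apply huniq
    rw [map_mul, mul_assoc, hc h' u, mul_smul_comm, ← mul_assoc, hc h u, smul_mul_assoc, smul_smul,
      mul_comm (c h' u), mul_assoc]
  have hcr : ∀ h u u', c h (u * u') = c h u * c h u' := by
    intro h u u'
    apply huniq
    rw [map_mul, ← mul_assoc, hc h u, smul_mul_assoc, mul_assoc, hc h u', mul_smul_comm, smul_smul,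
      mul_assoc]
  have hc0 : ∀ h u, c h u ≠ 0 := fun h u h0 => by
    have := hc h u
    rw [h0, zero_smul, ← map_mul] at this
    exact rho_ne_zero ρ _ this
  have hcφ : ∀ h u, c (φ h) (φ u) = c h u := by
    intro h u
    apply huniq
    rw [← map_mul ρ, ← map_mul ρ, ← map_mul φ, ← map_mul φ, hconj, hconj, map_mul ρ, hc h u,
      mul_smul_comm, smul_mul_assoc, map_mul]
  have hcZr : ∀ h, ∀ u ∈ Z, c h u = 1 := fun h u hu' => huniq h u 1 (by
    rw [one_smul]; exact ((hZ u).1 hu' h).symm.eq)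
  have hcZl : ∀ h ∈ Z, ∀ u, c h u = 1 := fun h hh u => huniq h u 1 (by
    rw [one_smul]; exact ((hZ h).1 hh u).eq)
  have hnd : ∀ u, u ∉ Z → ∃ h, c h u ≠ 1 := by
    intro u hu'
    by_contra h
    push Not at h
    refine hu' ((hZ u).2 fun h' => ?_)
    have := hc h' u
    rw [h h', one_smul] at this
    exact this.symm
  -- characters indexed by the quotient
  let χ : P ⧸ Z → P →* k := fun q =>
    { toFun := fun h => c h q.out
      map_one' := hcZl 1 Z.one_mem _
      map_mul' := fun h h' => hcl h h' _ }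
  have hχ : ∀ u h, χ (QuotientGroup.mk u) h = c h u := by
    intro u h
    obtain ⟨z, hz⟩ := QuotientGroup.mk_out_eq_mul Z u
    show c h _ = _
    rw [hz, hcr, hcZr h _ z.2, mul_one]
  have hχinv : ∀ q h, χ q⁻¹ h * χ q h = 1 := by
    intro q h
    obtain ⟨u, rfl⟩ := QuotientGroup.mk_surjective q
    rw [← QuotientGroup.mk_inv, hχ, hχ, ← hcr, inv_mul_cancel, hcZr _ _ Z.one_mem]
  have hχne : ∀ q h, χ q h ≠ 0 := fun q h => hc0 h _
  have hsum1 : ∀ q r : P ⧸ Z, ∑ h, (χ q h)⁻¹ * χ r h = if q = r then (Nat.card P : k) else 0 := by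
    intro q r
    rcases eq_or_ne q r with rfl | hqr
    · rw [if_pos rfl, Finset.sum_congr rfl fun h _ => inv_mul_cancel₀ (hχne q h), Finset.sum_const,
        Finset.card_univ, Nat.card_eq_fintype_card, nsmul_eq_mul, mul_one]
    · rw [if_neg hqr]
      obtain ⟨u, rfl⟩ := QuotientGroup.mk_surjective q
      obtain ⟨w, rfl⟩ := QuotientGroup.mk_surjective r
      have e : ∀ h, (χ (QuotientGroup.mk u) h)⁻¹ * χ (QuotientGroup.mk w) h =
          χ (QuotientGroup.mk (u⁻¹ * w)) h := by
        intro h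
        rw [hχ, hχ, hχ, hcr]
        congr 1
        exact (eq_inv_of_mul_eq_one_left (by rw [← hcr, inv_mul_cancel, hcZr _ _ Z.one_mem])).symm
      rw [Finset.sum_congr rfl fun h _ => e h]
      refine sum_hom_units_eq_zero _ fun h1 => ?_
      obtain ⟨h, hh⟩ := hnd (u⁻¹ * w) (fun hm => hqr (QuotientGroup.eq.2 hm))
      exact hh (by rw [← hχ]; exact DFunLike.congr_fun h1 h)
  have hsum2 : ∀ h, h ∉ Z → ∑ q, (χ q h)⁻¹ = 0 := by
    intro h hh
    let ψ : P ⧸ Z →* k :=
      { toFun := fun q => (χ q h)⁻¹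
        map_one' := by
          rw [show (1 : P ⧸ Z) = QuotientGroup.mk 1 from rfl, hχ, hcZr _ _ Z.one_mem, inv_one]
        map_mul' := fun q r => by
          obtain ⟨u, rfl⟩ := QuotientGroup.mk_surjective q
          obtain ⟨w, rfl⟩ := QuotientGroup.mk_surjective r
          rw [← QuotientGroup.mk_mul, hχ, hχ, hχ, hcr, mul_inv] }
    refine sum_hom_units_eq_zero ψ fun h1 => hh ((hZ h).2 fun w => ?_)
    have h2 : (χ (QuotientGroup.mk w) h)⁻¹ = 1 := DFunLike.congr_fun h1 (QuotientGroup.mk w)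
    rw [hχ, inv_eq_one] at h2
    have := hc h w
    rw [h2, one_smul] at this
    exact this
  -- conjugation and projections
  let Ad : P → End k (End k V) := fun h =>
    (LinearMap.mulLeft k (ρ h)) * (LinearMap.mulRight k (ρ h⁻¹))
  have hAd : ∀ h f, Ad h f = ρ h * f * ρ h⁻¹ := fun h f => (mul_assoc _ _ _).symm
  let π : P ⧸ Z → End k (End k V) := fun q => (Nat.card P : k)⁻¹ • ∑ h, (χ q h)⁻¹ • Ad h
  have hπ : ∀ q f, π q f = (Nat.card P : k)⁻¹ • ∑ h, (χ q h)⁻¹ • (ρ h * f * ρ h⁻¹) := by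
    intro q f
    simp [π, LinearMap.sum_apply, hAd]
  have hπAd : ∀ q g f, Ad g (π q f) = χ q g • π q f := by
    intro q g f
    rw [hAd, hπ, mul_smul_comm, smul_mul_assoc, smul_comm (χ q g), Finset.mul_sum, Finset.sum_mul,
      Finset.smul_sum (r := χ q g)]
    congr 1
    refine Fintype.sum_equiv (Equiv.mulLeft g) _ _ fun h => ?_
    rw [Equiv.coe_mulLeft, smul_smul, mul_smul_comm, smul_mul_assoc, map_mul, mul_inv,
      mul_inv_cancel_left₀ (hχne q g)]
    congr 1
    rw [mul_inv_rev, map_mul, map_mul]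
    noncomm_ring
  have hπeig : ∀ q r f, (∀ g, Ad g f = χ r g • f) → π q f = if q = r then f else 0 := by
    intro q r f hf
    rw [hπ]
    have : ∀ h, (χ q h)⁻¹ • (ρ h * f * ρ h⁻¹) = ((χ q h)⁻¹ * χ r h) • f := fun h => by
      rw [← hAd, hf, smul_smul]
    rw [Finset.sum_congr rfl fun h _ => this h, ← Finset.sum_smul, hsum1, smul_smul]
    split_ifs
    · rw [inv_mul_cancel₀ hPk, one_smul]
    · rw [mul_zero, zero_smul]
  have hcomplete : ∀ f, ∑ q, π q f = f := by
    intro f
    simp only [hπ]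
    rw [← Finset.smul_sum, Finset.sum_comm]
    simp only [← Finset.sum_smul]
    have : ∀ h, (∑ q, (χ q h)⁻¹) • (ρ h * f * ρ h⁻¹) =
        if h ∈ Z then (Nat.card (P ⧸ Z) : k) • f else 0 := by
      intro h
      split_ifs with hh
      · obtain ⟨a, ha⟩ := hscal h hh
        have e : ρ h * f * ρ h⁻¹ = f := by
          rw [ha, smul_mul_assoc, one_mul, smul_mul_assoc, ← mul_smul_comm]
          have := hu h
          rw [ha, smul_mul_assoc, one_mul] at this
          rw [this, mul_one]
        rw [e, Finset.sum_congr rfl fun q _ => ?_, Finset.sum_const, Finset.card_univ,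
          Nat.card_eq_fintype_card, nsmul_eq_mul, mul_one]
        show (c h q.out)⁻¹ = 1
        rw [hcZl h hh, inv_one]
      · rw [hsum2 h hh, zero_smul]
    rw [Finset.sum_congr rfl fun h _ => this h, Finset.sum_ite, Finset.sum_const_zero, add_zero,
      Finset.sum_const, ← Nat.cast_smul_eq_nsmul k, smul_smul, smul_smul]
    have hcount : ((Finset.univ.filter (· ∈ Z)).card : k) * (Nat.card (P ⧸ Z) : k) = (Nat.card P : k) := by
      rw [← Nat.cast_mul, Subgroup.card_eq_card_quotient_mul_card_subgroup Z, mul_comm]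
      congr 2
      rw [Nat.card_eq_fintype_card]
      exact (Fintype.card_subtype _).symm
    rw [mul_assoc, hcount, inv_mul_cancel₀ hPk, one_smul]
  -- conjugation by `T`
  let Θ : End k (End k V) := (LinearMap.mulLeft k T) * (LinearMap.mulRight k T')
  have hΘ : ∀ f, Θ f = T * f * T' := fun f => (mul_assoc _ _ _).symm
  have hΘp : Θ ^ p = 1 := by
    have hn : ∀ (n : ℕ) (f : End k V), (Θ ^ n) f = T ^ n * f * T' ^ n := by
      intro n
      induction n with
      | zero => intro f; simp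
      | succ n ih =>
        intro f
        rw [pow_succ', Module.End.mul_apply, ih, hΘ, pow_succ' T n, pow_succ T' n]
        noncomm_ring
    refine LinearMap.ext fun f => ?_
    rw [hn, hT, hT', ← pow_mul, mul_comm (p - 1) p, pow_mul, hT, one_pow, one_mul, mul_one,
      Module.End.one_apply]
  have hΘπ : ∀ q f, Θ (π q f) = π (φq q) (Θ f) := by
    intro q f
    rw [hπ, hπ, map_smul, map_sum]
    congr 1
    refine Fintype.sum_equiv φ.toEquiv _ _ fun h => ?_
    rw [map_smul]
    show (χ q h)⁻¹ • Θ (ρ h * f * ρ h⁻¹) =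
      (χ (φq q) (φ h))⁻¹ • (ρ (φ h) * Θ f * ρ (φ h)⁻¹)
    congr 1
    · obtain ⟨u, rfl⟩ := QuotientGroup.mk_surjective q
      rw [show φq (QuotientGroup.mk u) = QuotientGroup.mk (φ u) from rfl, hχ, hχ, hcφ]
    · rw [← map_inv φ, hconj, hconj, hΘ, hΘ]
      calc T * (ρ h * f * ρ h⁻¹) * T'
          = T * ρ h * 1 * f * 1 * ρ h⁻¹ * T' := by simp only [mul_one, mul_assoc]
        _ = T * ρ h * (T' * T) * f * (T' * T) * ρ h⁻¹ * T' := by rw [hTT']
        _ = T * ρ h * T' * (T * f * T') * (T * ρ h⁻¹ * T') := by simp only [mul_assoc]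
  -- a root of unity
  haveI : NeZero (p : k) := ⟨hpk⟩
  obtain ⟨ζ, hζ0⟩ := IsAlgClosed.exists_root (Polynomial.cyclotomic p k)
    (Polynomial.degree_cyclotomic_pos p k hp.out.pos).ne'
  have hζ : IsPrimitiveRoot ζ p := Polynomial.isRoot_cyclotomic_iff.1 hζ0
  let ψ : AddChar (ZMod p) k := AddChar.zmodChar p hζ.pow_eq_one
  have hψ : ψ.IsPrimitive := AddChar.zmodChar_primitive_of_primitive_root p hζ
  have hψ1 : ψ 1 = ζ := by
    show ζ ^ (1 : ZMod p).val = ζ
    rw [ZMod.val_one, pow_one]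
  -- the kernel part
  set U : Submodule k (End k V) := LinearMap.ker (π 1) with hU
  have hφ1 : φq 1 = 1 := map_one φq
  have hUΘ : ∀ f ∈ U, Θ f ∈ U := fun f hf => by
    rw [hU, LinearMap.mem_ker] at hf ⊢
    rw [← hφ1, ← hΘπ, hf, map_zero]
  have hσ : (φq.toEquiv : Equiv.Perm (P ⧸ Z)) ^ p = 1 := by
    refine Equiv.ext fun q => ?_
    obtain ⟨u, rfl⟩ := QuotientGroup.mk_surjective q
    have hn : ∀ n : ℕ, ((φq.toEquiv : Equiv.Perm (P ⧸ Z)) ^ n) (QuotientGroup.mk u) =
        QuotientGroup.mk ((φ ^ n) u) := by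
      intro n
      induction n with
      | zero => rfl
      | succ n ih => rw [pow_succ', Equiv.Perm.mul_apply, ih, pow_succ', MulAut.mul_apply]; rfl
    rw [hn, hφ]; rfl
  have hqfix : ∀ q, φq q = q → q = 1 := by
    intro q hq
    obtain ⟨u, rfl⟩ := QuotientGroup.mk_surjective q
    exact (QuotientGroup.eq_one_iff u).2 (hfpf u (QuotientGroup.eq.1 hq.symm))
  obtain ⟨g, hg1, hgφ, hgne⟩ := exists_twist (φq.toEquiv : Equiv.Perm (P ⧸ Z)) hσ 1 hφ1 hqfix
    hζ.pow_eq_one
  let Mop : End k (End k V) := ∑ q, g q • π q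
  have hπM : ∀ q f, π q (Mop f) = g q • π q f := by
    intro q f
    simp only [Mop, LinearMap.sum_apply, LinearMap.smul_apply, map_sum, map_smul]
    rw [Finset.sum_eq_single q]
    · rw [hπeig q q _ fun g => hπAd q g f, if_pos rfl]
    · intro r _ hr
      rw [hπeig q r _ fun g => hπAd r g f, if_neg hr.symm, smul_zero]
    · intro h; exact absurd (Finset.mem_univ q) h
  have hMU : ∀ f, Mop f ∈ U := fun f => by
    rw [hU, LinearMap.mem_ker, hπM, hg1, zero_smul]
  have hMinj : ∀ f ∈ U, Mop f = 0 → f = 0 := by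
    intro f hf h0
    rw [← hcomplete f]
    refine Finset.sum_eq_zero fun q _ => ?_
    rcases eq_or_ne q 1 with rfl | hq
    · exact hf
    · have := hπM q f
      rw [h0, map_zero] at this
      exact (smul_eq_zero.1 this.symm).resolve_left (hgne q hq)
  have hΘM : ∀ f, ζ • Θ (Mop f) = Mop (Θ f) := by
    intro f
    simp only [Mop, LinearMap.sum_apply, LinearMap.smul_apply, map_sum, map_smul]
    rw [Finset.smul_sum]
    refine Fintype.sum_equiv φq.toEquiv _ _ fun q => ?_
    show ζ • g q • Θ (π q f) = g ((φq.toEquiv : Equiv.Perm (P ⧸ Z)) q) • π (φq q) (Θ f)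
    rw [hΘπ, hgφ, smul_smul]
  let A : ZMod p → Submodule k (End k V) := fun i => eigenspace Θ (ψ i) ⊓ U
  have hAle : ∀ i, finrank k (A i) ≤ finrank k (A (i - 1)) := by
    intro i
    have hmem : ∀ f : A i, Mop f ∈ A (i - 1) := by
      intro f
      refine Submodule.mem_inf.2 ⟨?_, hMU _⟩
      have hf : (f : End k V) ∈ eigenspace Θ (ψ i) := f.2.1
      rw [mem_eigenspace_iff] at hf ⊢
      have h1 : Mop (Θ f) = ψ i • Mop f := by rw [hf, map_smul]
      rw [← hΘM] at h1
      have hζne : ζ ≠ 0 := hζ.ne_zero hp.out.ne_zero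
      refine smul_right_injective (End k V) hζne ?_
      simp only [h1, smul_smul]
      congr 1
      rw [← hψ1, ← AddChar.map_add_eq_mul]
      congr 1
      ring
    refine LinearMap.finrank_le_finrank_of_injective (f := (Mop.comp (A i).subtype).codRestrict _ hmem) ?_
    rw [← LinearMap.ker_eq_bot, eq_bot_iff]
    intro f hf
    rw [Submodule.mem_bot]
    apply Subtype.ext
    exact hMinj _ f.2.2 (congrArg Subtype.val hf)
  have hAeq : ∀ i, finrank k (A i) = finrank k (A 0) := by
    have hle : ∀ (n : ℕ) i, finrank k (A i) ≤ finrank k (A (i - (n : ZMod p))) := by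
      intro n
      induction n with
      | zero => intro i; rw [Nat.cast_zero, sub_zero]
      | succ n ih =>
        intro i
        refine (ih i).trans ((hAle _).trans (le_of_eq ?_))
        rw [Nat.cast_succ, sub_sub]
    intro i
    refine le_antisymm ?_ ?_
    · have := hle i.val i; rwa [ZMod.natCast_zmod_val, sub_self] at this
    · have := hle (-i).val 0; rwa [ZMod.natCast_zmod_val, zero_sub, neg_neg] at this
  set o := finrank k (A 0) with ho
  have hUdim : finrank k U = p * o := by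
    rw [finrank_eq_sum hΘp hψ hpk hUΘ, Finset.sum_congr rfl fun i _ => hAeq i, Finset.sum_const,
      Finset.card_univ, ZMod.card, smul_eq_mul]
  -- the centralizer of `P`
  set E1 : Submodule k (End k V) := LinearMap.range (π 1) with hE1
  have hχ1 : ∀ g, χ 1 g = 1 := fun g => by
    rw [show (1 : P ⧸ Z) = QuotientGroup.mk 1 from rfl, hχ, hcZr g 1 Z.one_mem]
  have hE1c : ∀ f ∈ E1, ∀ h, Commute f (ρ h) := by
    rintro _ ⟨f, rfl⟩ h
    have := hπAd 1 h f
    rw [hχ1, one_smul, hAd] at this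
    calc π 1 f * ρ h = ρ h * π 1 f * ρ h⁻¹ * ρ h := by rw [this]
      _ = ρ h * π 1 f := by rw [mul_assoc, hu', mul_one]
  have hone : π 1 (1 : End k V) = 1 := by
    rw [hπeig 1 1 1 fun g => ?_, if_pos rfl]
    rw [hAd, hχ1, one_smul, mul_one, hu]
  have hd0 : 1 ≤ finrank k E1 := by
    rw [Nat.one_le_iff_ne_zero]
    intro h0
    have hb : E1 = ⊥ := Submodule.finrank_eq_zero.1 h0
    have : (1 : End k V) ∈ E1 := ⟨1, hone⟩
    rw [hb, Submodule.mem_bot] at this
    exact one_ne_zero this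
  have hsplit : finrank k (End k V) = finrank k E1 + p * o := by
    rw [← hUdim, hE1, hU, LinearMap.finrank_range_add_finrank_ker]
  have hC0 : eigenspace Θ (ψ 0) ≤ (k ∙ (1 : End k V)) ⊔ A 0 := by
    intro f hf
    have hf' : Θ f = f := by
      have := hf
      rwa [mem_eigenspace_iff, AddChar.map_zero_eq_one, one_smul] at this
    have h1 : Θ (π 1 f) = π 1 f := by rw [hΘπ, hφ1, hf']
    obtain ⟨a, ha⟩ := eq_smul_one hirr (π 1 f) (hE1c _ ⟨f, rfl⟩) (by
      rw [hΘ] at h1
      show π 1 f * T = T * π 1 f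
      nth_rw 1 [← h1]
      rw [mul_assoc, hTT', mul_one])
    rw [← sub_add_cancel f (π 1 f), add_comm]
    refine Submodule.add_mem_sup (ha ▸ Submodule.smul_mem _ a (Submodule.mem_span_singleton_self _)) ?_
    refine Submodule.mem_inf.2 ⟨Submodule.sub_mem _ hf ?_, ?_⟩
    · rw [mem_eigenspace_iff, AddChar.map_zero_eq_one, one_smul, h1]
    · rw [hU, LinearMap.mem_ker, map_sub, hπeig 1 1 (π 1 f) fun g => hπAd 1 g f, if_pos rfl, sub_self]
  have hC0dim : finrank k ↥(eigenspace Θ (ψ 0)) ≤ 1 + o := by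
    refine (Submodule.finrank_mono hC0).trans ?_
    refine (Submodule.finrank_add_le_finrank_add_finrank _ _).trans ?_
    rw [finrank_span_singleton one_ne_zero]
  -- eigenspaces of `T`
  let W : ZMod p → Submodule k V := fun i => eigenspace T (ψ i)
  set m : ZMod p → ℕ := fun i => finrank k (W i) with hm
  have hm0 : m 0 = 0 := by
    refine Submodule.finrank_eq_zero.2 (eq_bot_iff.2 fun v hv => ?_)
    rw [Submodule.mem_bot]
    refine hfix v ?_
    have h : T v = ψ 0 • v := mem_eigenspace_iff.1 hv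
    rwa [AddChar.map_zero_eq_one, one_smul] at h
  set D := finrank k V with hD
  have hmD : ∑ i, m i = D := by
    have := finrank_eq_sum (U := (⊤ : Submodule k V)) hT hψ hpk (fun f _ => Submodule.mem_top)
    rw [finrank_top] at this
    rw [hD, this]
    exact Finset.sum_congr rfl fun i _ => (congrArg (fun S : Submodule k V => finrank k S) (inf_top_eq _)).symm
  let pr : (i : ZMod p) → V →ₗ[k] W i := fun i =>
    LinearMap.codRestrict _ (proj T ψ i) (proj_mem_eigen hT ψ i)
  have hlow : ∑ i, m i * m i ≤ finrank k ↥(eigenspace Θ (ψ 0)) := by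
    simp only [hm, ← Module.finrank_linearMap]
    rw [← Module.finrank_pi_fintype k]
    let G : (Π i, W i →ₗ[k] W i) →ₗ[k] End k V :=
      { toFun := fun f => ∑ i, (W i).subtype.comp ((f i).comp (pr i))
        map_add' := fun f f' => by simp [LinearMap.add_comp, LinearMap.comp_add, Finset.sum_add_distrib]
        map_smul' := fun a f => by simp [LinearMap.smul_comp, LinearMap.comp_smul, Finset.smul_sum] }
    have hG : ∀ f i (v : W i), G f v = (f i v : V) := by
      intro f i v
      simp only [G, LinearMap.coe_mk, AddHom.coe_mk, LinearMap.sum_apply, LinearMap.comp_apply,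
        Submodule.coe_subtype]
      rw [Finset.sum_eq_single i]
      · congr 2
        exact Subtype.ext (by simpa [pr] using proj_eigen hψ hpk i i v.2)
      · intro j _ hj
        have : pr j (v : V) = 0 := Subtype.ext (by
          simpa [pr, hj] using proj_eigen hψ hpk j i v.2)
        rw [this, map_zero]; rfl
      · intro h; exact absurd (Finset.mem_univ i) h
    have hGeig : ∀ f, G f ∈ eigenspace Θ (ψ 0) := by
      intro f
      rw [mem_eigenspace_iff, AddChar.map_zero_eq_one, one_smul, hΘ]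
      suffices h : T * G f = G f * T by rw [h, mul_assoc, hTT, mul_one]
      refine LinearMap.ext fun v => ?_
      rw [← sum_proj hT hψ hpk v]
      simp only [map_sum, Module.End.mul_apply]
      refine Finset.sum_congr rfl fun i _ => ?_
      have hv : proj T ψ i v ∈ W i := proj_mem_eigen hT ψ i v
      rw [mem_eigenspace_iff.1 hv, map_smul, hG f i ⟨_, hv⟩]
      exact mem_eigenspace_iff.1 (f i ⟨_, hv⟩).2
    refine LinearMap.finrank_le_finrank_of_injective (f := G.codRestrict _ hGeig) ?_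
    intro f f' h
    funext i
    refine LinearMap.ext fun v => Subtype.ext ?_
    rw [← hG f i v, ← hG f' i v]
    exact congrArg (fun X : End k V => X v) (congrArg Subtype.val h)
  have hup : ∀ j, finrank k ↥(eigenspace Θ (ψ j)) ≤ ∑ i, m i * m (i + j) := by
    intro j
    simp only [hm, ← Module.finrank_linearMap]
    rw [← Module.finrank_pi_fintype k]
    have hmaps : ∀ (f : ↥(eigenspace Θ (ψ j))) (i : ZMod p) (v : W i), (f : End k V) v ∈ W (i + j) := by
      intro f i v
      have hf := mem_eigenspace_iff.1 f.2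
      rw [hΘ] at hf
      have h2 : T * (f : End k V) = ψ j • ((f : End k V) * T) := by
        rw [← smul_mul_assoc, ← hf, mul_assoc, hTT', mul_one]
      rw [mem_eigenspace_iff]
      calc T ((f : End k V) v) = ψ j • (f : End k V) (T v) := LinearMap.congr_fun h2 (v : V)
        _ = _ := by
          rw [mem_eigenspace_iff.1 v.2, map_smul, smul_smul, AddChar.map_add_eq_mul, mul_comm]
    let R : ↥(eigenspace Θ (ψ j)) →ₗ[k] (Π i, W i →ₗ[k] W (i + j)) :=
      { toFun := fun f i => ((f : End k V).comp (W i).subtype).codRestrict _ (hmaps f i)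
        map_add' := fun f f' => by funext i; refine LinearMap.ext fun v => Subtype.ext ?_; rfl
        map_smul' := fun a f => by funext i; refine LinearMap.ext fun v => Subtype.ext ?_; rfl }
    refine LinearMap.finrank_le_finrank_of_injective (f := R) ?_
    intro f f' h
    refine Subtype.ext (LinearMap.ext fun v => ?_)
    rw [← sum_proj hT hψ hpk v]
    simp only [map_sum]
    refine Finset.sum_congr rfl fun i _ => ?_
    exact congrArg Subtype.val (LinearMap.congr_fun (congrFun h i) ⟨_, proj_mem_eigen hT ψ i v⟩)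
  have hoC : ∀ j, o ≤ finrank k ↥(eigenspace Θ (ψ j)) := fun j => by
    rw [← hAeq j]; exact Submodule.finrank_mono inf_le_left
  have hshift : ∀ j : ZMod p, j ≠ 0 → ∑ i, m i * m i ≤ 1 + ∑ i, m i * m (i + j) := fun j _ =>
    hlow.trans (hC0dim.trans (Nat.add_le_add_left ((hoC j).trans (hup j)) 1))
  have hm1 : ∀ i, m i ≤ 1 := le_one_of_shift m hm0 hshift
  have hsq : ∑ i, m i * m i = D := by
    rw [← hmD]
    refine Finset.sum_congr rfl fun i _ => ?_
    rcases Nat.le_one_iff_eq_zero_or_eq_one.1 (hm1 i) with h | h <;> rw [h]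
  have hDp : D ≤ p - 1 := by
    rw [← hmD, ← Finset.add_sum_erase _ _ (Finset.mem_univ (0 : ZMod p)), hm0, zero_add]
    refine (Finset.sum_le_card_nsmul _ _ 1 fun i _ => hm1 i).trans ?_
    rw [Finset.card_erase_of_mem (Finset.mem_univ _), Finset.card_univ, ZMod.card, smul_eq_mul, mul_one]
  have hDo : D ≤ 1 + o := hsq ▸ hlow.trans hC0dim
  have hEnd : finrank k (End k V) = D * D := Module.finrank_linearMap k k V V
  -- `D` is not one
  have hD2 : 2 ≤ D := by
    have hDpos : 0 < D := Module.finrank_pos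
    by_contra hlt
    have hD1 : finrank k (End k V) = 1 := by rw [hEnd, show D = 1 by omega]
    obtain ⟨u, hu1⟩ : ∃ u, u ∉ Z := by
      by_contra h
      push Not at h
      exact hne (eq_top_iff.2 fun x _ => h x)
    refine hu1 ((hZ u).2 fun y => ?_)
    obtain ⟨a, ha⟩ := (finrank_eq_one_iff_of_nonzero' (1 : End k V) one_ne_zero).1 hD1 (ρ u)
    rw [← ha]
    exact (Commute.one_left _).smul_left a
  obtain ⟨hDeq, hd1⟩ : D = p - 1 ∧ finrank k E1 = 1 :=
    arith hD2 hDp hDo hd0 (by rw [← hsplit, hEnd])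
  -- a basis indexed by the quotient
  have hρout : ∀ q g, Ad g (ρ (Quotient.out q)) = χ q g • ρ (Quotient.out q) := by
    intro q g
    rw [hAd, hc g _, smul_mul_assoc, mul_assoc, hu, mul_one]
    rfl
  let Lq : (P ⧸ Z → k) →ₗ[k] End k V :=
    { toFun := fun a => ∑ q, a q • ρ (Quotient.out q)
      map_add' := fun a b => by simp [add_smul, Finset.sum_add_distrib]
      map_smul' := fun r a => by simp [Finset.smul_sum, smul_smul] }
  have hbij : Function.Bijective Lq := by
    constructor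
    · rw [← LinearMap.ker_eq_bot, eq_bot_iff]
      intro a ha
      rw [Submodule.mem_bot]
      funext r
      have h := congrArg (π r) (LinearMap.mem_ker.1 ha)
      simp only [Lq, LinearMap.coe_mk, AddHom.coe_mk, map_sum, map_smul, map_zero,
        hπeig r _ _ (hρout _)] at h
      simp only [smul_ite, smul_zero, Finset.sum_ite_eq, Finset.mem_univ, if_true] at h
      exact (smul_eq_zero.1 h).resolve_right (rho_ne_zero ρ _)
    · intro f
      have hscal1 : ∀ x ∈ E1, ∃ a : k, a • (1 : End k V) = x := by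
        intro x hx
        have h1 : (⟨1, ⟨1, hone⟩⟩ : E1) ≠ 0 := fun e => one_ne_zero (congrArg Subtype.val e)
        obtain ⟨a, ha⟩ := (finrank_eq_one_iff_of_nonzero' _ h1).1 hd1 ⟨x, hx⟩
        exact ⟨a, congrArg Subtype.val ha⟩
      have hq : ∀ q, ∃ a : k, π q f = a • ρ (Quotient.out q) := by
        intro q
        have hX : ∀ g, Ad g (ρ (Quotient.out q)⁻¹ * π q f) = χ 1 g • (ρ (Quotient.out q)⁻¹ * π q f) := by
          intro g
          have h1 := hπAd q g f
          rw [hAd] at h1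
          have h2 : ρ g * ρ (Quotient.out q)⁻¹ = c g (Quotient.out q)⁻¹ • (ρ (Quotient.out q)⁻¹ * ρ g) := hc _ _
          rw [hAd, ← mul_assoc, h2, smul_mul_assoc, smul_mul_assoc, mul_assoc (ρ (Quotient.out q)⁻¹),
            mul_assoc (ρ (Quotient.out q)⁻¹), h1, mul_smul_comm, smul_smul, hχ1]
          congr 1
          show c g (Quotient.out q)⁻¹ * c g (Quotient.out q) = 1
          rw [← hcr, inv_mul_cancel, hcZr _ _ Z.one_mem]
        obtain ⟨a, ha⟩ := hscal1 _ ⟨_, (hπeig 1 1 _ hX).trans (if_pos rfl)⟩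
        refine ⟨a, ?_⟩
        calc π q f = ρ (Quotient.out q) * (ρ (Quotient.out q)⁻¹ * π q f) := by rw [← mul_assoc, hu, one_mul]
          _ = _ := by rw [← ha, mul_smul_comm, mul_one]
      choose a ha using hq
      refine ⟨a, ?_⟩
      show ∑ q, a q • ρ (Quotient.out q) = f
      rw [← Finset.sum_congr rfl fun q _ => ha q, hcomplete]
  have hcard := (LinearEquiv.ofBijective Lq hbij).finrank_eq
  rw [Module.finrank_fintype_fun_eq_card, hEnd, ← Nat.card_eq_fintype_card] at hcard
  rw [hcard, hDeq, sq]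

end core

section modules

variable {P : Type*} [Monoid P]

/-- restriction of an action to an invariant subspace -/
def subRep (ρ : P →* End k V) (W : Submodule k V) (h : ∀ x, ∀ v ∈ W, ρ x v ∈ W) : P →* End k W where
  toFun x := (ρ x).restrict (h x)
  map_one' := LinearMap.ext fun v => Subtype.ext (by simp)
  map_mul' x y := LinearMap.ext fun v => Subtype.ext (by simp)

theorem subRep_apply (ρ : P →* End k V) (W : Submodule k V) (h) (x : P) (v : W) :
    (subRep ρ W h x v : V) = ρ x v := rfl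

/-- the action on the quotient by an invariant subspace -/
def quotRep (ρ : P →* End k V) (W : Submodule k V) (h : ∀ x, ∀ v ∈ W, ρ x v ∈ W) :
    P →* End k (V ⧸ W) where
  toFun x := W.mapQ W (ρ x) (h x)
  map_one' := LinearMap.ext fun v => by
    obtain ⟨v, rfl⟩ := Submodule.mkQ_surjective W v
    simp
  map_mul' x y := LinearMap.ext fun v => by
    obtain ⟨v, rfl⟩ := Submodule.mkQ_surjective W v
    simp

theorem quotRep_mk (ρ : P →* End k V) (W : Submodule k V) (h) (x : P) (v : V) :
    quotRep ρ W h x (Submodule.Quotient.mk v) = Submodule.Quotient.mk (ρ x v) := rfl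

theorem eq_one_of_sub_quot {X : End k V} {m : ℕ} (hm : X ^ m = 1) (hmk : (m : k) ≠ 0)
    (W : Submodule k V) (hW : ∀ v ∈ W, X v = v) (hQ : ∀ v, X v - v ∈ W) : X = 1 := by
  refine eq_one_of_sq_eq_zero hm hmk (LinearMap.ext fun v => ?_)
  show (X - 1) (X v - v) = 0
  simp [hW _ (hQ v)]

theorem fix_quotient {W : Submodule k V} {T : End k V} {p : ℕ} (hT : T ^ p = 1) (hpk : (p : k) ≠ 0)
    (hfix : ∀ v, T v = v → v = 0) (hTW : ∀ v ∈ W, T v ∈ W) (v : V ⧸ W)
    (hv : W.mapQ W T hTW v = v) : v = 0 := by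
  obtain ⟨v, rfl⟩ := Submodule.mkQ_surjective W v
  simp only [Submodule.mkQ_apply, Submodule.mapQ_apply] at hv ⊢
  have hi : ∀ i, Submodule.Quotient.mk (p := W) ((T ^ i) v) = Submodule.Quotient.mk v := by
    intro i
    induction i with
    | zero => rfl
    | succ i ih =>
      rw [pow_succ', Module.End.mul_apply, ← Submodule.mapQ_apply W W T (h := hTW), ih,
        Submodule.mapQ_apply, hv]
  have h0 : ∑ i ∈ Finset.range p, (T ^ i) v = 0 := by
    refine hfix _ ?_
    rw [map_sum]
    have e := Finset.sum_range_succ (fun i => (T ^ i) v) p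
    rw [Finset.sum_range_succ', hT, pow_zero] at e
    have e' := add_right_cancel e
    rw [← e']
    exact Finset.sum_congr rfl fun i _ => by rw [pow_succ', Module.End.mul_apply]
  have h1 : (p : k) • Submodule.Quotient.mk (p := W) v = 0 := by
    rw [← Submodule.Quotient.mk_zero (p := W), ← h0, ← Submodule.mkQ_apply, ← Submodule.mkQ_apply, map_sum]
    simp only [Submodule.mkQ_apply, hi, Finset.sum_const, Finset.card_range, Nat.cast_smul_eq_nsmul]
  exact (smul_eq_zero_iff_right hpk).1 h1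

/-- a minimal non-zero invariant subspace of a commuting family consists of common eigenvectors -/
theorem exists_common_eigen [IsAlgClosed k] [FiniteDimensional k V] [Nontrivial V] (ρ : P →* End k V)
    (hc : ∀ x y, Commute (ρ x) (ρ y)) :
    ∃ χ : P →* k, ∃ v : V, v ≠ 0 ∧ ∀ x, ρ x v = χ x • v := by
  classical
  let good : Submodule k V → Prop := fun W => W ≠ ⊥ ∧ ∀ x, ∀ v ∈ W, ρ x v ∈ W
  have hex : ∃ d, ∃ W, good W ∧ finrank k W = d :=
    ⟨_, ⊤, ⟨top_ne_bot, fun x v _ => Submodule.mem_top⟩, rfl⟩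
  obtain ⟨W, ⟨hW0, hWinv⟩, hWd⟩ := Nat.find_spec hex
  haveI : Nontrivial W := Submodule.nontrivial_iff_ne_bot.2 hW0
  have hsc : ∀ x, ∃ a : k, ∀ v ∈ W, ρ x v = a • v := by
    intro x
    obtain ⟨a, ha⟩ := exists_eigenvalue ((ρ x).restrict (hWinv x))
    refine ⟨a, ?_⟩
    set W' := W ⊓ eigenspace (ρ x) a with hW'
    have hgood : good W' := by
      refine ⟨fun hb => ?_, fun y v hv => ?_⟩
      · obtain ⟨v, hv, hv0⟩ := Submodule.exists_mem_ne_zero_of_ne_bot ha
        have hmem : (v : V) ∈ W' := ⟨v.2, mem_eigenspace_iff.2 (congrArg Subtype.val (mem_eigenspace_iff.1 hv))⟩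
        rw [hb, Submodule.mem_bot] at hmem
        exact hv0 (Subtype.ext hmem)
      · refine ⟨hWinv y v hv.1, mem_eigenspace_iff.2 ?_⟩
        rw [← Module.End.mul_apply, (hc x y).eq, Module.End.mul_apply, mem_eigenspace_iff.1 hv.2,
          map_smul]
    have heq : W' = W := Submodule.eq_of_le_of_finrank_le inf_le_left
      (hWd ▸ Nat.find_min' hex ⟨W', hgood, rfl⟩)
    intro v hv
    exact mem_eigenspace_iff.1 ((heq ▸ hv : v ∈ W').2)
  choose a ha using hsc
  obtain ⟨v, hv, hv0⟩ := W.exists_mem_ne_zero_of_ne_bot hW0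
  refine ⟨⟨⟨a, ?_⟩, fun x y => ?_⟩, v, hv0, fun x => ha x v hv⟩
  · exact smul_left_injective k hv0 (show a 1 • v = (1 : k) • v by rw [← ha 1 v hv, one_smul, map_one]; rfl)
  · exact smul_left_injective k hv0 (show a (x * y) • v = (a x * a y) • v by
      rw [← ha _ v hv, map_mul, Module.End.mul_apply, ha y v hv, map_smul, ha x v hv, smul_smul, mul_comm])

end modules

section sgroup

variable {p : ℕ} [hp : Fact p.Prime] {P : Type*} [Group P]

/-- the elements whose image commutes with `T` -/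
def cent (ρ : P →* End k V) (φ : MulAut P) : Subgroup P where
  carrier := {x | ρ (φ x) = ρ x}
  one_mem' := by simp
  mul_mem' {x y} hx hy := by
    show ρ (φ (x * y)) = ρ (x * y)
    rw [map_mul φ, map_mul ρ, map_mul ρ]
    exact congrArg₂ (· * ·) hx hy
  inv_mem' {x} hx := by
    show ρ (φ x⁻¹) = ρ x⁻¹
    have h : ρ (φ x) = ρ x := hx
    calc ρ (φ x⁻¹) = ρ (φ x⁻¹) * (ρ x * ρ x⁻¹) := by
          rw [← map_mul, mul_inv_cancel, map_one, mul_one]
      _ = ρ (φ x⁻¹ * φ x) * ρ x⁻¹ := by rw [← mul_assoc, ← h, ← map_mul]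
      _ = ρ x⁻¹ := by rw [← map_mul φ, inv_mul_cancel, map_one, map_one, one_mul]

theorem mem_cent {ρ : P →* End k V} {φ : MulAut P} {x : P} : x ∈ cent ρ φ ↔ ρ (φ x) = ρ x := Iff.rfl

theorem map_mem_cent {ρ : P →* End k V} {φ : MulAut P} {T : End k V} (hT : T ^ p = 1)
    (hρT : ∀ x, T * ρ x = ρ (φ x) * T) {x : P} (hx : x ∈ cent ρ φ) : φ x ∈ cent ρ φ := by
  have hTT : T * T ^ (p - 1) = 1 := by
    rw [← pow_succ', Nat.sub_add_cancel hp.out.one_le, hT]
  have hconj : ∀ y, ρ (φ y) = T * ρ y * T ^ (p - 1) := fun y => by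
    rw [hρT, mul_assoc, hTT, mul_one]
  show ρ (φ (φ x)) = ρ (φ x)
  rw [hconj (φ x), mem_cent.1 hx, ← hconj x, mem_cent.1 hx]

theorem commute_of_mem_cent {ρ : P →* End k V} {φ : MulAut P} {T : End k V}
    (hρT : ∀ x, T * ρ x = ρ (φ x) * T) {x : P} (hx : x ∈ cent ρ φ) : Commute (ρ x) T := by
  show ρ x * T = T * ρ x
  rw [hρT, mem_cent.1 hx]

/-- coprimality turns `x⁻¹ φ(x) ∈ C` into `x ∈ C` -/
theorem mem_cent_of_diff [Finite P] {ρ : P →* End k V} {φ : MulAut P} {T : End k V}
    (hφ : φ ^ p = 1) (hT : T ^ p = 1) (hρT : ∀ x, T * ρ x = ρ (φ x) * T)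
    (hcop : (Nat.card P).Coprime p) {x : P} (h : x⁻¹ * φ x ∈ cent ρ φ) : x ∈ cent ρ φ := by
  set d := x⁻¹ * φ x with hd
  have hdi : ∀ i : ℕ, (φ ^ i) d ∈ cent ρ φ ∧ ρ ((φ ^ i) d) = ρ d := by
    intro i
    induction i with
    | zero => exact ⟨h, rfl⟩
    | succ i ih =>
      rw [pow_succ', MulAut.mul_apply]
      exact ⟨map_mem_cent hT hρT ih.1, (mem_cent.1 ih.1).trans ih.2⟩
  have hstep : ∀ i : ℕ, ρ ((φ ^ i) x) = ρ x * ρ d ^ i := by
    intro i
    induction i with
    | zero => simp
    | succ i ih =>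
      have e : (φ ^ (i + 1)) x = (φ ^ i) x * (φ ^ i) d := by
        rw [← map_mul, hd, mul_inv_cancel_left, pow_succ, MulAut.mul_apply]
      rw [e, map_mul, ih, (hdi i).2, pow_succ, mul_assoc]
  have hp1 : ρ d ^ p = 1 := by
    have h1 := hstep p
    rw [hφ, MulAut.one_apply] at h1
    calc ρ d ^ p = ρ x⁻¹ * (ρ x * ρ d ^ p) := by
          rw [← mul_assoc, ← map_mul, inv_mul_cancel, map_one, one_mul]
      _ = 1 := by rw [← h1, ← map_mul, inv_mul_cancel, map_one]
  have hn1 : ρ d ^ Nat.card P = 1 := by rw [← map_pow, pow_card_eq_one', map_one]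
  have h1 : ρ d = 1 := by
    have := pow_gcd_eq_one.2 ⟨hn1, hp1⟩
    rwa [hcop, pow_one] at this
  show ρ (φ x) = ρ x
  calc ρ (φ x) = ρ (x * d) := by rw [hd, mul_inv_cancel_left]
    _ = ρ x := by rw [map_mul, h1, mul_one]

/-- commutative images -/
theorem centralizes_of_comm [IsAlgClosed k] [FiniteDimensional k V] [Finite P]
    (ρ : P →* End k V) (φ : MulAut P) (T : End k V)
    (hPk : (Nat.card P : k) ≠ 0) (hφ : φ ^ p = 1) (hT : T ^ p = 1)
    (hρT : ∀ x, T * ρ x = ρ (φ x) * T) (hfix : ∀ v, T v = v → v = 0) (hirr : Irred ρ T)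
    (hc : ∀ x y, Commute (ρ x) (ρ y)) (x : P) : ρ (φ x) = ρ x := by
  classical
  rcases subsingleton_or_nontrivial V with hV | hV
  · exact LinearMap.ext fun v => Subsingleton.elim _ _
  haveI : Fintype P := Fintype.ofFinite P
  obtain ⟨χ, v, hv0, hv⟩ := exists_common_eigen ρ hc
  by_cases hχ : ∀ y, χ (φ y) = χ y
  · let W : Submodule k V := ⨅ y, eigenspace (ρ y) (χ y)
    have hW : ∀ w, w ∈ W ↔ ∀ y, ρ y w = χ y • w := fun w => by
      simp [W, Submodule.mem_iInf, mem_eigenspace_iff]
    have hWt : W = ⊤ := by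
      refine (hirr W (fun y w hw => (hW _).2 fun z => ?_) (fun w hw => (hW _).2 fun z => ?_)).resolve_left
        fun hb => hv0 ?_
      · rw [← Module.End.mul_apply, (hc z y).eq, Module.End.mul_apply, (hW w).1 hw z, map_smul]
      · obtain ⟨z, rfl⟩ := φ.surjective z
        rw [← Module.End.mul_apply, ← hρT, Module.End.mul_apply, (hW w).1 hw z, map_smul, hχ]
      · have : v ∈ W := (hW v).2 hv
        rwa [hb, Submodule.mem_bot] at this
    refine LinearMap.ext fun w => ?_
    have hw : w ∈ W := hWt ▸ Submodule.mem_top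
    rw [(hW w).1 hw, (hW w).1 hw, hχ]
  · exfalso
    push Not at hχ
    obtain ⟨y₀, hy₀⟩ := hχ
    let c : ℕ → P → k := fun i y => χ ((φ ^ i)⁻¹ y)
    have hvi : ∀ (i : ℕ) y, ρ y ((T ^ i) v) = c i y • (T ^ i) v := by
      intro i
      induction i with
      | zero =>
        intro y
        show ρ y v = χ ((1 : MulAut P)⁻¹ y) • v
        rw [inv_one]
        exact hv y
      | succ i ih =>
        intro y
        obtain ⟨y, rfl⟩ := φ.surjective y
        rw [pow_succ', Module.End.mul_apply, ← Module.End.mul_apply (ρ (φ y)), ← hρT,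
          Module.End.mul_apply, ih, map_smul]
        congr 1
        show χ _ = χ _
        rw [pow_succ', mul_inv_rev, MulAut.mul_apply, MulAut.inv_apply_self]
    have hne : ∀ i, 0 < i → i < p → ∃ y, c i y ≠ χ y := by
      intro i hi hip
      by_contra h
      push Not at h
      refine hy₀ ?_
      have hpow : ∀ (a : ℕ) y, χ (((φ ^ i) ^ a) y) = χ y := by
        intro a
        induction a with
        | zero => intro y; simp
        | succ a ih =>
          intro y
          rw [pow_succ, MulAut.mul_apply, ih, ← h ((φ ^ i) y)]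
          simp [c]
      have hcopi : Nat.Coprime i p :=
        (hp.out.coprime_iff_not_dvd.2 fun hd =>
          absurd (Nat.le_of_dvd hi hd) (not_le.2 hip)).symm
      obtain ⟨a, b, hab⟩ : ∃ a b : ℕ, i * a = p * b + 1 := by
        obtain ⟨a, ha⟩ := Nat.exists_mul_mod_eq_one_of_coprime hcopi hp.out.one_lt
        exact ⟨a, i * a / p, by have := Nat.div_add_mod (i * a) p; rw [ha.2] at this; omega⟩
      have e : φ = (φ ^ i) ^ a := by rw [← pow_mul, hab, pow_succ, pow_mul, hφ, one_pow, one_mul]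
      calc χ (φ y₀) = χ (((φ ^ i) ^ a) y₀) := by rw [← e]
        _ = χ y₀ := hpow a y₀
    have hS0 : ∑ i ∈ Finset.range p, (T ^ i) v = 0 := by
      refine hfix _ ?_
      rw [map_sum]
      have e := Finset.sum_range_succ (fun i => (T ^ i) v) p
      rw [Finset.sum_range_succ', hT, pow_zero] at e
      have e' := add_right_cancel e
      rw [← e']
      exact Finset.sum_congr rfl fun i _ => by rw [pow_succ', Module.End.mul_apply]
    let pr : End k V := ∑ y, χ y⁻¹ • ρ y
    have hpr : ∀ i, pr ((T ^ i) v) = (∑ y, χ y⁻¹ * c i y) • (T ^ i) v := fun i => by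
      simp [pr, LinearMap.sum_apply, hvi, smul_smul, Finset.sum_smul]
    have hsum : ∀ i ∈ Finset.range p, i ≠ 0 → ∑ y, χ y⁻¹ * c i y = 0 := by
      intro i hi hi0
      let f : P →* k :=
        { toFun := fun y => χ y⁻¹ * c i y
          map_one' := by simp [c]
          map_mul' := fun a b => by
            simp only [c, mul_inv_rev, map_mul]; ring }
      refine sum_hom_units_eq_zero f fun h1 => ?_
      obtain ⟨y, hy⟩ := hne i (Nat.pos_of_ne_zero hi0) (Finset.mem_range.1 hi)
      refine hy ?_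
      have := DFunLike.congr_fun h1 y
      calc c i y = χ (y * y⁻¹) * c i y := by rw [mul_inv_cancel, map_one, one_mul]
        _ = χ y * f y := by rw [map_mul, mul_assoc]; rfl
        _ = χ y := by rw [this, MonoidHom.one_apply, mul_one]
    have h0 := congrArg pr hS0
    rw [map_sum, map_zero, Finset.sum_eq_single 0 (fun i hi hi0 => by rw [hpr, hsum i hi hi0, zero_smul])
      (fun h => absurd (Finset.mem_range.2 hp.out.pos) h), hpr, pow_zero, Module.End.one_apply] at h0
    have h1 : ∀ y, χ y⁻¹ * c 0 y = 1 := fun y => by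
      show χ y⁻¹ * χ ((1 : MulAut P)⁻¹ y) = 1
      rw [inv_one, MulAut.one_apply, ← map_mul, inv_mul_cancel, map_one]
    rw [Finset.sum_congr rfl fun y _ => h1 y, Finset.sum_const, Finset.card_univ, nsmul_eq_mul, mul_one,
      ← Nat.card_eq_fintype_card] at h0
    exact hv0 ((smul_eq_zero_iff_right hPk).1 h0)

end sgroup

universe u v w

/-- the non-exceptional pairs of primes -/
def NonExc (p s : ℕ) : Prop := ¬(s = 2 ∧ ∃ n : ℕ, p = 2 ^ n + 1)

theorem finrank_lt_of_ne_bot {W : Submodule k V} [FiniteDimensional k V] (hW : W ≠ ⊥) :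
    finrank k (V ⧸ W) < finrank k V := by
  have := Submodule.finrank_quotient_add_finrank W
  have : 0 < finrank k W := Nat.pos_of_ne_zero fun h => hW (Submodule.finrank_eq_zero.1 h)
  omega

theorem centralizes_aux {k : Type u} [Field k] [IsAlgClosed k] {p s : ℕ} [Fact p.Prime]
    [Fact s.Prime] (hsp : s ≠ p) (hpk : (p : k) ≠ 0) (hsk : (s : k) ≠ 0) :
    ∀ (n : ℕ) (P : Type w) [Group P] [Finite P] (V : Type v) [AddCommGroup V] [Module k V]
      [FiniteDimensional k V] (ρ : P →* End k V) (φ : MulAut P) (T : End k V),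
      Nat.card P + finrank k V = n → (NonExc p s ∨ ∀ x y, Commute (ρ x) (ρ y)) → IsPGroup s P → φ ^ p = 1 → T ^ p = 1 →
      (∀ x, T * ρ x = ρ (φ x) * T) → (∀ v, T v = v → v = 0) → ∀ x, ρ (φ x) = ρ x := by
  intro n
  induction n using Nat.strong_induction_on with
  | _ n ih =>
  intro P _ _ V _ _ _ ρ φ T hn hex hP hφ hT hρT hfix
  classical
  obtain ⟨a, ha⟩ := IsPGroup.iff_card.1 hP
  have hPk : (Nat.card P : k) ≠ 0 := by rw [ha, Nat.cast_pow]; exact pow_ne_zero _ hsk
  have hcop : (Nat.card P).Coprime p := by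
    rw [ha]; exact Nat.Coprime.pow_left a ((Nat.coprime_primes Fact.out Fact.out).2 hsp)
  by_cases hirr : Irred ρ T
  swap
  · simp only [Irred, not_forall, not_or] at hirr
    obtain ⟨W, hW, hTW, hW0, hW1⟩ := hirr
    intro x
    have hlt : finrank k W < finrank k V := Submodule.finrank_lt hW1
    have hTsub : T.restrict hTW ^ p = 1 := LinearMap.ext fun v => Subtype.ext (by
      rw [Module.End.pow_restrict]
      show (T ^ p) (v : V) = v
      rw [hT]; rfl)
    have h1 := ih _ (by omega : Nat.card P + finrank k W < n) P W (subRep ρ W hW) φ (T.restrict hTW) rfl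
      (hex.imp id fun hc a b => LinearMap.ext fun v => Subtype.ext (LinearMap.congr_fun (hc a b) (v : V)))
      hP hφ hTsub (fun y => LinearMap.ext fun v => Subtype.ext (LinearMap.congr_fun (hρT y) (v : V)))
      (fun v hv => Subtype.ext (hfix v (congrArg Subtype.val hv)))
    have hTq : W.mapQ W T hTW ^ p = 1 := LinearMap.ext fun v => by
      obtain ⟨v, rfl⟩ := Submodule.mkQ_surjective W v
      have hi : ∀ i, (W.mapQ W T hTW ^ i) (W.mkQ v) = W.mkQ ((T ^ i) v) := by
        intro i
        induction i with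
        | zero => rfl
        | succ i ih' => rw [pow_succ', Module.End.mul_apply, ih', pow_succ', Module.End.mul_apply]; rfl
      rw [hi, hT]; rfl
    have h2 := ih _ (by have := finrank_lt_of_ne_bot hW0; omega : Nat.card P + finrank k (V ⧸ W) < n) P (V ⧸ W)
      (quotRep ρ W hW) φ (W.mapQ W T hTW) rfl
      (hex.imp id fun hc a b => LinearMap.ext fun v => by
        obtain ⟨v, rfl⟩ := Submodule.mkQ_surjective W v
        exact congrArg W.mkQ (LinearMap.congr_fun (hc a b) v)) hP hφ hTq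
      (fun y => LinearMap.ext fun v => by
        obtain ⟨v, rfl⟩ := Submodule.mkQ_surjective W v
        exact congrArg W.mkQ (LinearMap.congr_fun (hρT y) v))
      (fix_quotient hT hpk hfix hTW)
    have hX : ρ (x⁻¹ * φ x) = 1 := by
      refine eq_one_of_sub_quot (m := Nat.card P) (by rw [← map_pow, pow_card_eq_one', map_one]) hPk W
        (fun v hv => ?_) (fun v => ?_)
      · have := congrArg Subtype.val (LinearMap.congr_fun (h1 x) ⟨v, hv⟩)
        simp only [subRep_apply] at this
        rw [map_mul, Module.End.mul_apply, this, ← Module.End.mul_apply, ← map_mul, inv_mul_cancel,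
          map_one, Module.End.one_apply]
      · have := LinearMap.congr_fun (h2 x) (Submodule.Quotient.mk v)
        simp only [quotRep_mk] at this
        rw [Submodule.Quotient.eq] at this
        have h3 := hW x⁻¹ _ this
        rw [map_sub] at h3
        simp only [← Module.End.mul_apply, ← map_mul, inv_mul_cancel, map_one, Module.End.one_apply] at h3
        exact h3
    calc ρ (φ x) = ρ (x * (x⁻¹ * φ x)) := by rw [mul_inv_cancel_left]
      _ = ρ x := by rw [map_mul, hX, mul_one]
  rcases subsingleton_or_nontrivial V with hV | hV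
  · exact fun x => LinearMap.ext fun v => Subsingleton.elim _ _
  set C := cent ρ φ with hC
  have hsub : ∀ H : Subgroup P, H ≠ ⊤ → (∀ x ∈ H, φ x ∈ H) → H ≤ C := by
    intro H hH hHφ x hx
    have hbij : Function.Bijective (fun y : H => (⟨φ y, hHφ y y.2⟩ : H)) :=
      Finite.injective_iff_bijective.1 fun y z h => Subtype.ext (φ.injective (congrArg Subtype.val h))
    let φH : MulAut H := MulEquiv.ofBijective
      (MonoidHom.mk' (fun y : H => (⟨φ y, hHφ y y.2⟩ : H)) fun y z => Subtype.ext (map_mul φ _ _)) hbij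
    have hφi : ∀ i : ℕ, ∀ y : H, (((φH ^ i) y : H) : P) = (φ ^ i) (y : P) := by
      intro i
      induction i with
      | zero => intro y; rfl
      | succ i ih' =>
        intro y
        rw [pow_succ', MulAut.mul_apply, pow_succ', MulAut.mul_apply, ← ih']
        rfl
    have hlt : Nat.card H < Nat.card P := by
      refine lt_of_le_of_ne (Nat.le_of_dvd Nat.card_pos H.card_subgroup_dvd_card) fun h => hH ?_
      exact H.eq_top_of_card_eq h
    exact ih _ (by omega : Nat.card H + finrank k V < n) H V (ρ.comp H.subtype) φH T rfl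
      (hex.imp id fun hc a b => hc a b) (hP.to_subgroup H)
      (MulEquiv.ext fun y => Subtype.ext (by rw [hφi, hφ]; rfl)) hT (fun y => hρT _) hfix ⟨x, hx⟩
  by_contra hne
  have hCt : C ≠ ⊤ := fun h => hne fun x => (h ▸ Subgroup.mem_top x : x ∈ C)
  have hCφ : ∀ x ∈ C, φ x ∈ C := fun x hx => map_mem_cent hT hρT hx
  haveI : (frattini P).Characteristic := inferInstance
  have hPn : Nontrivial P := by
    rcases subsingleton_or_nontrivial P with h | h
    · exact absurd (fun x => by rw [Subsingleton.elim (φ x) x]) hne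
    · exact h
  have hFφ : ∀ x ∈ frattini P, φ x ∈ frattini P := fun x hx =>
    Subgroup.characteristic_iff_map_le.1 ‹_› φ ⟨x, hx, rfl⟩
  have hF : frattini P ≤ C := by
    refine hsub _ (fun h => ?_) hFφ
    exact bot_ne_top (frattini_nongenerating (K := (⊥ : Subgroup P)) (by rw [h, bot_sup_eq]))
  set D : Subgroup P := Subgroup.closure (Set.range fun x => x⁻¹ * φ x) with hD
  have hDt : D = ⊤ := by
    refine frattini_nongenerating ?_
    by_contra h
    have hφ' : ∀ x ∈ D ⊔ frattini P, φ x ∈ D ⊔ frattini P := by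
      have : (D ⊔ frattini P).map φ.toMonoidHom ≤ D ⊔ frattini P := by
        rw [Subgroup.map_sup, hD, MonoidHom.map_closure]
        refine sup_le_sup (Subgroup.closure_mono ?_) (by rintro _ ⟨x, hx, rfl⟩; exact hFφ x hx)
        rintro _ ⟨_, ⟨x, rfl⟩, rfl⟩
        exact ⟨φ x, by simp⟩
      exact fun x hx => this ⟨x, hx, rfl⟩
    exact hne fun x => mem_cent_of_diff hφ hT hρT hcop
      (hsub _ h hφ' (Subgroup.mem_sup_left (Subgroup.subset_closure ⟨x, rfl⟩)))
  have hcentral : ∀ H : Subgroup P, H.Normal → H ≤ C → ∀ y ∈ H, ∀ z, Commute (ρ y) (ρ z) := by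
    intro H hH hHC y hy z
    have hz : z ∈ D := hDt ▸ Subgroup.mem_top z
    induction hz using Subgroup.closure_induction with
    | mem z hz =>
      obtain ⟨x, rfl⟩ := hz
      have h1 : ρ (φ (x * y * x⁻¹)) = ρ (x * y * x⁻¹) := mem_cent.1 (hHC (hH.conj_mem y hy x))
      have h2 : ρ (φ y) = ρ y := mem_cent.1 (hHC hy)
      rw [map_mul φ, map_mul φ, map_mul ρ, map_mul ρ, h2, map_mul ρ, map_mul ρ, map_inv φ] at h1
      show ρ y * ρ (x⁻¹ * φ x) = ρ (x⁻¹ * φ x) * ρ y
      have e : ∀ u, ρ u⁻¹ * ρ u = 1 := fun u => by rw [← map_mul, inv_mul_cancel, map_one]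
      calc ρ y * ρ (x⁻¹ * φ x) = ρ x⁻¹ * (ρ x * ρ y * ρ x⁻¹) * ρ (φ x) := by
            rw [map_mul ρ, ← mul_assoc, ← mul_assoc, ← mul_assoc (ρ x⁻¹), e, one_mul]
        _ = ρ x⁻¹ * (ρ (φ x) * ρ y * ρ (φ x)⁻¹) * ρ (φ x) := by rw [h1]
        _ = ρ (x⁻¹ * φ x) * ρ y := by
            rw [map_mul ρ, mul_assoc (ρ x⁻¹), mul_assoc (ρ (φ x) * ρ y), e, mul_one, ← mul_assoc]
    | one => simp
    | mul a b _ _ ha hb => rw [map_mul]; exact ha.mul_right hb
    | inv a _ ha =>
      have e1 : ρ a * ρ a⁻¹ = 1 := by rw [← map_mul, mul_inv_cancel, map_one]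
      have e2 : ρ a⁻¹ * ρ a = 1 := by rw [← map_mul, inv_mul_cancel, map_one]
      exact Commute.units_inv_right (u := ⟨ρ a, ρ a⁻¹, e1, e2⟩) ha
  have hFc : ∀ x y : P, ⁅x, y⁆ ∈ frattini P := fun x y => Cfsg.Agent.PGroup.commutatorElement_mem_frattini hP x y
  haveI hCn : C.Normal := by
    refine ⟨fun y hy x => ?_⟩
    have := C.mul_mem (hF (hFc x y)) hy
    rwa [commutatorElement_def, inv_mul_cancel_right] at this
  let Z : Subgroup P :=
    { carrier := {x | ∀ y, Commute (ρ x) (ρ y)}
      one_mem' := fun y => by simp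
      mul_mem' := fun {a b} ha hb y => by rw [map_mul]; exact (ha y).mul_left (hb y)
      inv_mem' := fun {a} ha y => by
        have e1 : ρ a * ρ a⁻¹ = 1 := by rw [← map_mul, mul_inv_cancel, map_one]
        have e2 : ρ a⁻¹ * ρ a = 1 := by rw [← map_mul, inv_mul_cancel, map_one]
        exact Commute.units_inv_left (u := ⟨ρ a, ρ a⁻¹, e1, e2⟩) (ha y) }
  have hFZ : frattini P ≤ Z := fun x hx => hcentral _ inferInstance hF x hx
  have hZt : Z ≠ ⊤ := fun h => hne (centralizes_of_comm ρ φ T hPk hφ hT hρT hfix hirr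
    fun x y => (h ▸ Subgroup.mem_top x : x ∈ Z) y)
  have hZφ : ∀ x ∈ Z, φ x ∈ Z := by
    intro x hx y
    obtain ⟨y, rfl⟩ := φ.surjective y
    have hTT : T * T ^ (p - 1) = 1 := by
      rw [← pow_succ', Nat.sub_add_cancel (Fact.out : p.Prime).one_le, hT]
    have hconj : ∀ z, ρ (φ z) = T * ρ z * T ^ (p - 1) := fun z => by
      rw [hρT, mul_assoc, hTT, mul_one]
    show ρ (φ x) * ρ (φ y) = ρ (φ y) * ρ (φ x)
    rw [← map_mul ρ, ← map_mul ρ, ← map_mul φ, ← map_mul φ, hconj, hconj, map_mul ρ, map_mul ρ, (hx y).eq]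
  have hZC : Z ≤ C := hsub Z hZt hZφ
  haveI : Z.Normal := ⟨fun y hy x => by
    have := Z.mul_mem (hFZ (hFc x y)) hy
    rwa [commutatorElement_def, inv_mul_cancel_right] at this⟩
  have hcard := card_quotient_eq ρ φ T hpk hPk hφ hT hρT hfix hirr Z (fun x => Iff.rfl)
    (fun x hx => eq_smul_one hirr _ hx (commute_of_mem_cent hρT (hZC hx)))
    (fun x y => hFZ (hFc x y))
    (fun x hx => hcentral C hCn le_rfl x (mem_cent_of_diff hφ hT hρT hcop (hZC hx))) hZt
  obtain ⟨j, hj⟩ := IsPGroup.iff_card.1 (hP.to_quotient Z)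
  rw [hj] at hcard
  have hp2 : p ≠ 2 := by
    intro h2
    rw [h2] at hcard
    apply hZt
    rw [← Subgroup.index_eq_one]
    show Nat.card (P ⧸ Z) = 1
    rw [hj, hcard]
    norm_num
  have heven : 2 ∣ p - 1 := by
    obtain ⟨t, ht⟩ := (Fact.out : p.Prime).odd_of_ne_two hp2
    exact ⟨t, by omega⟩
  have hs2 : s = 2 := ((Nat.prime_dvd_prime_iff_eq Nat.prime_two Fact.out).1
    (Nat.prime_two.dvd_of_dvd_pow (hcard.symm ▸ heven.trans (dvd_pow_self _ two_ne_zero)))).symm
  subst hs2
  obtain ⟨m, -, hm⟩ := (Nat.dvd_prime_pow Nat.prime_two).1 (hcard.symm ▸ dvd_pow_self (p - 1) two_ne_zero : p - 1 ∣ 2 ^ j)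
  rcases hex with hex | hc
  swap
  · exact hZt (eq_top_iff.2 fun x _ => fun y => hc x y)
  exact hex ⟨rfl, m, by have := (Fact.out : p.Prime).one_le; omega⟩

/-- **A fixed-point-free element of prime order centralizes the coprime `s`-groups it normalizes**,
outside the exceptional case. -/
theorem centralizes {k : Type u} [Field k] [IsAlgClosed k] {p s : ℕ} [Fact p.Prime]
    [Fact s.Prime] (hsp : s ≠ p) (hex : NonExc p s) (hpk : (p : k) ≠ 0) (hsk : (s : k) ≠ 0)
    {P : Type w} [Group P] [Finite P] {V : Type v} [AddCommGroup V] [Module k V]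
    [FiniteDimensional k V] (ρ : P →* End k V) (φ : MulAut P) (T : End k V) (hP : IsPGroup s P)
    (hφ : φ ^ p = 1) (hT : T ^ p = 1) (hρT : ∀ x, T * ρ x = ρ (φ x) * T)
    (hfix : ∀ v, T v = v → v = 0) (x : P) : ρ (φ x) = ρ x :=
  centralizes_aux hsp hpk hsk _ P V ρ φ T rfl (Or.inl hex) hP hφ hT hρT hfix x

/-- in the exceptional case too, commutative images are centralized -/
theorem centralizes_comm_image {k : Type u} [Field k] [IsAlgClosed k] {p s : ℕ} [Fact p.Prime]
    [Fact s.Prime] (hsp : s ≠ p) (hpk : (p : k) ≠ 0) (hsk : (s : k) ≠ 0)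
    {P : Type w} [Group P] [Finite P] {V : Type v} [AddCommGroup V] [Module k V]
    [FiniteDimensional k V] (ρ : P →* End k V) (φ : MulAut P) (T : End k V) (hP : IsPGroup s P)
    (hc : ∀ x y, Commute (ρ x) (ρ y))
    (hφ : φ ^ p = 1) (hT : T ^ p = 1) (hρT : ∀ x, T * ρ x = ρ (φ x) * T)
    (hfix : ∀ v, T v = v → v = 0) (x : P) : ρ (φ x) = ρ x :=
  centralizes_aux hsp hpk hsk _ P V ρ φ T rfl (Or.inr hc) hP hφ hT hρT hfix x

end Cfsg.Agent.FGS.HH
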