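import Cfsg.Agent.FGS.FpfModule
import Cfsg.Agent.Cores.Fitting
import Cfsg.Agent.Perm.Modules

/-!
An element of prime order without fixed vectors centralizes the solvable groups of coprime order
which it normalizes in an irreducible action, outside the exceptional case.
-/

set_option linter.unusedSectionVars false
set_option linter.style.haveILetI false

namespace Cfsg.Agent.FGS.HH

open Module Module.End

variable {k : Type*} [Field k] [IsAlgClosed k] {V : Type*} [AddCommGroup V] [Module k V]
  [FiniteDimensional k V] {p : ℕ} [hp : Fact p.Prime] {K : Type*} [Group K] [Finite K]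

omit [IsAlgClosed k] [FiniteDimensional k V] in
theorem pow_apply_of_fixed {φ : MulAut K} {x : K} (h : φ (x⁻¹ * φ x) = x⁻¹ * φ x) (i : ℕ) :
    (φ ^ i) x = x * (x⁻¹ * φ x) ^ i := by
  induction i with
  | zero => simp
  | succ i ih => rw [pow_succ', MulAut.mul_apply, ih, map_mul, map_pow, h, pow_succ', ← mul_assoc x, mul_inv_cancel_left]

/-- the faithful case -/
theorem centralizes_faithful [Group.IsSolvable K] (ρ : K →* End k V) (φ : MulAut K) (T : End k V)
    (hpk : (p : k) ≠ 0) (hcop : (Nat.card K).Coprime p)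
    (hex : ∀ s : ℕ, s.Prime → s ∣ Nat.card K → NonExc p s)
    (hφ : φ ^ p = 1) (hT : T ^ p = 1) (hρT : ∀ x, T * ρ x = ρ (φ x) * T)
    (hfix : ∀ v, T v = v → v = 0) (hirr : Irred ρ T) (hinj : Function.Injective ρ) (x : K) :
    φ x = x := by
  classical
  set Fix : Subgroup K := MonoidHom.eqLocus φ.toMonoidHom (MonoidHom.id K) with hFix
  have hcores : Cfsg.fittingSubgroup K ≤ Fix := by
    rw [Cfsg.Agent.Cores.fittingSubgroup_eq_iSup_pCore]
    refine iSup_le fun s => ?_
    haveI : Fact (s : ℕ).Prime := ⟨s.2⟩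
    set R := Cfsg.pCore (s : ℕ) K
    intro y hy
    by_cases hdvd : (s : ℕ) ∣ Nat.card K
    swap
    · obtain ⟨j, hj⟩ := IsPGroup.iff_card.1 (Cfsg.Agent.Cores.pCore_isPGroup (G := K) (p := (s : ℕ)))
      rcases Nat.eq_zero_or_pos j with rfl | hj0
      · rw [pow_zero, Subgroup.card_eq_one] at hj
        rw [show R = ⊥ from hj, Subgroup.mem_bot] at hy
        rw [hy]
        exact Fix.one_mem
      · exact absurd ((hj ▸ dvd_pow_self (s : ℕ) hj0.ne').trans (Subgroup.card_subgroup_dvd_card _)) hdvd
    have hRφ : ∀ z ∈ R, φ z ∈ R := fun z hz =>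
      Subgroup.characteristic_iff_map_le.1 inferInstance φ ⟨z, hz, rfl⟩
    by_cases hsk : ((s : ℕ) : k) = 0
    · haveI : CharP k (s : ℕ) := by
        have h1 : ringChar k ∣ (s : ℕ) := ringChar.dvd hsk
        rcases s.2.eq_one_or_self_of_dvd _ h1 with h | h
        · exact absurd h (CharP.ringChar_ne_one)
        · rw [← h]; exact ringChar.charP k
      rcases subsingleton_or_nontrivial V with hV | hV
      · have : y = 1 := hinj (LinearMap.ext fun v => Subsingleton.elim _ _)
        rw [this]; exact Fix.one_mem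
      let W : Submodule k V := ⨅ z : R, eigenspace (ρ z) 1
      have hW : ∀ v, v ∈ W ↔ ∀ z ∈ R, ρ z v = v := fun v => by
        simp [W, Submodule.mem_iInf, mem_eigenspace_iff]
      obtain ⟨v, -, hv0, hv⟩ := Cfsg.Agent.PermLib.exists_fixed_vector
        (Cfsg.Agent.Cores.pCore_isPGroup (G := K) (p := (s : ℕ))) (ρ.comp R.subtype) (⊤ : Submodule k V)
        (fun _ _ _ => Submodule.mem_top) top_ne_bot
      have hWne : W ≠ ⊥ := fun hb => hv0 (by
        have : v ∈ W := (hW v).2 fun z hz => hv ⟨z, hz⟩
        rwa [hb, Submodule.mem_bot] at this)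
      have hWt : W = ⊤ := by
        refine (hirr W (fun g w hw => (hW _).2 fun z hz => ?_) (fun w hw => (hW _).2 fun z hz => ?_)).resolve_left hWne
        · have h2 := (hW w).1 hw _ ((inferInstance : R.Normal).conj_mem z hz g⁻¹)
          rw [inv_inv] at h2
          calc ρ z (ρ g w) = ρ g (ρ (g⁻¹ * z * g) w) := by
                rw [← Module.End.mul_apply, ← Module.End.mul_apply, ← map_mul, ← map_mul]
                congr 2
                group
            _ = ρ g w := by rw [h2]
        · have hmap : R.map φ.toMonoidHom = R := Subgroup.characteristic_iff_map_eq.1 inferInstance φ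
          obtain ⟨z', hz', rfl⟩ := hmap.symm ▸ hz
          show ρ (φ z') (T w) = T w
          rw [← Module.End.mul_apply, ← hρT, Module.End.mul_apply, (hW w).1 hw z' hz']
      have : y = 1 := hinj (LinearMap.ext fun w => by
        rw [map_one, Module.End.one_apply]
        exact (hW w).1 (hWt ▸ Submodule.mem_top) y hy)
      rw [this]; exact Fix.one_mem
    · have hsp : (s : ℕ) ≠ p := fun e => by
        rw [e] at hdvd
        exact hp.out.one_lt.ne' (Nat.eq_one_of_dvd_coprimes hcop hdvd dvd_rfl)
      let φR : MulAut R := MulEquiv.ofBijective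
        (MonoidHom.mk' (fun z : R => (⟨φ z, hRφ z z.2⟩ : R)) fun a b => Subtype.ext (map_mul φ _ _))
        (Finite.injective_iff_bijective.1 fun a b h => Subtype.ext (φ.injective (congrArg Subtype.val h)))
      have hi : ∀ i : ℕ, ∀ z : R, (((φR ^ i) z : R) : K) = (φ ^ i) (z : K) := by
        intro i
        induction i with
        | zero => intro z; rfl
        | succ i ih => intro z; rw [pow_succ', MulAut.mul_apply, pow_succ', MulAut.mul_apply, ← ih]; rfl
      exact hinj (centralizes hsp (hex _ s.2 hdvd) hpk hsk (ρ.comp R.subtype) φR T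
        Cfsg.Agent.Cores.pCore_isPGroup (MulEquiv.ext fun z => Subtype.ext (by rw [hi, hφ]; rfl)) hT
        (fun z => hρT _) hfix ⟨y, hy⟩)
  set d := x⁻¹ * φ x with hd
  have hdF : d ∈ Cfsg.fittingSubgroup K := by
    refine Cfsg.Agent.Cores.centralizer_fittingSubgroup_le (Subgroup.mem_centralizer_iff.2 fun f hf => ?_)
    have h1 : φ (x * f * x⁻¹) = x * f * x⁻¹ :=
      hcores ((inferInstance : (Cfsg.fittingSubgroup K).Normal).conj_mem f hf x)
    have h2 : φ f = f := hcores hf
    rw [map_mul, map_mul, map_inv, h2] at h1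
    calc f * d = x⁻¹ * (x * f * x⁻¹) * φ x := by rw [hd]; group
      _ = x⁻¹ * (φ x * f * (φ x)⁻¹) * φ x := by rw [h1]
      _ = d * f := by rw [hd]; group
  have hdfix : φ d = d := hcores hdF
  have hp1 : d ^ p = 1 := by
    have := pow_apply_of_fixed hdfix p
    rw [hφ, MulAut.one_apply, left_eq_mul] at this
    exact this
  have hd1 : d = 1 := by
    have := pow_gcd_eq_one.2 ⟨pow_card_eq_one' (x := d), hp1⟩
    rwa [hcop, pow_one] at this
  exact (inv_mul_eq_one.1 hd1).symm

/-- **An element of prime order without fixed vectors centralizes** the image of a solvable group of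
coprime order, in an irreducible action. -/
theorem centralizes_solvable [Group.IsSolvable K] (ρ : K →* End k V) (φ : MulAut K) (T : End k V)
    (hpk : (p : k) ≠ 0) (hcop : (Nat.card K).Coprime p)
    (hex : ∀ s : ℕ, s.Prime → s ∣ Nat.card K → NonExc p s)
    (hφ : φ ^ p = 1) (hT : T ^ p = 1) (hρT : ∀ x, T * ρ x = ρ (φ x) * T)
    (hfix : ∀ v, T v = v → v = 0) (hirr : Irred ρ T) (x : K) : ρ (φ x) = ρ x := by
  classical
  set N := ρ.ker
  have hTT : T * T ^ (p - 1) = 1 := by rw [← pow_succ', Nat.sub_add_cancel hp.out.one_le, hT]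
  have hN : N.map φ.toMonoidHom = N := by
    refine Subgroup.eq_of_le_of_card_ge ?_ (by rw [Subgroup.card_map_of_injective φ.injective])
    rintro _ ⟨z, hz, rfl⟩
    replace hz : ρ z = 1 := hz
    show ρ (φ z) = 1
    calc ρ (φ z) = T * ρ z * T ^ (p - 1) := by rw [hρT, mul_assoc, hTT, mul_one]
      _ = 1 := by rw [hz, mul_one, hTT]
  let φq : MulAut (K ⧸ N) := QuotientGroup.congr N N φ hN
  let ρq : K ⧸ N →* End k V := QuotientGroup.lift N ρ fun z hz => hz
  have hi : ∀ (i : ℕ) (y : K), (φq ^ i) (QuotientGroup.mk y) = QuotientGroup.mk ((φ ^ i) y) := by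
    intro i
    induction i with
    | zero => intro y; rfl
    | succ i ih => intro y; rw [pow_succ', MulAut.mul_apply, ih, pow_succ', MulAut.mul_apply]; rfl
  haveI : Group.IsSolvable (K ⧸ N) :=
    Group.isSolvable_of_surjective (f := QuotientGroup.mk' N) (QuotientGroup.mk'_surjective N)
  have hdvd : Nat.card (K ⧸ N) ∣ Nat.card K := Subgroup.card_quotient_dvd_card N
  have h := centralizes_faithful ρq φq T hpk (hcop.coprime_dvd_left hdvd)
    (fun s hs hd => hex s hs (hd.trans hdvd))
    (MulEquiv.ext fun y => by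
      obtain ⟨y, rfl⟩ := QuotientGroup.mk_surjective y
      rw [hi, hφ]; rfl) hT
    (fun y => by obtain ⟨y, rfl⟩ := QuotientGroup.mk_surjective y; exact hρT y) hfix
    (fun W hW hTW => hirr W (fun y v hv => hW (QuotientGroup.mk y) v hv) hTW)
    (fun a b hab => by
      obtain ⟨a, rfl⟩ := QuotientGroup.mk_surjective a
      obtain ⟨b, rfl⟩ := QuotientGroup.mk_surjective b
      have e : ρ a = ρ b := hab
      refine QuotientGroup.eq.2 (MonoidHom.mem_ker.2 ?_)
      rw [map_mul, ← e, ← map_mul, inv_mul_cancel, map_one])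
    (QuotientGroup.mk x)
  exact congrArg ρq h

end Cfsg.Agent.FGS.HH
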