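import Cfsg.Agent.PSolv.Basic
import Cfsg.Agent.Lib.SchurZassenhaus

/-!
# p-complements in p-soluble groups
-/

set_option autoImplicit false
set_option linter.style.haveILetI false

universe u

namespace Cfsg.Agent.FGS

open scoped Pointwise

variable {p : ℕ}

/-- `H` has order prime to `p` and p-power index. -/
def IsPCompl {G : Type*} [Group G] (p : ℕ) (H : Subgroup G) : Prop :=
  (Nat.card H).Coprime p ∧ ∃ n : ℕ, H.index = p ^ n

theorem IsPCompl.eq_of_le {G : Type*} [Group G] [Finite G] [Fact p.Prime] {H K : Subgroup G}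
    (hH : IsPCompl p H) (hK : (Nat.card K).Coprime p) (hle : H ≤ K) : H = K := by
  obtain ⟨n, hn⟩ := hH.2
  refine le_antisymm hle (Subgroup.relIndex_eq_one.mp ?_)
  refine Nat.eq_one_of_dvd_coprimes (k := H.relIndex K) (hK.pow_right n) ?_ ?_
  · exact Subgroup.relIndex_dvd_card _ _
  · exact hn ▸ ⟨K.index, (Subgroup.relIndex_mul_index hle).symm⟩

theorem IsPCompl.card_eq {G : Type*} [Group G] [Finite G] [Fact p.Prime] {H K : Subgroup G}
    (hH : IsPCompl p H) (hK : IsPCompl p K) : Nat.card H = Nat.card K := by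
  obtain ⟨n, hn⟩ := hH.2
  obtain ⟨m, hm⟩ := hK.2
  have h1 := H.card_mul_index
  have h2 := K.card_mul_index
  rw [hn] at h1
  rw [hm] at h2
  refine Nat.dvd_antisymm ?_ ?_
  · exact (hH.1.pow_right m).dvd_of_dvd_mul_right (h2 ▸ h1 ▸ ⟨p ^ n, rfl⟩)
  · exact (hK.1.pow_right n).dvd_of_dvd_mul_right (h1 ▸ h2 ▸ ⟨p ^ m, rfl⟩)

theorem pCompl_aux (n : ℕ) : ∀ {G : Type u} [Group G] [Finite G] [Fact p.Prime],
    Nat.card G ≤ n → Cfsg.IsPSolvable p G →
    (∃ H : Subgroup G, IsPCompl p H) ∧ ∀ (H U : Subgroup G), IsPCompl p H →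
      (Nat.card U).Coprime p → ∃ g : G, MulAut.conj g • U ≤ H := by
  induction n using Nat.strong_induction_on with
  | _ n ih =>
    intro G _ _ _ hn hG
    have hp := (Fact.out : p.Prime)
    rcases subsingleton_or_nontrivial G with hs | hs
    · refine ⟨⟨⊤, ?_, 0, by simp⟩, fun H U _ _ => ⟨1, ?_⟩⟩
      · rw [Subgroup.card_top, Nat.card_of_subsingleton (1 : G)]; exact Nat.coprime_one_left p
      · intro x _; rw [Subsingleton.elim x 1]; exact one_mem _
    obtain ⟨N, hNn, -, hN1, hN⟩ :=
      Cfsg.Agent.PSolv.exists_normal_le_of_isPSolvable hG (⊤ : Subgroup G) top_ne_bot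
    haveI := hNn
    have hlt : Nat.card (G ⧸ N) < Nat.card G := by
      rw [← N.card_mul_index, ← Subgroup.index_eq_card]
      exact lt_mul_left (Nat.pos_of_ne_zero Subgroup.index_ne_zero_of_finite)
        ((Subgroup.one_lt_card_iff_ne_bot N).mpr hN1)
    obtain ⟨⟨Hq, hHq⟩, hcont⟩ :=
      ih _ (lt_of_lt_of_le hlt hn) le_rfl (Cfsg.Agent.PSolv.isPSolvable_quotient hG N)
    set φ := QuotientGroup.mk' N
    have hsurj : Function.Surjective φ := QuotientGroup.mk'_surjective N
    have hmapconj : ∀ (g : G) (U : Subgroup G),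
        (MulAut.conj g • U).map φ = MulAut.conj (φ g) • U.map φ := by
      intro g U
      rw [Cfsg.Agent.SZ.conj_smul_eq_map, Cfsg.Agent.SZ.conj_smul_eq_map, Subgroup.map_map,
        Subgroup.map_map]
      congr 1
    set M := Hq.comap φ with hM
    have hNM : N ≤ M := fun x hx => by
      show φ x ∈ Hq
      rw [show φ x = 1 from (QuotientGroup.eq_one_iff x).mpr hx]; exact one_mem _
    have hMcard : Nat.card M = Nat.card N * Nat.card Hq := by
      have h := Subgroup.relIndex_comap (⊥ : Subgroup (G ⧸ N)) φ M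
      rw [MonoidHom.comap_bot, QuotientGroup.ker_mk', hM,
        Subgroup.map_comap_eq_self_of_surjective hsurj, Subgroup.relIndex_bot_left] at h
      rw [← h, ← Subgroup.relIndex_bot_left, ← hM,
        ← Subgroup.relIndex_mul_relIndex ⊥ N M bot_le hNM, Subgroup.relIndex_bot_left]
    have hMidx : M.index = Hq.index := Subgroup.index_comap_of_surjective Hq hsurj
    obtain ⟨j, hj⟩ := hHq.2
    -- images of complements are complements
    have himage : ∀ H : Subgroup G, IsPCompl p H → IsPCompl p (H.map φ) := by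
      intro H hH
      refine ⟨hH.1.coprime_dvd_left (Subgroup.card_map_dvd ..), ?_⟩
      obtain ⟨m, hm⟩ := hH.2
      obtain ⟨i, -, hi⟩ := (Nat.dvd_prime_pow hp).mp (hm ▸ Subgroup.index_map_dvd H hsurj)
      exact ⟨i, hi⟩
    rcases hN with hNp | hNc
    · -- `N` is a p-group
      have hcopN : ∀ m : ℕ, m.Coprime p → (Nat.card N).Coprime m := fun m hm => by
        obtain ⟨i, hi⟩ := IsPGroup.iff_card.mp hNp
        exact hi ▸ (hm.pow_right i).symm
      haveI hNsolv : Group.IsSolvable N := haveI := hNp.isNilpotent; inferInstance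
      refine ⟨?_, ?_⟩
      · haveI : (N.subgroupOf M).Normal := inferInstance
        have hcardN : Nat.card (N.subgroupOf M) = Nat.card N :=
          Nat.card_congr (Subgroup.subgroupOfEquivOfLe hNM).toEquiv
        have hidx : (N.subgroupOf M).index = Nat.card Hq := by
          have := (N.subgroupOf M).card_mul_index
          rw [hcardN, hMcard] at this
          exact Nat.eq_of_mul_eq_mul_left Nat.card_pos this
        obtain ⟨K, hK⟩ := Subgroup.exists_right_complement'_of_coprime (N := N.subgroupOf M)
          (by rw [hcardN, hidx]; exact hcopN _ hHq.1)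
        have hKcard : Nat.card K = Nat.card Hq := by rw [← hidx, hK.symm.index_eq_card]
        refine ⟨K.map M.subtype, ?_, ?_⟩
        · rw [Subgroup.card_map_of_injective M.subtype_injective, hKcard]; exact hHq.1
        · obtain ⟨i, hi⟩ := IsPGroup.iff_card.mp hNp
          refine ⟨i + j, ?_⟩
          rw [Subgroup.index_map_subtype, hMidx, hj, hK.index_eq_card, hcardN, hi, pow_add]
      · intro H U hH hU
        obtain ⟨g, hg⟩ := hcont (H.map φ) (U.map φ) (himage H hH)
          (hU.coprime_dvd_left (Subgroup.card_map_dvd ..))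
        obtain ⟨g₀, rfl⟩ := hsurj g
        set W := H ⊔ N with hW
        set U' := MulAut.conj g₀ • U
        have hU'W : U' ≤ W := by
          have h1 : U'.map φ ≤ H.map φ := (hmapconj g₀ U).trans_le hg
          have h2 := Subgroup.comap_mono (f := φ) h1
          rw [Subgroup.comap_map_eq, Subgroup.comap_map_eq, QuotientGroup.ker_mk'] at h2
          exact le_sup_left.trans h2
        haveI : (N.subgroupOf W).Normal := inferInstance
        have hcompl : Subgroup.IsComplement' (N.subgroupOf W) (H.subgroupOf W) := by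
          refine Subgroup.isComplement'_of_coprime ?_ ?_
          · rw [Nat.card_congr (Subgroup.subgroupOfEquivOfLe (le_sup_right : N ≤ W)).toEquiv,
              Nat.card_congr (Subgroup.subgroupOfEquivOfLe (le_sup_left : H ≤ W)).toEquiv]
            have hdis : H ⊓ N = ⊥ := Subgroup.card_eq_one.mp <| Nat.eq_one_of_dvd_coprimes
              (hcopN _ hH.1) (Subgroup.card_dvd_of_le inf_le_right)
              (Subgroup.card_dvd_of_le inf_le_left)
            rw [← Subgroup.relIndex_bot_left, ← Subgroup.relIndex_bot_left H,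
              ← Subgroup.relIndex_bot_left W,
              ← Subgroup.relIndex_mul_relIndex ⊥ N W bot_le le_sup_right]
            congr 1
            rw [hW, Subgroup.relIndex_sup_right, ← Subgroup.inf_relIndex_left H N, hdis]
          · rw [Nat.card_congr (Subgroup.subgroupOfEquivOfLe (le_sup_right : N ≤ W)).toEquiv,
              Nat.card_congr (Subgroup.subgroupOfEquivOfLe (le_sup_left : H ≤ W)).toEquiv]
            exact hcopN _ hH.1
        obtain ⟨m, hm, hmU⟩ := Cfsg.Agent.SZ.le_conj_complement (N.subgroupOf W) (H.subgroupOf W)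
          (U'.subgroupOf W) hcompl (by
            rw [hcompl.symm.index_eq_card,
              Nat.card_congr (Subgroup.subgroupOfEquivOfLe (le_sup_right : N ≤ W)).toEquiv,
              Nat.card_congr (Subgroup.subgroupOfEquivOfLe (le_sup_left : H ≤ W)).toEquiv]
            exact hcopN _ hH.1) (by
            rw [Nat.card_congr (Subgroup.subgroupOfEquivOfLe (le_sup_right : N ≤ W)).toEquiv,
              Nat.card_congr (Subgroup.subgroupOfEquivOfLe hU'W).toEquiv,
              Cfsg.Agent.SZ.card_conj_smul]
            exact hcopN _ hU)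
          (Or.inl (Cfsg.Agent.SZ.isSolvable_subgroupOf N W))
        refine ⟨(m : G) * g₀, ?_⟩
        rw [map_mul, mul_smul]
        intro x hx
        rw [Cfsg.Agent.SZ.mem_conj_smul] at hx
        have hxW : x ∈ W := by
          have := W.mul_mem (W.mul_mem m.2 (hU'W hx)) (W.inv_mem m.2)
          simpa [mul_assoc] using this
        refine (hmU (show (⟨x, hxW⟩ : W) ∈ _ from ?_) : _)
        rw [Cfsg.Agent.SZ.mem_conj_smul, Subgroup.mem_subgroupOf]
        exact hx
    · -- `N` is a p'-group
      refine ⟨⟨M, ?_, j, by rw [hMidx, hj]⟩, ?_⟩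
      · rw [hMcard]; exact Nat.Coprime.mul_left hNc hHq.1
      · intro H U hH hU
        have hNH : N ≤ H := by
          have hsup : (Nat.card ↥(H ⊔ N)).Coprime p := by
            refine Nat.Coprime.coprime_dvd_left ?_ (Nat.Coprime.mul_left hH.1 hNc)
            rw [← Subgroup.relIndex_bot_left (H ⊔ N),
              ← Subgroup.relIndex_mul_relIndex ⊥ N (H ⊔ N) bot_le le_sup_right,
              Subgroup.relIndex_bot_left, Subgroup.relIndex_sup_right, mul_comm]
            exact mul_dvd_mul_right (Subgroup.relIndex_dvd_card N H) _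
          exact le_sup_right.trans (hH.eq_of_le hsup le_sup_left).ge
        obtain ⟨g, hg⟩ := hcont (H.map φ) (U.map φ) (himage H hH)
          (hU.coprime_dvd_left (Subgroup.card_map_dvd ..))
        obtain ⟨g₀, rfl⟩ := hsurj g
        refine ⟨g₀, ?_⟩
        have h2 := Subgroup.comap_mono (f := φ) ((hmapconj g₀ U).trans_le hg)
        rw [Subgroup.comap_map_eq, Subgroup.comap_map_eq, QuotientGroup.ker_mk',
          sup_eq_left.mpr hNH] at h2
        exact le_sup_left.trans h2

end Cfsg.Agent.FGS
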