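import Mathlib
import Cfsg.Agent.Coprime.Conj

/-!
Coprime fixed-point-free actions of non-abelian groups of order `p * q`: fixed points in orbits and
cosets, and the orbit lemma.
-/

set_option linter.unusedSectionVars false
set_option linter.style.haveILetI false

namespace Cfsg.Agent.FGS.PQ

open Subgroup
open scoped Pointwise

section basic

variable {A T : Type*} [Group A] [Finite A] [Group T] [Finite T] [MulDistribMulAction A T]

/-- Glauberman's lemma for actions: an `A`-stable orbit of `T` contains an `A`-fixed point. -/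
theorem exists_fixed_of_transitive [Group.IsSolvable T] (hcop : (Nat.card T).Coprime (Nat.card A))
    {Ξ : Type*} [MulAction T Ξ] [MulAction A Ξ]
    (hcompat : ∀ (a : A) (t : T) (x : Ξ), a • (t • x) = (a • t) • (a • x))
    (x : Ξ) (hx : ∀ a : A, ∃ t : T, a • x = t • x) :
    ∃ t : T, ∀ a : A, a • (t • x) = t • x := by
  let Γ := T ⋊[MulDistribMulAction.toMulAut A T] A
  haveI : Finite Γ := Finite.of_equiv _ SemidirectProduct.equivProd.symm
  letI : MulAction Γ Ξ :=
    { smul := fun g y => g.left • (g.right • y)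
      one_smul := fun y => by
        show (1 : Γ).left • ((1 : Γ).right • y) = y
        rw [SemidirectProduct.one_left, SemidirectProduct.one_right, one_smul, one_smul]
      mul_smul := fun g h y => by
        show (g * h).left • ((g * h).right • y) = g.left • (g.right • (h.left • (h.right • y)))
        rw [SemidirectProduct.mul_left, SemidirectProduct.mul_right, mul_smul, mul_smul, hcompat]
        rfl }
  have hsl : ∀ (t : T) (y : Ξ), (SemidirectProduct.inl t : Γ) • y = t • y := fun t y => by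
    show t • ((1 : A) • y) = t • y
    rw [one_smul]
  have hsr : ∀ (a : A) (y : Ξ), (SemidirectProduct.inr a : Γ) • y = a • y := fun a y => by
    show (1 : T) • (a • y) = a • y
    rw [one_smul]
  set T' : Subgroup Γ := (SemidirectProduct.inl : T →* Γ).range with hT'
  set A' : Subgroup Γ := (SemidirectProduct.inr : A →* Γ).range with hA'
  haveI : T'.Normal := by rw [hT', SemidirectProduct.range_inl_eq_ker_rightHom]; infer_instance
  haveI : Group.IsSolvable T' := Group.isSolvable_of_surjective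
    (f := (SemidirectProduct.inl : T →* Γ).rangeRestrict) (MonoidHom.rangeRestrict_surjective _)
  have hcop' : (Nat.card A').Coprime (Nat.card T') := by
    rw [hA', hT', ← Nat.card_congr (MonoidHom.ofInjective SemidirectProduct.inr_injective).toEquiv,
      ← Nat.card_congr (MonoidHom.ofInjective SemidirectProduct.inl_injective).toEquiv]
    exact hcop.symm
  have htop : A' ⊔ T' = ⊤ := by
    refine eq_top_iff.2 fun g _ => ?_
    rw [← SemidirectProduct.inl_left_mul_inr_right g]
    exact mul_mem (mem_sup_right ⟨_, rfl⟩) (mem_sup_left ⟨_, rfl⟩)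
  set S := MulAction.stabilizer Γ x
  have hS : S ⊔ T' = A' ⊔ T' := by
    rw [htop, eq_top_iff, ← htop]
    refine sup_le ?_ le_sup_right
    rintro _ ⟨a, rfl⟩
    obtain ⟨t, ht⟩ := hx a
    have hmem : (SemidirectProduct.inl t : Γ)⁻¹ * SemidirectProduct.inr a ∈ S := by
      rw [MulAction.mem_stabilizer_iff, mul_smul, hsr, ht, ← hsl, inv_smul_smul]
    have := mul_mem (mem_sup_right (⟨t, rfl⟩ : (SemidirectProduct.inl t : Γ) ∈ T'))
      (mem_sup_left (T := T') hmem)
    rwa [mul_inv_cancel_left] at this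
  obtain ⟨g, ⟨t, rfl⟩, hgA⟩ := Cfsg.Agent.Coprime.exists_le_conj (A := A') (K := T') (S := S)
    le_normalizer_of_normal hcop' (Or.inr inferInstance) (htop ▸ le_top) hS
  refine ⟨t, fun a => ?_⟩
  have h1 := hgA (⟨a, rfl⟩ : (SemidirectProduct.inr a : Γ) ∈ A')
  rw [mem_pointwise_smul_iff_inv_smul_mem, MulAction.mem_stabilizer_iff, MulAut.smul_def,
    MulAut.conj_inv_apply, mul_smul, mul_smul, inv_smul_eq_iff, hsl, hsr] at h1
  exact h1

/-- a fixed coset of an invariant normal subgroup contains a fixed point -/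
theorem exists_fixed_coset (hcop : (Nat.card T).Coprime (Nat.card A)) [Group.IsSolvable T]
    (R : Subgroup T) [R.Normal] (hR : ∀ a : A, ∀ r ∈ R, a • r ∈ R) (g : T)
    (hg : ∀ a : A, g⁻¹ * a • g ∈ R) : ∃ c : T, (∀ a : A, a • c = c) ∧ g⁻¹ * c ∈ R := by
  letI : MulDistribMulAction A R :=
    { smul := fun a r => ⟨a • (r : T), hR a r r.2⟩
      one_smul := fun r => Subtype.ext (one_smul A (r : T))
      mul_smul := fun a b r => Subtype.ext (mul_smul a b (r : T))
      smul_one := fun a => Subtype.ext (smul_one a)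
      smul_mul := fun a r s => Subtype.ext (smul_mul' a (r : T) s) }
  haveI : Group.IsSolvable R := inferInstance
  obtain ⟨r, hr⟩ := exists_fixed_of_transitive (A := A) (T := R) (Ξ := T)
    (hcop.coprime_dvd_left (Subgroup.card_subgroup_dvd_card R)) (fun a r y => smul_mul' a (r : T) y) g
    (fun a => ⟨⟨a • g * g⁻¹, by
      have := (inferInstance : R.Normal).conj_mem _ (hg a) g
      rwa [← mul_assoc, mul_inv_cancel, one_mul] at this⟩, (inv_mul_cancel_right (a • g) g).symm⟩)
  refine ⟨r • g, hr, ?_⟩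
  show g⁻¹ * ((r : T) * g) ∈ R
  have := (inferInstance : R.Normal).conj_mem _ r.2 g⁻¹
  rwa [inv_inv, mul_assoc] at this

/-- if the differences under generators lie in a normal subgroup then it is invariant, and it is
everything as soon as `A` has no fixed points -/
theorem eq_top_of_diff (hcop : (Nat.card T).Coprime (Nat.card A)) [Group.IsSolvable T]
    (hfpf : ∀ g : T, (∀ a : A, a • g = g) → g = 1)
    (R : Subgroup T) [R.Normal] (S : Set A) (hS : Subgroup.closure S = ⊤) (g : T)
    (hd : ∀ a : A, ∀ r ∈ R, a • r ∈ R) (hg : ∀ a ∈ S, g⁻¹ * a • g ∈ R) : g ∈ R := by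
  have hall : ∀ a : A, g⁻¹ * a • g ∈ R := by
    intro a
    have ha : a ∈ Subgroup.closure S := hS ▸ Subgroup.mem_top a
    induction ha using Subgroup.closure_induction with
    | mem a ha => exact hg a ha
    | one => simp
    | mul a b _ _ iha ihb =>
      have := R.mul_mem iha (hd a _ ihb)
      rwa [smul_mul', smul_inv', mul_assoc, mul_inv_cancel_left, ← mul_smul] at this
    | inv a _ iha =>
      have := hd a⁻¹ _ (R.inv_mem iha)
      rwa [mul_inv_rev, inv_inv, smul_mul', smul_inv', inv_smul_smul] at this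
  obtain ⟨c, hc, hgc⟩ := exists_fixed_coset hcop R hd g hall
  rw [hfpf c hc, mul_one] at hgc
  exact inv_mem_iff.1 hgc

theorem smul_mem_of_diff (R : Subgroup T) (S : Set A) (hS : Subgroup.closure S = ⊤)
    (hd : ∀ a ∈ S, ∀ r ∈ R, a • r ∈ R) (a : A) : ∀ r ∈ R, a • r ∈ R := by
  have ha : a ∈ Submonoid.closure S := by
    rw [← Subgroup.closure_toSubmonoid_of_finite, Subgroup.mem_toSubmonoid, hS]
    exact Subgroup.mem_top a
  induction ha using Submonoid.closure_induction with
  | mem a ha => exact hd a ha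
  | one => intro r hr; rwa [one_smul]
  | mul a b _ _ iha ihb => intro r hr; rw [mul_smul]; exact iha _ (ihb r hr)

end basic

/-- An automorphism of prime order fixing only the identity of `H`, compatible with an automorphism
of a coprime abelian group fixing only the identity: `H` acts trivially. -/
theorem trivial_of_fpf {H W : Type*} [Group H] [Finite H] [CommGroup W] {p : ℕ} [hp : Fact p.Prime]
    (θ : H →* MulAut W) (φ : MulAut H) (ψ : MulAut W) (hφ : φ ^ p = 1) (hψ : ψ ^ p = 1)
    (hcompat : ∀ h w, ψ (θ h w) = θ (φ h) (ψ w)) (hfH : ∀ h, φ h = h → h = 1)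
    (hfW : ∀ w, ψ w = w → w = 1) {m : ℕ} (hm : ∀ w : W, w ^ m = 1) (hcop : (Nat.card H).Coprime m) :
    θ = 1 := by
  classical
  haveI : Fintype H := Fintype.ofFinite H
  have hnorm : ∀ w, ∏ i ∈ Finset.range p, (ψ ^ i) w = 1 := by
    intro w
    refine hfW _ ?_
    rw [map_prod]
    have e := Finset.prod_range_succ (fun i => (ψ ^ i) w) p
    rw [Finset.prod_range_succ', hψ, pow_zero] at e
    have e' := mul_right_cancel e
    rw [← e']
    exact Finset.prod_congr rfl fun i _ => by rw [pow_succ', MulAut.mul_apply]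
  have hci : ∀ (i : ℕ) h w, (ψ ^ i) (θ h w) = θ ((φ ^ i) h) ((ψ ^ i) w) := by
    intro i
    induction i with
    | zero => intro h w; rfl
    | succ i ih => intro h w; simp only [pow_succ', MulAut.mul_apply, ih, hcompat]
  have hbij : ∀ i ∈ Finset.range p, i ≠ 0 → Function.Bijective fun h : H => h * (φ ^ i) h⁻¹ := by
    intro i hi hi0
    refine Finite.injective_iff_bijective.1 fun a b hab => ?_
    have h1 : (φ ^ i) (b⁻¹ * a) = b⁻¹ * a := by
      simp only [map_inv] at hab
      rw [map_mul, map_inv]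
      calc ((φ ^ i) b)⁻¹ * (φ ^ i) a = b⁻¹ * (b * ((φ ^ i) b)⁻¹) * (φ ^ i) a := by group
        _ = b⁻¹ * (a * ((φ ^ i) a)⁻¹) * (φ ^ i) a := by rw [hab]
        _ = b⁻¹ * a := by group
    have hcopi : Nat.Coprime i p := ((hp.out.coprime_iff_not_dvd).2 fun hd =>
      absurd (Nat.le_of_dvd (Nat.pos_of_ne_zero hi0) hd) (not_le.2 (Finset.mem_range.1 hi))).symm
    obtain ⟨c, hc⟩ := Nat.exists_mul_mod_eq_one_of_coprime hcopi hp.out.one_lt
    have e : φ = (φ ^ i) ^ c := by
      rw [← pow_mul, ← Nat.div_add_mod (i * c) p, pow_add, pow_mul, hφ, one_pow, one_mul, hc.2, pow_one]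
    have h2 : φ (b⁻¹ * a) = b⁻¹ * a := by
      rw [e]
      clear hc e
      induction c with
      | zero => simp
      | succ c ih => rw [pow_succ, MulAut.mul_apply, h1, ih]
    exact (inv_mul_eq_one.1 (hfH _ h2)).symm
  refine MonoidHom.ext fun g => MulEquiv.ext fun w => ?_
  show θ g w = w
  let N : W → W := fun u => ∏ h : H, θ h u
  have hN : ∀ u, θ g (N u) = N u := fun u => by
    simp only [N, map_prod]
    exact Fintype.prod_equiv (Equiv.mulLeft g) _ _ fun h => by
      rw [Equiv.coe_mulLeft, map_mul, MulAut.mul_apply]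
  have h1 : ∀ h : H, ∏ i ∈ Finset.range p, θ (h * (φ ^ i) h⁻¹) ((ψ ^ i) w) = 1 := by
    intro h
    calc ∏ i ∈ Finset.range p, θ (h * (φ ^ i) h⁻¹) ((ψ ^ i) w)
        = θ h (∏ i ∈ Finset.range p, (ψ ^ i) (θ h⁻¹ w)) := by
          rw [map_prod]
          exact Finset.prod_congr rfl fun i _ => by rw [map_mul, MulAut.mul_apply, hci]
      _ = 1 := by rw [hnorm, map_one]
  have h2 : ∏ i ∈ Finset.range p, ∏ h : H, θ (h * (φ ^ i) h⁻¹) ((ψ ^ i) w) = 1 := by
    rw [Finset.prod_comm]; exact Finset.prod_eq_one fun h _ => h1 h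
  have h3 : ∏ i ∈ Finset.range p, N ((ψ ^ i) w) = 1 := by
    show ∏ i ∈ Finset.range p, ∏ h : H, θ h ((ψ ^ i) w) = 1
    rw [Finset.prod_comm]
    exact Finset.prod_eq_one fun h _ => by rw [← map_prod, hnorm, map_one]
  have h0 : 0 ∈ Finset.range p := Finset.mem_range.2 hp.out.pos
  rw [← Finset.mul_prod_erase _ _ h0] at h2 h3
  have e : ∀ i ∈ (Finset.range p).erase 0,
      ∏ h : H, θ (h * (φ ^ i) h⁻¹) ((ψ ^ i) w) = N ((ψ ^ i) w) := by
    intro i hi
    rw [Finset.mem_erase] at hi
    exact Fintype.prod_bijective _ (hbij i hi.2 hi.1) _ _ fun h => rfl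
  rw [Finset.prod_congr rfl e, ← h3] at h2
  have hw : N w = w ^ Nat.card H := by
    have := (mul_right_cancel h2).symm
    rw [pow_zero, MulAut.one_apply] at this
    rw [this, Nat.card_eq_fintype_card]
    simp [map_inv, ← map_mul]
  have h4 : θ g w ^ Nat.card H = w ^ Nat.card H := by rw [← map_pow, ← hw, hN, hw]
  have h5 : (θ g w / w) ^ Nat.card H = 1 := by rw [div_pow, h4, div_self']
  have h6 := pow_gcd_eq_one.2 ⟨h5, hm (θ g w / w)⟩
  rw [hcop, pow_one] at h6
  exact div_eq_one.1 h6

/-- `A` is non-abelian of order `p * q` with normal subgroup of order `q` generated by `γ`. -/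
structure IsPQ (A : Type*) [Group A] (p q : ℕ) (γ : A) : Prop where
  hp : p.Prime
  hq : q.Prime
  hne : p ≠ q
  card : Nat.card A = p * q
  order : orderOf γ = q
  normal : (zpowers γ).Normal
  nonab : ¬ IsMulCommutative A

section structurelemmas

variable {A : Type*} [Group A] [Finite A] {p q : ℕ} {γ : A}

theorem exists_isPQ {p q : ℕ} (hp : p.Prime) (hq : q.Prime) (hne : p ≠ q) (hA : Nat.card A = p * q)
    (hna : ¬ IsMulCommutative A) :
    ∃ (p' q' : ℕ) (γ : A), IsPQ A p' q' γ ∧ p' * q' = p * q ∧ p' < q' := by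
  wlog h : p < q generalizing p q with H
  · obtain ⟨p', q', γ, h1, h2⟩ := H hq hp hne.symm (by rw [hA, mul_comm]) (lt_of_le_of_ne (not_lt.1 h) hne.symm)
    exact ⟨p', q', γ, h1, by rw [h2.1, mul_comm], h2.2⟩
  haveI := Fact.mk hq
  obtain ⟨γ, hγ⟩ := exists_prime_orderOf_dvd_card' (G := A) q (hA ▸ dvd_mul_left q p)
  refine ⟨p, q, γ, ⟨hp, hq, hne, hA, hγ, ?_, hna⟩, rfl, h⟩
  have hidx : (zpowers γ).index = p := by
    have := (zpowers γ).index_mul_card
    rw [Nat.card_zpowers, hγ, hA] at this
    exact Nat.eq_of_mul_eq_mul_right hq.pos this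
  refine Subgroup.normal_of_index_eq_minFac_card ?_
  rw [hidx, hA]
  refine le_antisymm ?_ (Nat.minFac_le_of_dvd hp.two_le (dvd_mul_right p q))
  have hm := Nat.minFac_prime (n := p * q) (fun e => hp.one_lt.ne' (Nat.eq_one_of_dvd_one ⟨q, e.symm⟩))
  rcases hm.dvd_mul.1 (Nat.minFac_dvd (p * q)) with hd | hd
  · exact ((Nat.prime_dvd_prime_iff_eq hm hp).1 hd).ge
  · rw [(Nat.prime_dvd_prime_iff_eq hm hq).1 hd]; exact h.le

theorem IsPQ.sup_eq_top (h : IsPQ A p q γ) {a b : A} (ha : a ≠ 1) (hb : b ∉ zpowers a) :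
    Subgroup.closure ({a, b} : Set A) = ⊤ := by
  set C := Subgroup.closure ({a, b} : Set A) with hC
  have hle : zpowers a ≤ C := zpowers_le.2 (Subgroup.subset_closure (Set.mem_insert _ _))
  have hlt : zpowers a < C := lt_of_le_of_ne hle fun e =>
    hb (e ▸ Subgroup.subset_closure (Set.mem_insert_of_mem _ rfl))
  have h1 : orderOf a ∣ Nat.card C := by rw [← Nat.card_zpowers]; exact card_dvd_of_le hle
  have h2 : Nat.card C ∣ p * q := h.card ▸ card_subgroup_dvd_card C
  have h3 : orderOf a < Nat.card C := by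
    rw [← Nat.card_zpowers]
    exact lt_of_le_of_ne (Nat.le_of_dvd Nat.card_pos (card_dvd_of_le hle))
      fun e => hlt.ne (eq_of_le_of_card_ge hle e.ge)
  have h4 : orderOf a ≠ 1 := fun e => ha (orderOf_eq_one_iff.1 e)
  refine Subgroup.eq_top_of_card_eq C ?_
  rw [h.card]
  have hpos := orderOf_pos a
  obtain ⟨c, d, hc, hd, hcd⟩ := Nat.dvd_mul.1 h2
  rcases (Nat.dvd_prime h.hp).1 hc with rfl | rfl <;> rcases (Nat.dvd_prime h.hq).1 hd with rfl | rfl
  · omega
  · rw [one_mul] at hcd
    rw [← hcd] at h1 h3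
    rcases (Nat.dvd_prime h.hq).1 h1 with e | e <;> omega
  · rw [mul_one] at hcd
    rw [← hcd] at h1 h3
    rcases (Nat.dvd_prime h.hp).1 h1 with e | e <;> omega
  · exact hcd.symm

theorem IsPQ.gamma_ne (h : IsPQ A p q γ) : γ ≠ 1 := fun e => by
  have := h.order
  rw [e, orderOf_one] at this
  exact h.hq.one_lt.ne this

theorem IsPQ.orderOf_eq (h : IsPQ A p q γ) {a : A} (ha1 : a ≠ 1) (ha : a ∉ zpowers γ) : orderOf a = p := by
  have hdv : orderOf a ∣ p * q := h.card ▸ orderOf_dvd_natCard a
  obtain ⟨c, d, hc, hd, hcd⟩ := Nat.dvd_mul.1 hdv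
  rcases (Nat.dvd_prime h.hp).1 hc with rfl | rfl <;> rcases (Nat.dvd_prime h.hq).1 hd with rfl | rfl
  · exact absurd (orderOf_eq_one_iff.1 (by omega)) ha1
  · exfalso
    haveI := h.normal
    have ho : orderOf a = d := by rw [one_mul] at hcd; omega
    have h1 : orderOf (QuotientGroup.mk' (zpowers γ) a) ∣ d := ho ▸ orderOf_map_dvd _ a
    have h2 : orderOf (QuotientGroup.mk' (zpowers γ) a) ∣ p := by
      have h3 := (zpowers γ).index_mul_card
      rw [Nat.card_zpowers, h.order, h.card] at h3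
      rw [← Nat.eq_of_mul_eq_mul_right h.hq.pos h3]
      exact orderOf_dvd_natCard _
    exact ha ((QuotientGroup.eq_one_iff a).1 (orderOf_eq_one_iff.1
      (Nat.eq_one_of_dvd_coprimes ((Nat.coprime_primes h.hp h.hq).2 h.hne) h2 h1)))
  · rw [mul_one] at hcd; exact hcd.symm
  · exfalso
    apply h.nonab
    haveI : IsCyclic A := isCyclic_of_orderOf_eq_card a (hcd.symm.trans h.card.symm)
    exact IsCyclic.isMulCommutative

/-- elements of order `p` have `q` different conjugate subgroups -/
theorem IsPQ.conj_notMem (h : IsPQ A p q γ) {a : A} (ha1 : a ≠ 1) (ha : a ∉ zpowers γ) {i j : ℕ}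
    (hi : i < q) (hj : j < q) (hij : i ≠ j) :
    γ ^ j * a * (γ ^ j)⁻¹ ∉ zpowers (γ ^ i * a * (γ ^ i)⁻¹) := by
  intro hmem
  apply h.nonab
  set g := (γ ^ i)⁻¹ * γ ^ j with hg
  have hga : g * a * g⁻¹ ∈ zpowers a := by
    obtain ⟨n, hn⟩ := mem_zpowers_iff.1 hmem
    refine mem_zpowers_iff.2 ⟨n, ?_⟩
    rw [conj_zpow] at hn
    calc a ^ n = (γ ^ i)⁻¹ * (γ ^ i * a ^ n * (γ ^ i)⁻¹) * γ ^ i := by group
      _ = g * a * g⁻¹ := by rw [hn, hg]; group
  have hgz : g ∈ zpowers γ := mul_mem (inv_mem (npow_mem_zpowers γ i)) (npow_mem_zpowers γ j)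
  have hg1 : g ≠ 1 := by
    intro e
    rw [hg, inv_mul_eq_one] at e
    exact hij (pow_injOn_Iio_orderOf (by rw [h.order]; exact hi) (by rw [h.order]; exact hj) e)
  have hag : a ∉ zpowers g := fun hh => ha ((zpowers_le.2 hgz) hh)
  have hn : (zpowers a).Normal := by
    rw [← normalizer_eq_top_iff, eq_top_iff, ← h.sup_eq_top hg1 hag, Subgroup.closure_le]
    rintro x (rfl | rfl)
    · rw [SetLike.mem_coe, mem_normalizer_iff_map_conj_eq]
      refine eq_of_le_of_card_ge ?_ (by rw [card_map_of_injective (MulEquiv.injective _)])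
      rw [MonoidHom.map_zpowers]
      exact zpowers_le.2 hga
    · exact le_normalizer (mem_zpowers x)
  haveI := h.normal
  have hdis : zpowers γ ⊓ zpowers a = ⊥ := inf_eq_bot_of_coprime (by
    rw [Nat.card_zpowers, Nat.card_zpowers, h.order, h.orderOf_eq ha1 ha]
    exact (Nat.coprime_primes h.hq h.hp).2 h.hne.symm)
  have hcomm : Commute γ a := by
    have : γ * a * γ⁻¹ * a⁻¹ ∈ zpowers γ ⊓ zpowers a := by
      refine ⟨?_, ?_⟩
      · have := (zpowers γ).mul_mem (mem_zpowers γ) (h.normal.conj_mem _ (inv_mem (mem_zpowers γ)) a)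
        simpa [mul_assoc] using this
      · exact (zpowers a).mul_mem (hn.conj_mem _ (mem_zpowers a) γ) ((zpowers a).inv_mem (mem_zpowers a))
    rw [hdis, mem_bot, mul_inv_eq_one, mul_inv_eq_iff_eq_mul] at this
    exact this
  have htop := h.sup_eq_top h.gamma_ne ha
  refine ⟨⟨fun x y => ?_⟩⟩
  have hx : x ∈ Subgroup.closure ({γ, a} : Set A) := htop ▸ mem_top x
  have hy : y ∈ Subgroup.closure ({γ, a} : Set A) := htop ▸ mem_top y
  have hc : ∀ u ∈ ({γ, a} : Set A), ∀ v ∈ ({γ, a} : Set A), u * v = v * u := by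
    rintro u (rfl | rfl) v (rfl | rfl)
    exacts [rfl, hcomm.eq, hcomm.eq.symm, rfl]
  exact congrArg Subtype.val ((Subgroup.closureCommGroupOfComm hc).mul_comm ⟨x, hx⟩ ⟨y, hy⟩)

end structurelemmas

section orbit

variable {A T Ξ : Type*} [Group A] [Finite A] [Group T] [Finite T] [Group.IsSolvable T] [CommGroup Ξ]
  [MulDistribMulAction A T] [MulDistribMulAction A Ξ] [MulDistribMulAction T Ξ] {p q : ℕ} {γ : A}

variable (T) in
/-- the largest `T`-invariant subgroup fixed by `a` -/
def fixInv (a : A) : Subgroup Ξ where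
  carrier := {y | ∀ t : T, a • (t • y) = t • y}
  one_mem' t := by simp [smul_one]
  mul_mem' {x y} hx hy t := by rw [smul_mul', smul_mul', hx t, hy t]
  inv_mem' {x} hx t := by rw [smul_inv', smul_inv', hx t]

theorem mem_fixInv {a : A} {y : Ξ} : y ∈ fixInv T a ↔ ∀ t : T, a • (t • y) = t • y := Iff.rfl

theorem smul_mem_fixInv {a : A} {y : Ξ} (hy : y ∈ fixInv T a) (t : T) : t • y ∈ fixInv T a :=
  fun s => by rw [← mul_smul]; exact hy _

/-- the elements of `T` fixing `fixInv T a` pointwise -/
def fixKer (a : A) : Subgroup T :=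
  ⨅ y : fixInv T (Ξ := Ξ) a, MulAction.stabilizer T (y : Ξ)

theorem mem_fixKer {a : A} {t : T} : t ∈ fixKer (Ξ := Ξ) a ↔ ∀ y ∈ fixInv T (Ξ := Ξ) a, t • y = y := by
  simp [fixKer, Subgroup.mem_iInf]

instance (a : A) : (fixKer (T := T) (Ξ := Ξ) a).Normal := ⟨fun t ht g => by
  rw [mem_fixKer] at ht ⊢
  intro y hy
  rw [mul_smul, mul_smul, ht _ (smul_mem_fixInv hy g⁻¹), smul_inv_smul]⟩

variable (hcompat : ∀ (a : A) (t : T) (x : Ξ), a • (t • x) = (a • t) • (a • x))

include hcompat in
theorem diff_mem_fixKer (a : A) (t : T) : t⁻¹ * a • t ∈ fixKer (Ξ := Ξ) a := by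
  rw [mem_fixKer]
  intro y hy
  have h1 : (a • t) • y = t • y := by
    conv_lhs => rw [← show a • y = y by simpa using hy 1]
    rw [← hcompat, hy t]
  rw [mul_smul, h1, inv_smul_smul]

include hcompat in
theorem smul_mem_fixKer_of_commute {a b : A} (hab : ∀ y ∈ fixInv T (Ξ := Ξ) a, b⁻¹ • y ∈ fixInv T a) :
    ∀ r ∈ fixKer (T := T) (Ξ := Ξ) a, b • r ∈ fixKer (T := T) (Ξ := Ξ) a := by
  intro r hr
  rw [mem_fixKer] at hr ⊢
  intro y hy
  have h := hcompat b r (b⁻¹ • y)
  rw [hr _ (hab y hy), smul_inv_smul] at h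
  exact h.symm

include hcompat in
theorem smul_fixKer_sup {a b : A} : ∀ r ∈ (fixKer (T := T) (Ξ := Ξ) a ⊔ fixKer (T := T) (Ξ := Ξ) b),
    a • r ∈ (fixKer (T := T) (Ξ := Ξ) a ⊔ fixKer (T := T) (Ξ := Ξ) b) := by
  intro r hr
  have := mul_mem hr (mem_sup_left (T := fixKer (T := T) (Ξ := Ξ) b) (diff_mem_fixKer hcompat a r))
  rwa [mul_inv_cancel_left] at this

include hcompat in
/-- **The orbit lemma.** -/
theorem fix_of_stab (h : IsPQ A p q γ) (hcop : (Nat.card T).Coprime (p * q))
    (hfT : ∀ t : T, (∀ a : A, a • t = t) → t = 1) (hfΞ : ∀ x : Ξ, (∀ a : A, a • x = x) → x = 1)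
    {m : ℕ} (hm : ∀ x : Ξ, x ^ m = 1) (hcopm : (Nat.card T).Coprime m)
    (Λ : Set Ξ) (hΛ : ∀ t : T, ∀ x ∈ Λ, t • x ∈ Λ) (hstab : ∀ x ∈ Λ, ∃ a : A, a ≠ 1 ∧ a • x = x)
    (x : Ξ) (hxΛ : x ∈ Λ) (t : T) : t • x = x := by
  classical
  have hcopA : (Nat.card T).Coprime (Nat.card A) := h.card.symm ▸ hcop
  by_cases hx1 : x = 1
  · rw [hx1, smul_one]
  obtain ⟨a, ha1, hax⟩ := hstab x hxΛ
  -- `a` fixes the whole orbit
  have hxW : x ∈ fixInv T a := by
    intro s
    obtain ⟨b, hb1, hby⟩ := hstab _ (hΛ s x hxΛ)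
    by_cases hba : b ∈ zpowers a
    · have hab : a ∈ zpowers b := by
        obtain hz | hz : a ∈ zpowers b ∨ a ∉ zpowers b := em _
        · exact hz
        exfalso
        have := h.sup_eq_top hb1 hz
        have hle : Subgroup.closure ({b, a} : Set A) ≤ zpowers a := by
          rw [Subgroup.closure_le]
          rintro u (rfl | rfl)
          · exact hba
          · exact mem_zpowers u
        rw [this, top_le_iff] at hle
        have hcy : IsCyclic A := ⟨a, fun u => mem_zpowers_iff.1 (by rw [hle]; exact mem_top u)⟩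
        exact h.nonab IsCyclic.isMulCommutative
      exact (zpowers_le.2 (show b ∈ MulAction.stabilizer A (s • x) from hby)) hab
    · exfalso
      apply hx1
      let J : Subgroup A :=
        { carrier := {c | ∃ u : T, c • x = u • x}
          one_mem' := ⟨1, by rw [one_smul, one_smul]⟩
          mul_mem' := fun {c d} hc hd => by
            obtain ⟨u, hu⟩ := hc
            obtain ⟨v, hv⟩ := hd
            exact ⟨(c • v) * u, by rw [mul_smul, hv, hcompat, hu, mul_smul]⟩
          inv_mem' := fun {c} hc => by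
            obtain ⟨u, hu⟩ := hc
            refine ⟨c⁻¹ • u⁻¹, ?_⟩
            have h3 := hcompat c⁻¹ u⁻¹ (c • x)
            rw [inv_smul_smul, hu, inv_smul_smul] at h3
            exact h3 }
      have hJ : (⊤ : Subgroup A) ≤ J := by
        rw [← h.sup_eq_top ha1 hba, Subgroup.closure_le]
        rintro c (rfl | rfl)
        · exact ⟨1, by rw [hax, one_smul]⟩
        · refine ⟨(c • s)⁻¹ * s, ?_⟩
          have h1 := hcompat c s x
          rw [hby] at h1
          rw [mul_smul, eq_inv_smul_iff, ← h1]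
      obtain ⟨u, hu⟩ := exists_fixed_of_transitive hcopA hcompat x fun c => hJ (mem_top c)
      have := hfΞ _ hu
      rwa [smul_eq_iff_eq_inv_smul, smul_one] at this
  by_cases haN : a ∈ zpowers γ
  · -- the normal subgroup fixes the orbit
    have hN : zpowers a = zpowers γ := by
      refine eq_of_le_of_card_ge (zpowers_le.2 haN) ?_
      haveI := Fact.mk h.hq
      rw [Nat.card_zpowers, Nat.card_zpowers, h.order]
      have hd : orderOf a ∣ q := by rw [← h.order, ← Nat.card_zpowers γ]; exact Subgroup.orderOf_dvd_natCard _ haN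
      rcases (Nat.dvd_prime h.hq).1 hd with e | e
      · exact absurd (orderOf_eq_one_iff.1 e) ha1
      · exact e.ge
    haveI := h.normal
    obtain ⟨b, hb⟩ : ∃ b : A, b ∉ zpowers γ := by
      by_contra hc
      push Not at hc
      have := (zpowers γ).eq_top_iff'.2 hc
      haveI : IsCyclic A := ⟨γ, hc⟩
      exact h.nonab IsCyclic.isMulCommutative
    have hb1 : b ≠ 1 := fun e => hb (e ▸ one_mem _)
    have hcl : Subgroup.closure ({a, b} : Set A) = ⊤ := h.sup_eq_top ha1 (hN ▸ hb)
    have hWinv : ∀ (c : A), ∀ y ∈ fixInv T (Ξ := Ξ) a, c • y ∈ fixInv T a := by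
      intro c y hy s
      have hc : c⁻¹ * a * c ∈ zpowers a := by
        have := (hN ▸ h.normal : (zpowers a).Normal).conj_mem a (mem_zpowers a) c⁻¹
        rwa [inv_inv] at this
      have h1 : (c⁻¹ * a * c) • ((c⁻¹ • s) • y) = (c⁻¹ • s) • y :=
        (zpowers_le.2 (show a ∈ MulAction.stabilizer A ((c⁻¹ • s) • y) from hy _)) hc
      have h2 : s • c • y = c • ((c⁻¹ • s) • y) := by rw [hcompat, smul_inv_smul]
      rw [h2]
      conv_rhs => rw [← h1]
      simp only [← mul_smul]
      congr 1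
      group
    set M := fixKer (T := T) (Ξ := Ξ) a with hM
    have hMinv : ∀ c : A, ∀ r ∈ M, c • r ∈ M := fun c =>
      smul_mem_fixKer_of_commute hcompat (fun y hy => hWinv c⁻¹ y hy)
    let W := fixInv T (Ξ := Ξ) a
    let θ0 : T →* MulAut W :=
      { toFun := fun s =>
          { toFun := fun y => ⟨s • (y : Ξ), smul_mem_fixInv y.2 s⟩
            invFun := fun y => ⟨s⁻¹ • (y : Ξ), smul_mem_fixInv y.2 s⁻¹⟩
            left_inv := fun y => Subtype.ext (inv_smul_smul s (y : Ξ))
            right_inv := fun y => Subtype.ext (smul_inv_smul s (y : Ξ))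
            map_mul' := fun y z => Subtype.ext (smul_mul' s (y : Ξ) z) }
        map_one' := MulEquiv.ext fun y => Subtype.ext (one_smul T (y : Ξ))
        map_mul' := fun s u => MulEquiv.ext fun y => Subtype.ext (mul_smul s u (y : Ξ)) }
    let θ : T ⧸ M →* MulAut W := QuotientGroup.lift M θ0 fun s hs =>
      MulEquiv.ext fun y => Subtype.ext (mem_fixKer.1 hs y y.2)
    let φ : MulAut (T ⧸ M) := QuotientGroup.congr M M (MulDistribMulAction.toMulAut A T b)
      (eq_of_le_of_card_ge (by rintro _ ⟨r, hr, rfl⟩; exact hMinv b r hr)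
        (by rw [card_map_of_injective (MulEquiv.injective _)]))
    let ψ : MulAut W :=
      { toFun := fun y => ⟨b • (y : Ξ), hWinv b y y.2⟩
        invFun := fun y => ⟨b⁻¹ • (y : Ξ), hWinv b⁻¹ y y.2⟩
        left_inv := fun y => Subtype.ext (inv_smul_smul b (y : Ξ))
        right_inv := fun y => Subtype.ext (smul_inv_smul b (y : Ξ))
        map_mul' := fun y z => Subtype.ext (smul_mul' b (y : Ξ) z) }
    haveI := Fact.mk h.hp
    have hbp : b ^ p = 1 := h.orderOf_eq hb1 hb ▸ pow_orderOf_eq_one b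
    have hφn : ∀ (n : ℕ) (u : T), (φ ^ n) (QuotientGroup.mk u) = QuotientGroup.mk (b ^ n • u) := by
      intro n
      induction n with
      | zero => intro u; simp
      | succ n ih => intro u; rw [pow_succ', MulAut.mul_apply, ih, pow_succ', mul_smul]; rfl
    have hψn : ∀ (n : ℕ) (y : W), (((ψ ^ n) y : W) : Ξ) = b ^ n • (y : Ξ) := by
      intro n
      induction n with
      | zero => intro y; simp
      | succ n ih => intro y; rw [pow_succ', MulAut.mul_apply, pow_succ' b, mul_smul, ← ih]; rfl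
    have hθ : θ = 1 := by
      refine trivial_of_fpf (p := p) θ φ ψ ?_ ?_ ?_ ?_ ?_ (m := m)
        (fun y => Subtype.ext (by rw [SubmonoidClass.coe_pow]; exact hm y))
        (hcopm.coprime_dvd_left (card_quotient_dvd_card M))
      · refine MulEquiv.ext fun u => ?_
        obtain ⟨u, rfl⟩ := QuotientGroup.mk_surjective u
        rw [hφn, hbp, one_smul, MulAut.one_apply]
      · exact MulEquiv.ext fun y => Subtype.ext (by rw [hψn, hbp, one_smul, MulAut.one_apply])
      · intro u y
        obtain ⟨u, rfl⟩ := QuotientGroup.mk_surjective u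
        exact Subtype.ext (hcompat b u (y : Ξ))
      · intro u hu
        obtain ⟨u, rfl⟩ := QuotientGroup.mk_surjective u
        refine (QuotientGroup.eq_one_iff u).2 (eq_top_of_diff hcopA hfT M {a, b} hcl u hMinv ?_)
        rintro c (rfl | rfl)
        · exact diff_mem_fixKer hcompat c u
        · exact QuotientGroup.eq.1 hu.symm
      · intro y hy
        refine Subtype.ext (hfΞ _ fun c => ?_)
        have : (⊤ : Subgroup A) ≤ MulAction.stabilizer A (y : Ξ) := by
          rw [← hcl, Subgroup.closure_le]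
          rintro c (rfl | rfl)
          · simpa using y.2 1
          · exact congrArg Subtype.val hy
        exact this (mem_top c)
    exact congrArg (fun g : MulAut W => ((g ⟨x, hxW⟩ : W) : Ξ)) (DFunLike.congr_fun hθ (QuotientGroup.mk t))
  · -- a non-normal subgroup fixes the orbit
    set B : ℕ → A := fun i => γ ^ i * a * (γ ^ i)⁻¹ with hB
    have hB1 : ∀ i, B i ≠ 1 := fun i e => ha1 (by
      calc a = (γ ^ i)⁻¹ * B i * γ ^ i := by simp only [hB]; group
        _ = 1 := by rw [e, mul_one, inv_mul_cancel])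
    have hsup : ∀ i j, i < q → j < q → i ≠ j →
        fixKer (T := T) (Ξ := Ξ) (B i) ⊔ fixKer (T := T) (Ξ := Ξ) (B j) = ⊤ := by
      intro i j hi hj hij
      set R := fixKer (T := T) (Ξ := Ξ) (B i) ⊔ fixKer (T := T) (Ξ := Ξ) (B j) with hR
      have hcl : Subgroup.closure ({B i, B j} : Set A) = ⊤ :=
        h.sup_eq_top (hB1 i) (h.conj_notMem ha1 haN hi hj hij)
      refine eq_top_iff.2 fun s _ => ?_
      refine eq_top_of_diff hcopA hfT R {B i, B j} hcl s
        (smul_mem_of_diff R {B i, B j} hcl ?_) ?_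
      · rintro c (rfl | rfl)
        · exact smul_fixKer_sup hcompat
        · rw [hR, sup_comm]; exact smul_fixKer_sup hcompat
      · rintro c (rfl | rfl)
        · exact mem_sup_left (diff_mem_fixKer hcompat _ s)
        · exact mem_sup_right (diff_mem_fixKer hcompat _ s)
    have hkey : ∀ (I : Finset ℕ), (∀ i ∈ I, i < q) → ∀ w : ℕ → Ξ, (∀ i ∈ I, w i ∈ fixInv T (B i)) →
        ∏ i ∈ I, w i = 1 → ∀ i ∈ I, ∀ s : T, s • w i = w i := by
      intro I
      induction I using Finset.strongInduction with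
      | _ I ih =>
      intro hI w hw hprod i hi
      by_cases hall : ∀ j ∈ I, j = i
      · have hIi : I = {i} := Finset.eq_singleton_iff_unique_mem.2 ⟨hi, hall⟩
        rw [hIi, Finset.prod_singleton] at hprod
        intro s
        rw [hprod, smul_one]
      push Not at hall
      obtain ⟨j, hj, hji⟩ := hall
      have hker : ∀ s : T, (s ∈ fixKer (Ξ := Ξ) (B j) ∨ s ∈ fixKer (Ξ := Ξ) (B i)) → s • w i = w i := by
        rintro s (hs | hs)
        swap
        · exact mem_fixKer.1 hs _ (hw i hi)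
        have hw' : ∀ l ∈ I.erase j, s • w l * (w l)⁻¹ ∈ fixInv T (B l) := fun l hl =>
          mul_mem (smul_mem_fixInv (hw l (Finset.mem_of_mem_erase hl)) s)
            (inv_mem (hw l (Finset.mem_of_mem_erase hl)))
        have hp' : ∏ l ∈ I.erase j, s • w l * (w l)⁻¹ = 1 := by
          have h1 : ∏ l ∈ I, s • w l * (w l)⁻¹ = 1 := by
            rw [Finset.prod_mul_distrib, Finset.prod_inv_distrib, ← Finset.smul_prod', hprod, smul_one,
              inv_one, mul_one]
          rw [← Finset.mul_prod_erase _ _ hj, mem_fixKer.1 hs _ (hw j hj), mul_inv_cancel, one_mul] at h1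
          exact h1
        set d := s • w i * (w i)⁻¹ with hd
        have hds : ∀ u : T, u • d = d :=
          ih _ (Finset.erase_ssubset hj) (fun l hl => hI l (Finset.mem_of_mem_erase hl)) _ hw' hp' i
            (Finset.mem_erase.2 ⟨hji.symm, hi⟩)
        have hn : ∀ n : ℕ, s ^ n • w i = d ^ n * w i := by
          intro n
          induction n with
          | zero => simp
          | succ n ihn =>
            rw [pow_succ', mul_smul, ihn, smul_mul', smul_pow', hds, pow_succ, mul_assoc, hd,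
              inv_mul_cancel_right]
        have h1 := hn (Nat.card T)
        rw [pow_card_eq_one', one_smul, right_eq_mul] at h1
        have h2 := pow_gcd_eq_one.2 ⟨h1, hm d⟩
        rw [hcopm, pow_one, hd, mul_inv_eq_one] at h2
        exact h2
      intro s
      have hle : fixKer (T := T) (Ξ := Ξ) (B j) ⊔ fixKer (T := T) (Ξ := Ξ) (B i) ≤
          MulAction.stabilizer T (w i) :=
        sup_le (fun u hu => hker u (Or.inl hu)) (fun u hu => hker u (Or.inr hu))
      rw [hsup j i (hI j hj) (hI i hi) hji] at hle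
      exact hle (mem_top s)
    have hw : ∀ i ∈ Finset.range q, γ ^ i • x ∈ fixInv T (B i) := by
      intro i _ s
      have h1 : s • γ ^ i • x = γ ^ i • (((γ ^ i)⁻¹ • s) • x) := by rw [hcompat, smul_inv_smul]
      rw [h1]
      show (γ ^ i * a * (γ ^ i)⁻¹) • _ = _
      rw [mul_smul, mul_smul, inv_smul_smul, hxW]
    have hprod : ∏ i ∈ Finset.range q, γ ^ i • x = 1 := by
      set y := ∏ i ∈ Finset.range q, γ ^ i • x with hy
      refine hfΞ y fun c => ?_
      have hcyc : ∀ (g : A), γ ^ q = 1 → γ • y = y := by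
        intro g hgq
        rw [hy, Finset.smul_prod']
        have e := Finset.prod_range_succ (fun i => γ ^ i • x) q
        rw [Finset.prod_range_succ', hgq, pow_zero] at e
        have e' := mul_right_cancel e
        conv_rhs => rw [← e']
        exact Finset.prod_congr rfl fun i _ => by rw [← mul_smul, ← pow_succ']
      have hγy : γ • y = y := hcyc 1 (h.order ▸ pow_orderOf_eq_one γ)
      have hay : a • y = y := by
        haveI := h.normal
        obtain ⟨e, he⟩ : ∃ e : ℕ, a * γ * a⁻¹ = γ ^ e := by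
          have := h.normal.conj_mem γ (mem_zpowers γ) a
          obtain ⟨e, he⟩ := (isOfFinOrder_of_finite γ).mem_powers_iff_mem_zpowers.2 this
          exact ⟨e, he.symm⟩
        have hconj : ∀ i, a * γ ^ i = γ ^ (e * i) * a := by
          intro i
          rw [pow_mul, ← he, conj_pow, inv_mul_cancel_right]
        have hec : Nat.Coprime e q := by
          rw [Nat.coprime_comm, h.hq.coprime_iff_not_dvd]
          rintro ⟨d, rfl⟩
          rw [pow_mul, ← h.order, pow_orderOf_eq_one, one_pow, mul_inv_eq_one] at he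
          exact h.gamma_ne (mul_eq_left.1 he)
        rw [hy, Finset.smul_prod']
        haveI : NeZero q := ⟨h.hq.ne_zero⟩
        have hmod : ∀ i, γ ^ i = γ ^ (i % q) := fun i =>
          pow_eq_pow_mod i (h.order ▸ pow_orderOf_eq_one γ)
        refine Finset.prod_bij' (fun i _ => (e * i) % q) (fun j _ => ((e : ZMod q)⁻¹ * j).val) ?_ ?_ ?_ ?_ ?_
        · intro i _; exact Finset.mem_range.2 (Nat.mod_lt _ h.hq.pos)
        · intro j _; exact Finset.mem_range.2 (ZMod.val_lt _)
        · intro i hi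
          rw [ZMod.natCast_mod, Nat.cast_mul, ← mul_assoc, mul_comm ((e : ZMod q)⁻¹),
            ZMod.coe_mul_inv_eq_one e hec, one_mul, ZMod.val_natCast, Nat.mod_eq_of_lt (Finset.mem_range.1 hi)]
        · intro j hj
          have : ((e * ((e : ZMod q)⁻¹ * j).val : ℕ) : ZMod q) = (j : ZMod q) := by
            rw [Nat.cast_mul, ZMod.natCast_zmod_val, ← mul_assoc, ZMod.coe_mul_inv_eq_one e hec, one_mul]
          have h' := congrArg ZMod.val this
          rwa [ZMod.val_natCast, ZMod.val_natCast, Nat.mod_eq_of_lt (Finset.mem_range.1 hj)] at h'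
        · intro i _
          rw [← mul_smul, hconj, ← hmod, mul_smul, hax]
      have hst : (⊤ : Subgroup A) ≤ MulAction.stabilizer A y := by
        rw [← h.sup_eq_top ha1 (fun hh => ?_ : γ ∉ zpowers a), Subgroup.closure_le]
        · rintro c' (rfl | rfl)
          exacts [hay, hγy]
        · obtain ⟨n, hn⟩ := mem_zpowers_iff.1 hh
          have h1 : orderOf γ ∣ p := by
            rw [← h.orderOf_eq ha1 haN, ← Nat.card_zpowers a]
            exact Subgroup.orderOf_dvd_natCard _ hh
          rw [h.order] at h1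
          exact h.hne ((Nat.prime_dvd_prime_iff_eq h.hq h.hp).1 h1).symm
      exact hst (mem_top c)
    have := hkey _ (fun i hi => Finset.mem_range.1 hi) _ hw hprod 0 (Finset.mem_range.2 h.hq.pos) t
    rwa [pow_zero, one_smul] at this

end orbit

end Cfsg.Agent.FGS.PQ
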