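import Cfsg.Agent.OddChar.FixedPoint

/-!
The symplectic configuration of the exceptional case: an automorphism of Fermat prime order `p = 2^n + 1`
of an elementary abelian `2`-group with alternating non-degenerate pairing, together with an odd abelian
group of isometries without fixed points which it normalizes.
-/

set_option linter.unusedSectionVars false
set_option linter.style.haveILetI false

namespace Cfsg.Agent.FGS.PQ

open Subgroup

/-- a non-degenerate alternating pairing on a finite abelian group of exponent `2` -/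
structure IsSympl {E k : Type*} [CommGroup E] [Field k] (c : E → E → k) : Prop where
  mul_left : ∀ x y z, c (x * y) z = c x z * c y z
  mul_right : ∀ x y z, c x (y * z) = c x y * c x z
  self : ∀ x, c x x = 1
  nondeg : ∀ x, x ≠ 1 → ∃ y, c x y ≠ 1

section sympl

variable {E k : Type*} [CommGroup E] [Field k] {c : E → E → k}

theorem IsSympl.symm_mul (hc : IsSympl c) (x y : E) : c x y * c y x = 1 := by
  have h := hc.self (x * y)
  rwa [hc.mul_left, hc.mul_right, hc.mul_right, hc.self, hc.self, one_mul, mul_one] at h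

theorem IsSympl.one_left (hc : IsSympl c) (z : E) : c 1 z = 1 := by
  have h1 := hc.mul_left 1 1 z
  rw [one_mul] at h1
  have h2 : c 1 z ≠ 0 := left_ne_zero_of_mul_eq_one (hc.symm_mul 1 z)
  exact (mul_eq_left₀ h2).1 h1.symm

theorem IsSympl.one_right (hc : IsSympl c) (z : E) : c z 1 = 1 := by
  have := hc.symm_mul z 1
  rwa [hc.one_left, mul_one] at this

/-- the order is a square -/
theorem isSquare_card_of_sympl {k : Type*} [Field k] : ∀ (n : ℕ) (E : Type*) [CommGroup E] [Finite E]
    (c : E → E → k), Nat.card E = n → (∀ x : E, x ^ 2 = 1) → IsSympl c → IsSquare (Nat.card E) := by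
  intro n
  induction n using Nat.strong_induction_on with
  | _ n ih =>
  intro E _ _ c hn he hc
  classical
  rcases subsingleton_or_nontrivial E with h | h
  · exact ⟨1, by rw [Nat.card_of_subsingleton (1 : E)]⟩
  obtain ⟨u, hu⟩ := exists_ne (1 : E)
  obtain ⟨v, hv⟩ := hc.nondeg u hu
  have hsq : ∀ x y, c x y = 1 ∨ c x y = -1 := fun x y => by
    have h2 : c x y * c x y = 1 := by
      rw [← hc.mul_right, ← sq, he, hc.one_right]
    exact mul_self_eq_one_iff.1 h2
  have hne : (-1 : k) ≠ 1 := fun e => hv (by rcases hsq u v with h1 | h1 <;> simp [h1, e])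
  have huv : c u v = -1 := (hsq u v).resolve_left hv
  have hvu : c v u = -1 := (hsq v u).resolve_left fun e => hv (by
    have := hc.symm_mul u v; rwa [e, mul_one] at this)
  let f : E →* k × k :=
    { toFun := fun x => (c x u, c x v)
      map_one' := by simp [hc.one_left, Prod.one_eq_mk]
      map_mul' := fun x y => by simp [hc.mul_left] }
  set K := f.ker with hK
  have hKmem : ∀ x, x ∈ K ↔ c x u = 1 ∧ c x v = 1 := fun x => by
    rw [hK, MonoidHom.mem_ker, Prod.ext_iff]; exact Iff.rfl
  have hrange : (MonoidHom.mrange f : Set (k × k)) = {((1 : k), (1 : k)), (1, -1), (-1, 1), (-1, -1)} := by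
    ext z
    simp only [Set.mem_insert_iff, Set.mem_singleton_iff]
    constructor
    · rintro ⟨x, rfl⟩
      show (c x u, c x v) = _ ∨ _
      rcases hsq x u with h1 | h1 <;> rcases hsq x v with h2 | h2 <;> simp [f, h1, h2]
    · rintro (rfl | rfl | rfl | rfl)
      · exact ⟨1, map_one f⟩
      · exact ⟨u, by show (c u u, c u v) = _; rw [hc.self, huv]⟩
      · exact ⟨v, by show (c v u, c v v) = _; rw [hc.self, hvu]⟩
      · exact ⟨u * v, by show (c (u * v) u, c (u * v) v) = _; simp [hc.mul_left, hc.self, huv, hvu]⟩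
  have hidx : K.index = 4 := by
    have e : E ⧸ K ≃ (MonoidHom.mrange f : Set (k × k)) :=
      Equiv.ofBijective (fun z => ⟨QuotientGroup.lift K f (fun x hx => hx) z, by
        obtain ⟨x, rfl⟩ := QuotientGroup.mk_surjective z; exact ⟨x, rfl⟩⟩) ⟨fun a b hab => by
          obtain ⟨a, rfl⟩ := QuotientGroup.mk_surjective a
          obtain ⟨b, rfl⟩ := QuotientGroup.mk_surjective b
          have e1 : f a = f b := congrArg Subtype.val hab
          refine QuotientGroup.eq.2 ?_
          show f (a⁻¹ * b) = 1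
          rw [map_mul, ← e1, ← map_mul, inv_mul_cancel, map_one],
        fun ⟨z, x, hx⟩ => ⟨QuotientGroup.mk x, Subtype.ext hx⟩⟩
    show Nat.card (E ⧸ K) = 4
    rw [Nat.card_congr e, hrange, Nat.card_coe_set_eq]
    simp [Set.ncard_insert_of_notMem, Prod.ext_iff, hne, hne.symm]
  have hcard : Nat.card E = 4 * Nat.card K := by rw [← K.index_mul_card, hidx]
  have hpos : 0 < Nat.card K := Nat.card_pos
  obtain ⟨m, hm⟩ := ih (Nat.card K) (by omega) K (fun x y : K => c (x : E) y) rfl
    (fun x => Subtype.ext (by rw [SubmonoidClass.coe_pow]; exact he x))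
    ⟨fun x y z => hc.mul_left _ _ _, fun x y z => hc.mul_right _ _ _, fun x => hc.self _, fun x hx => by
      obtain ⟨y, hy⟩ := hc.nondeg x (fun e => hx (Subtype.ext e))
      obtain ⟨h1, h2⟩ := (hKmem x).1 x.2
      -- correct `y` into the perpendicular
      set y' := y * (if c y u = 1 then 1 else v) * (if c y v = 1 then 1 else u) with hy'
      have hyK : y' ∈ K := by
        rw [hKmem, hy', hc.mul_left, hc.mul_left, hc.mul_left, hc.mul_left]
        constructor
        · rcases hsq y u with e | e <;> by_cases e2 : c y v = 1 <;>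
            simp [e, e2, hne, hne.symm, hc.one_left, hc.self, hvu]
        · rcases hsq y v with e | e <;> by_cases e2 : c y u = 1 <;>
            simp [e, e2, hne, hne.symm, hc.one_left, hc.self, huv]
      refine ⟨⟨y', hyK⟩, ?_⟩
      show c (x : E) y' ≠ 1
      rw [hy', hc.mul_right, hc.mul_right]
      split_ifs <;> simp [hc.one_right, h1, h2, hy]⟩
  exact ⟨2 * m, by rw [hcard, hm]; ring⟩

end sympl

/-- the map `x ↦ x⁻¹ β x` of an abelian group -/
def diffHom {E : Type*} [CommGroup E] (β : E →* E) : E →* E where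
  toFun x := x⁻¹ * β x
  map_one' := by simp
  map_mul' x y := by rw [map_mul, mul_inv]; exact mul_mul_mul_comm _ _ _ _

theorem diffHom_apply {E : Type*} [CommGroup E] (β : E →* E) (x : E) : diffHom β x = x⁻¹ * β x := rfl

/-- no non-trivial difference is fixed, for an endomorphism of period prime to the exponent -/
theorem eq_one_of_fixed_diff {E : Type*} [CommGroup E] (β : E →* E) {p m : ℕ} (hβ : ∀ x, β^[p] x = x)
    (hcop : Nat.Coprime m p) (x : E) (hm : (x⁻¹ * β x) ^ m = 1) (hfix : β (x⁻¹ * β x) = x⁻¹ * β x) :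
    x⁻¹ * β x = 1 := by
  have hi : ∀ i : ℕ, β^[i] x = x * (x⁻¹ * β x) ^ i := by
    intro i
    induction i with
    | zero => simp
    | succ i ih =>
      rw [Function.iterate_succ_apply', ih, map_mul, map_pow, hfix, pow_succ', ← mul_assoc x,
        mul_inv_cancel_left]
  have hp1 := hi p
  rw [hβ, left_eq_mul] at hp1
  have := pow_gcd_eq_one.2 ⟨hm, hp1⟩
  rwa [hcop, pow_one] at this

theorem iterate_eq_pow {E : Type*} [CommGroup E] (β : MulAut E) (i : ℕ) (x : E) :
    (β : E →* E)^[i] x = (β ^ i) x := by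
  induction i with
  | zero => rfl
  | succ i ih => rw [Function.iterate_succ_apply', ih, pow_succ', MulAut.mul_apply]; rfl

theorem card_ker_mul_card_range {E : Type*} [CommGroup E] [Finite E] (f : E →* E) :
    Nat.card f.ker * Nat.card f.range = Nat.card E := by
  rw [← Subgroup.index_ker, mul_comm, Subgroup.index_mul_card]

/-- the differences of an isometry of odd prime order form a non-degenerate subgroup -/
theorem IsSympl.diff_nondeg {E k : Type*} [CommGroup E] [Finite E] [Field k] {c : E → E → k}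
    (hc : IsSympl c) (he : ∀ x : E, x ^ 2 = 1) {p : ℕ} (hp2 : Nat.Coprime 2 p) (β : MulAut E)
    (hβp : β ^ p = 1) (hβc : ∀ x y, c (β x) (β y) = c x y) :
    (∀ d ∈ (diffHom (β : E →* E)).range, β d = d → d = 1) ∧
    ∀ d ∈ (diffHom (β : E →* E)).range, (∀ e ∈ (diffHom (β : E →* E)).range, c d e = 1) → d = 1 := by
  set D := (diffHom (β : E →* E)).range with hD
  have hiter : ∀ x, (β : E →* E)^[p] x = x := fun x => by rw [iterate_eq_pow, hβp]; rfl
  have hDfix : ∀ d ∈ D, β d = d → d = 1 := by
    rintro _ ⟨x, rfl⟩ hd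
    exact eq_one_of_fixed_diff (β : E →* E) hiter hp2 x (he _) hd
  refine ⟨hDfix, fun d hd hall => ?_⟩
  by_contra hne
  obtain ⟨y, hy⟩ := hc.nondeg d hne
  have hinf : (diffHom (β : E →* E)).ker ⊓ D = ⊥ := by
    rw [eq_bot_iff]
    rintro z ⟨hz1, hz2⟩
    exact hDfix z hz2 (inv_mul_eq_one.1 hz1).symm
  have hsup : (diffHom (β : E →* E)).ker ⊔ D = ⊤ := by
    refine Subgroup.eq_top_of_card_eq _ ?_
    rw [← card_ker_mul_card_range (diffHom (β : E →* E))]
    exact Cfsg.Agent.Coprime.card_sup_of_disjoint le_normalizer_of_normal hinf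
  have hy' : y ∈ (diffHom (β : E →* E)).ker ⊔ D := hsup ▸ mem_top y
  rw [Subgroup.mem_sup] at hy'
  obtain ⟨z, hz, e, hee, rfl⟩ := hy'
  rw [hc.mul_right, hall e hee, mul_one] at hy
  obtain ⟨x, rfl⟩ := hd
  have hzfix : β z = z := (inv_mul_eq_one.1 hz).symm
  apply hy
  rw [diffHom_apply, hc.mul_left]
  show c x⁻¹ z * c (β x) z = 1
  nth_rw 2 [← hzfix]
  rw [hβc, ← hc.mul_left, inv_mul_cancel, hc.one_left]

/-- **The symplectic configuration is trivial.** -/
theorem trivial_of_sympl {E k : Type*} [CommGroup E] [Finite E] [Field k] {c : E → E → k}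
    (he : ∀ x : E, x ^ 2 = 1) (hc : IsSympl c) {p n : ℕ} (hp : p.Prime) (hpn : p = 2 ^ n + 1)
    (hn : 1 ≤ n) (β : MulAut E) (hβp : β ^ p = 1) (hβc : ∀ x y, c (β x) (β y) = c x y)
    (U : Subgroup (MulAut E)) [IsMulCommutative U] (hU2 : (Nat.card U).Coprime 2)
    (hUp : (Nat.card U).Coprime p) (hUc : ∀ u ∈ U, ∀ x y, c (u x) (u y) = c x y)
    (hβU : ∀ u ∈ U, β * u * β⁻¹ ∈ U) (hfix : ∀ x : E, (∀ u ∈ U, u x = x) → x = 1)
    (hbound : β ≠ 1 → Nat.card (diffHom (β : E →* E)).range = 2 ^ (2 * n)) : β = 1 := by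
  classical
  by_contra hβ1
  have hp2 : Nat.Coprime 2 p := by
    rw [Nat.prime_two.coprime_iff_not_dvd, hpn]
    rintro ⟨d, hd⟩
    obtain ⟨n', rfl⟩ : ∃ n', n = n' + 1 := ⟨n - 1, by omega⟩
    rw [pow_succ] at hd
    omega
  set D := (diffHom (β : E →* E)).range with hD
  have hDcard := hbound hβ1
  obtain ⟨hDfix, hDnd⟩ : (∀ d ∈ D, β d = d → d = 1) ∧ ∀ d ∈ D, (∀ e ∈ D, c d e = 1) → d = 1 :=
    hc.diff_nondeg he hp2 β hβp hβc
  have hiter : ∀ x, (β : E →* E)^[p] x = x := fun x => by rw [iterate_eq_pow, hβp]; rfl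
  by_cases hcomm : ∀ u ∈ U, β * u = u * β
  · -- isometries commuting with `β` are trivial on `D`
    have hDinv : ∀ d ∈ D, β d ∈ D := by
      rintro _ ⟨x, rfl⟩
      exact ⟨β x, by simp [diffHom_apply]⟩
    -- the double centralizer with its adjoint property
    let DA := Additive D
    let β' : AddMonoid.End DA := MonoidHom.toAdditive
      (MonoidHom.mk' (fun d : D => (⟨β d, hDinv d d.2⟩ : D)) fun a b => Subtype.ext (map_mul β _ _))
    let cc : DA → DA → k := fun a b => c ((Additive.toMul a : D) : E) ((Additive.toMul b : D) : E)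
    have hadd : ∀ f : AddMonoid.End DA, f + f = 0 := fun f => AddMonoidHom.ext fun a => by
      show f a + f a = 0
      apply Additive.toMul.injective
      apply Subtype.ext
      show (((Additive.toMul (f a)) : D) : E) * (((Additive.toMul (f a)) : D) : E) = 1
      rw [← sq]; exact he _
    let P : AddMonoid.End DA → Prop := fun f => (∀ h, Commute h β' → Commute h f) ∧
      ∀ a b, cc (f a) b = cc a ((f ^ 2 ^ n) b)
    have hβ'pow : ∀ (i : ℕ) (a : DA),
        ((Additive.toMul ((β' ^ i) a) : D) : E) = (β ^ i) ((Additive.toMul a : D) : E) := by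
      intro i
      induction i with
      | zero => intro a; rfl
      | succ i ih => intro a; rw [pow_succ', pow_succ', MulAut.mul_apply, ← ih]; rfl
    have hPβ : P β' := ⟨fun h hh => hh, fun a b => by
      show c ((Additive.toMul (β' a) : D) : E) _ = c _ ((Additive.toMul ((β' ^ 2 ^ n) b) : D) : E)
      rw [hβ'pow]
      rw [show ((Additive.toMul (β' a) : D) : E) = β ((Additive.toMul a : D) : E) from rfl]
      conv_lhs => rw [show ((Additive.toMul b : D) : E) = β ((β ^ 2 ^ n) ((Additive.toMul b : D) : E)) from by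
        rw [← MulAut.mul_apply, ← pow_succ', ← hpn, hβp]; rfl]
      rw [hβc]⟩
    have hPadd : ∀ f g, P f → P g → P (f + g) := by
      rintro f g ⟨f1, f2⟩ ⟨g1, g2⟩
      refine ⟨fun h hh => (f1 h hh).add_right (g1 h hh), fun a b => ?_⟩
      have hfg : Commute f g := g1 f (f1 β' (Commute.refl _)).symm
      have hpw : ∀ i : ℕ, (f + g) ^ 2 ^ i = f ^ 2 ^ i + g ^ 2 ^ i := by
        intro i
        induction i with
        | zero => simp
        | succ i ih =>
          rw [pow_succ, pow_mul, ih, pow_mul, pow_mul, sq, sq, sq, add_mul, mul_add, mul_add,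
            ((hfg.pow_pow (2 ^ i) (2 ^ i)).eq)]
          have := hadd (g ^ 2 ^ i * f ^ 2 ^ i)
          rw [add_assoc, ← add_assoc (g ^ 2 ^ i * f ^ 2 ^ i), this, zero_add]
      rw [hpw]
      show c (((Additive.toMul (f a) * Additive.toMul (g a)) : D) : E) _ =
        c _ (((Additive.toMul ((f ^ 2 ^ n) b) * Additive.toMul ((g ^ 2 ^ n) b)) : D) : E)
      rw [Subgroup.coe_mul, Subgroup.coe_mul, hc.mul_left, hc.mul_right]
      exact congrArg₂ (· * ·) (f2 a b) (g2 a b)
    have hPmul : ∀ f g, P f → P g → P (f * g) := by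
      rintro f g ⟨f1, f2⟩ ⟨g1, g2⟩
      refine ⟨fun h hh => (f1 h hh).mul_right (g1 h hh), fun a b => ?_⟩
      have hfg : Commute f g := g1 f (f1 β' (Commute.refl _)).symm
      show cc (f (g a)) b = cc a (((f * g) ^ 2 ^ n) b)
      rw [f2, g2, hfg.mul_pow, (hfg.pow_pow (2 ^ n) (2 ^ n)).eq]
      rfl
    have hP1 : P 1 := ⟨fun h _ => Commute.one_right h, fun a b => by rw [one_pow]; rfl⟩
    have hP0 : P 0 := ⟨fun h _ => Commute.zero_right h, fun a b => by
      rw [zero_pow (pow_ne_zero n two_ne_zero)]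
      show c 1 _ = c _ 1
      rw [hc.one_left, hc.one_right]⟩
    -- `β` acts irreducibly on `D`
    haveI : Fact p.Prime := ⟨hp⟩
    have hirr : ∀ S : Subgroup E, S ≤ D → (∀ x ∈ S, β x ∈ S) → S ≠ ⊥ → S = D := by
      intro S hSD hSβ hS
      have hSi : ∀ (i : ℕ) x, x ∈ S → (β ^ i) x ∈ S := by
        intro i
        induction i with
        | zero => intro x hx; exact hx
        | succ i ih => intro x hx; rw [pow_succ', MulAut.mul_apply]; exact hSβ _ (ih x hx)
      let Z := zpowers β
      have hZS : ∀ z ∈ Z, ∀ x ∈ S, z x ∈ S := by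
        intro z hz
        obtain ⟨i, rfl⟩ := (isOfFinOrder_of_finite β).mem_powers_iff_mem_zpowers.2 hz
        exact hSi i
      letI : MulAction Z S :=
        { smul := fun z x => ⟨(z : MulAut E) x, hZS z z.2 x x.2⟩
          one_smul := fun x => Subtype.ext rfl
          mul_smul := fun z w x => Subtype.ext rfl }
      have hZp : IsPGroup p Z := IsPGroup.of_card (n := 1) (by
        rw [Nat.card_zpowers, pow_one, orderOf_eq_prime hβp hβ1])
      have hmod := hZp.card_modEq_card_fixedPoints S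
      have hfx : Nat.card (MulAction.fixedPoints Z S) = 1 := by
        rw [Nat.card_eq_one_iff_exists]
        refine ⟨⟨1, fun z => Subtype.ext (map_one (z : MulAut E))⟩, fun x => Subtype.ext (Subtype.ext ?_)⟩
        exact hDfix _ (hSD (x : S).2) (congrArg Subtype.val (x.2 ⟨β, mem_zpowers β⟩))
      rw [hfx] at hmod
      obtain ⟨j, hj, hjS⟩ := (Nat.dvd_prime_pow Nat.prime_two).1 (hDcard ▸ card_dvd_of_le hSD)
      refine eq_of_le_of_card_ge hSD ?_
      rw [hDcard, hjS]
      refine Nat.pow_le_pow_right two_pos ?_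
      rw [hjS] at hmod
      by_contra hlt
      push Not at hlt
      have hj0 : j ≠ 0 := fun e => hS (S.eq_bot_of_card_eq (by rw [hjS, e, pow_zero]))
      have hd := (Nat.modEq_iff_dvd' Nat.one_le_two_pow).1 hmod.symm
      rcases le_or_gt j n with hjn | hjn
      · have h1 := Nat.le_of_dvd (by have := Nat.one_lt_two_pow hj0; omega) hd
        have := Nat.pow_le_pow_right two_pos hjn
        omega
      · obtain ⟨i, rfl⟩ : ∃ i, j = n + i := ⟨j - n, by omega⟩
        have h2 : p ∣ 2 ^ i + 1 := by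
          have e : 2 ^ (n + i) - 1 + (2 ^ i + 1) = 2 ^ i * p := by
            have := Nat.one_le_two_pow (n := n + i)
            have e2 : 2 ^ i * p = 2 ^ (n + i) + 2 ^ i := by rw [hpn, pow_add]; ring
            omega
          exact (Nat.dvd_add_right hd).1 (e ▸ dvd_mul_left p (2 ^ i))
        have h3 := Nat.le_of_dvd (by positivity) h2
        have h4 : 2 ^ i < 2 ^ n := Nat.pow_lt_pow_right one_lt_two (by omega)
        omega
    obtain ⟨d₀, hd₀, hd₀ne⟩ : ∃ d ∈ D, d ≠ 1 := by
      by_contra hc'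
      push Not at hc'
      have hb : D = ⊥ := eq_bot_iff.2 fun x hx => mem_bot.2 (hc' x hx)
      rw [hb, Subgroup.card_bot] at hDcard
      have := Nat.one_lt_two_pow (show 2 * n ≠ 0 by omega)
      omega
    let u₀ : DA := Additive.ofMul (⟨d₀, hd₀⟩ : D)
    let S : Subgroup E :=
      { carrier := {x | ∃ f, P f ∧ x = ((Additive.toMul (f u₀) : D) : E)}
        one_mem' := ⟨0, hP0, rfl⟩
        mul_mem' := by
          rintro x y ⟨f, hf, rfl⟩ ⟨g, hg, rfl⟩
          exact ⟨f + g, hPadd f g hf hg, rfl⟩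
        inv_mem' := by
          rintro x ⟨f, hf, rfl⟩
          exact ⟨f, hf, inv_eq_of_mul_eq_one_left (by rw [← sq]; exact he _)⟩ }
    have hST : S = D := hirr S (by rintro x ⟨f, -, rfl⟩; exact SetLike.coe_mem _)
      (by rintro x ⟨f, hf, rfl⟩; exact ⟨β' * f, hPmul β' f hPβ hf, rfl⟩)
      (fun hb => hd₀ne (by
        have : d₀ ∈ S := ⟨1, hP1, rfl⟩
        rwa [hb, mem_bot] at this))
    refine hd₀ne (hfix d₀ fun w hw => ?_)
    obtain ⟨⟨u, hu⟩, huw⟩ := (powCoprime hUp).surjective ⟨w, hw⟩
    have huw' : u ^ p = w := congrArg Subtype.val huw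
    have hu' : ∀ x ∈ D, u x ∈ D := by
      rintro _ ⟨x, rfl⟩
      refine ⟨u x, ?_⟩
      have h1 : β (u x) = u (β x) := DFunLike.congr_fun (hcomm u hu) x
      simp [diffHom_apply, h1]
    let g : AddMonoid.End DA := MonoidHom.toAdditive
      (MonoidHom.mk' (fun d : D => (⟨u d, hu' d d.2⟩ : D)) fun a b => Subtype.ext (map_mul u _ _))
    have hgβ : Commute g β' := AddMonoidHom.ext fun a => Additive.toMul.injective (Subtype.ext
      (DFunLike.congr_fun (hcomm u hu).symm ((Additive.toMul a : D) : E)))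
    have hgu : ((Additive.toMul (g u₀) : D) : E) ∈ S := by rw [hST]; exact SetLike.coe_mem _
    obtain ⟨f, hf, hfu⟩ := hgu
    have hgf : g = f := by
      refine AddMonoidHom.ext fun a => ?_
      have ha : ((Additive.toMul a : D) : E) ∈ S := by rw [hST]; exact SetLike.coe_mem _
      obtain ⟨h, hh, hha⟩ := ha
      have ea : a = h u₀ := Additive.toMul.injective (Subtype.ext hha)
      have eg : g u₀ = f u₀ := Additive.toMul.injective (Subtype.ext hfu)
      rw [ea]
      calc g (h u₀) = (g * h) u₀ := rfl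
        _ = (h * g) u₀ := by rw [(hh.1 g hgβ).eq]
        _ = h (g u₀) := rfl
        _ = h (f u₀) := by rw [eg]
        _ = (h * f) u₀ := rfl
        _ = (f * h) u₀ := by rw [(hf.1 h (hh.1 β' (Commute.refl _)).symm).eq]
        _ = f (h u₀) := rfl
    have hgpow : ∀ (i : ℕ) (a : DA), ((Additive.toMul ((g ^ i) a) : D) : E) = (u ^ i) ((Additive.toMul a : D) : E) := by
      intro i
      induction i with
      | zero => intro a; rfl
      | succ i ih => intro a; rw [pow_succ', pow_succ', MulAut.mul_apply, ← ih]; rfl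
    have hup : (u ^ p) d₀ = d₀ := by
      have h1 : ∀ b : D, c d₀ ((u ^ p) (b : E)) = c d₀ b := by
        intro b
        have h2 := hf.2 u₀ (g (Additive.ofMul b))
        rw [← hgf] at h2
        have h3 : ((Additive.toMul ((g ^ 2 ^ n) (g (Additive.ofMul b))) : D) : E) = (u ^ p) (b : E) := by
          rw [hgpow, hpn, pow_succ, MulAut.mul_apply]; rfl
        change c (u d₀) (u b) = c d₀ _ at h2
        rw [h3, hUc u hu] at h2
        exact h2.symm
      have hUD : ∀ i : ℕ, ∀ x ∈ D, (u ^ i) x ∈ D := by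
        intro i
        induction i with
        | zero => intro x hx; exact hx
        | succ i ih => intro x hx; rw [pow_succ', MulAut.mul_apply]; exact hu' _ (ih x hx)
      -- the isometry `u ^ p` fixes `d₀`
      have hUc' : ∀ (i : ℕ) x y, c ((u ^ i) x) ((u ^ i) y) = c x y := fun i => hUc _ (pow_mem hu i)
      have h4 : (u ^ p) d₀ * d₀⁻¹ = 1 := by
        refine hDnd _ (D.mul_mem (hUD p _ hd₀) (D.inv_mem hd₀)) fun e he' => ?_
        have hmap : D.map (u ^ p : MulAut E).toMonoidHom = D :=
          eq_of_le_of_card_ge (by rintro _ ⟨x, hx, rfl⟩; exact hUD p x hx)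
            (by rw [card_map_of_injective (MulEquiv.injective _)])
        rw [← hmap] at he'
        obtain ⟨b, hb, rfl⟩ := he'
        show c ((u ^ p) d₀ * d₀⁻¹) ((u ^ p) b) = 1
        rw [hc.mul_left, hUc', ← h1 ⟨b, hb⟩, ← hc.mul_left, mul_inv_cancel, hc.one_left]
      exact mul_inv_eq_one.1 h4
    rwa [huw'] at hup
  · -- the Frobenius group formula
    push Not at hcomm
    obtain ⟨u₀, hu₀, hu₀ne⟩ := hcomm
    let θ : U →* U := MonoidHom.mk' (fun u => ⟨β * u * β⁻¹, hβU u u.2⟩) fun a b => Subtype.ext (by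
      show β * ((a : MulAut E) * b) * β⁻¹ = β * a * β⁻¹ * (β * b * β⁻¹)
      group)
    letI : CommGroup U := { (inferInstance : Group U) with mul_comm := fun a b => IsMulCommutative.is_comm.comm a b }
    set U1 := (diffHom θ).range.map U.subtype with hU1
    have hθi : ∀ (i : ℕ) (u : U), ((θ^[i] u : U) : MulAut E) = β ^ i * u * (β ^ i)⁻¹ := by
      intro i
      induction i with
      | zero => intro u; simp
      | succ i ih =>
        intro u
        rw [Function.iterate_succ_apply', pow_succ']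
        show β * _ * β⁻¹ = _
        rw [ih]; group
    have hU1fix : ∀ u ∈ U1, β * u = u * β → u = 1 := by
      rintro _ ⟨_, ⟨x, rfl⟩, rfl⟩ hu
      refine congrArg Subtype.val (eq_one_of_fixed_diff θ (p := p) (m := Nat.card U) (fun u => Subtype.ext ?_) hUp x
        pow_card_eq_one' (Subtype.ext ?_))
      · rw [hθi, hβp, one_mul, inv_one, mul_one]
      · exact mul_inv_eq_iff_eq_mul.2 hu
    have hU1ne : U1 ≠ ⊥ := fun hb => hu₀ne (by
      have h1 : (((diffHom θ) ⟨u₀, hu₀⟩ : U) : MulAut E) ∈ U1 := ⟨_, ⟨_, rfl⟩, rfl⟩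
      rw [hb, mem_bot] at h1
      change u₀⁻¹ * (β * u₀ * β⁻¹) = 1 at h1
      rw [inv_mul_eq_one, eq_mul_inv_iff_mul_eq] at h1
      exact h1.symm)
    have hU1U : U1 ≤ U := map_subtype_le _
    have hU1n : ∀ u ∈ U1, β * u * β⁻¹ ∈ U1 := by
      rintro _ ⟨_, ⟨x, rfl⟩, rfl⟩
      refine ⟨_, ⟨θ x, rfl⟩, ?_⟩
      show ((θ x)⁻¹ * θ (θ x) : U).1 = (θ (x⁻¹ * θ x) : U).1
      rw [map_mul, map_inv]
    -- the subspace
    set F : Subgroup E := ⨆ u : U1, (diffHom (MulEquiv.toMonoidHom (u : MulAut E))).range with hF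
    haveI : Fintype U1 := Fintype.ofFinite U1
    let Nm : E →* E := ∏ u : U1, (MulEquiv.toMonoidHom (u : MulAut E))
    have hNm : ∀ x, Nm x = ∏ u : U1, (u : MulAut E) x := fun x => MonoidHom.finset_prod_apply _ _ x
    have hFker : F ≤ Nm.ker := by
      refine iSup_le fun u => ?_
      rintro _ ⟨x, rfl⟩
      rw [MonoidHom.mem_ker, diffHom_apply, map_mul, map_inv, inv_mul_eq_one, hNm, hNm]
      exact (Fintype.prod_equiv (Equiv.mulRight u) _ _ fun w => by
        rw [Equiv.coe_mulRight, Subgroup.coe_mul, MulAut.mul_apply]; rfl).symm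
    have hodd : Odd (Fintype.card U1) := by
      rw [Nat.odd_iff, ← Nat.two_dvd_ne_zero, ← Nat.card_eq_fintype_card]
      exact fun hd => absurd (Nat.eq_one_of_dvd_coprimes hU2 (hd.trans (card_dvd_of_le hU1U)) dvd_rfl) (by norm_num)
    have hFC : ∀ x ∈ F, (∀ u ∈ U1, u x = x) → x = 1 := by
      intro x hx hfx
      have h1 : Nm x = 1 := hFker hx
      rw [hNm, Finset.prod_congr rfl (fun (u : U1) _ => hfx (u : MulAut E) u.2), Finset.prod_const, Finset.card_univ] at h1
      obtain ⟨j, hj⟩ := hodd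
      rwa [hj, pow_succ, pow_mul, he, one_pow, one_mul] at h1
    have hFnd : ∀ x ∈ F, (∀ y ∈ F, c x y = 1) → x = 1 := by
      intro x hx hall
      refine hFC x hx fun u hu => ?_
      by_contra hne
      obtain ⟨y, hy⟩ := hc.nondeg (u x * x⁻¹) (fun e => hne (mul_inv_eq_one.1 e))
      apply hy
      have hmem : (diffHom (MulEquiv.toMonoidHom (u : MulAut E))) (u⁻¹ y) ∈ F :=
        le_iSup (fun u : U1 => (diffHom (MulEquiv.toMonoidHom (u : MulAut E))).range) ⟨u, hu⟩ ⟨_, rfl⟩
      have h1 := hall _ hmem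
      rw [diffHom_apply] at h1
      change c x ((u⁻¹ y)⁻¹ * u (u⁻¹ y)) = 1 at h1
      rw [MulAut.apply_inv_self, hc.mul_right] at h1
      have h2 : c x (u⁻¹ y) = c (u x) y := by
        rw [← hUc u (hU1U hu), MulAut.apply_inv_self]
      have h3 : c x ((u⁻¹ y)⁻¹) = c (u x) y := by
        rw [inv_eq_of_mul_eq_one_left (show u⁻¹ y * u⁻¹ y = 1 by rw [← sq]; exact he _), h2]
      rw [h3] at h1
      rw [hc.mul_left, inv_eq_of_mul_eq_one_left (show x * x = 1 by rw [← sq]; exact he _)]
      exact h1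
    obtain ⟨j, hjsq⟩ := isSquare_card_of_sympl _ F (fun x y : F => c (x : E) y) rfl
      (fun x => Subtype.ext (by rw [SubmonoidClass.coe_pow]; exact he x))
      ⟨fun x y z => hc.mul_left _ _ _, fun x y z => hc.mul_right _ _ _, fun x => hc.self _, fun x hx => by
        by_contra hall
        push Not at hall
        exact hx (Subtype.ext (hFnd x x.2 fun y hy => hall ⟨y, hy⟩))⟩
    have hFinv : ∀ g : MulAut E, (∀ u ∈ U1, g * u * g⁻¹ ∈ U1) → ∀ x ∈ F, g x ∈ F := by
      intro g hg
      have : F.map (g : MulAut E).toMonoidHom ≤ F := by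
        rw [hF, Subgroup.map_iSup]
        refine iSup_le fun u => ?_
        rintro _ ⟨_, ⟨x, rfl⟩, rfl⟩
        refine le_iSup (fun u : U1 => (diffHom (MulEquiv.toMonoidHom (u : MulAut E))).range) ⟨_, hg u u.2⟩ ⟨g x, ?_⟩
        simp [diffHom_apply]
      exact fun x hx => this ⟨x, hx, rfl⟩
    have hU1comm : ∀ v ∈ U1, ∀ u ∈ U1, v * u * v⁻¹ ∈ U1 := fun v hv u hu =>
      U1.mul_mem (U1.mul_mem hv hu) (U1.inv_mem hv)
    -- the ambient group
    let X := E ⋊[MonoidHom.id (MulAut E)] MulAut E
    haveI : Finite X := Finite.of_equiv _ SemidirectProduct.equivProd.symm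
    let inr' : MulAut E →* X := SemidirectProduct.inr
    let inl' : E →* X := SemidirectProduct.inl
    have hconj : ∀ (g : MulAut E) (x : E), inr' g * inl' x * (inr' g)⁻¹ = inl' (g x) := fun g x =>
      (by rw [← map_inv]; exact (SemidirectProduct.inl_aut (φ := MonoidHom.id (MulAut E)) g x).symm)
    set UX := U1.map inr'
    set BX := (zpowers β).map inr'
    set HX := F.map inl'
    have hinr : Function.Injective inr' := SemidirectProduct.inr_injective
    have hinl : Function.Injective inl' := SemidirectProduct.inl_injective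
    have hsupX : UX ⊔ BX ≤ inr'.range := sup_le (map_le_range _ _) (map_le_range _ _)
    have hnorm : ∀ g ∈ U1 ⊔ zpowers β, ∀ x ∈ F, g x ∈ F := by
      intro g hg
      rw [sup_eq_closure] at hg
      have hg' : g ∈ Submonoid.closure ((U1 : Set (MulAut E)) ∪ (zpowers β : Set (MulAut E))) := by
        rwa [← Subgroup.closure_toSubmonoid_of_finite, Subgroup.mem_toSubmonoid]
      clear hg
      induction hg' using Submonoid.closure_induction with
      | mem g hg =>
        rcases hg with hg | hg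
        · exact hFinv g (fun u hu => hU1comm g hg u hu)
        · obtain ⟨i, rfl⟩ := (isOfFinOrder_of_finite β).mem_powers_iff_mem_zpowers.2 hg
          show ∀ x ∈ F, (β ^ i) x ∈ F
          clear hg
          induction i with
          | zero => intro x hx; exact hx
          | succ i ih =>
            intro x hx
            rw [pow_succ', MulAut.mul_apply]
            exact hFinv β hU1n _ (ih x hx)
      | one => intro x hx; exact hx
      | mul a b _ _ iha ihb => intro x hx; exact iha _ (ihb x hx)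
    have hcopX : Nat.Coprime (Nat.card HX) (Nat.card ↥(UX ⊔ BX)) := by
      rw [show UX ⊔ BX = (U1 ⊔ zpowers β).map inr' from (Subgroup.map_sup _ _ _).symm,
        card_map_of_injective hinr, card_map_of_injective hinl, hjsq]
      obtain ⟨a, ha⟩ : ∃ a, Nat.card F = 2 ^ a := (IsPGroup.iff_card (p := 2)).1 (fun x => ⟨1, by
        rw [pow_one]; exact Subtype.ext (by rw [SubmonoidClass.coe_pow]; exact he x)⟩)
      rw [← hjsq, ha]
      refine Nat.Coprime.pow_left _ ?_
      have hnN : zpowers β ≤ normalizer (U1 : Set (MulAut E)) := zpowers_le.2 (by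
        rw [mem_normalizer_iff_map_conj_eq]
        exact eq_of_le_of_card_ge (by rintro _ ⟨u, hu, rfl⟩; exact hU1n u hu)
          (card_map_of_injective (K := U1) (MulAut.conj β).injective).ge)
      have hord : orderOf β = p := by haveI := Fact.mk hp; exact orderOf_eq_prime hβp hβ1
      rw [sup_comm, Cfsg.Agent.Coprime.card_sup_of_coprime hnN
        (by rw [Nat.card_zpowers, hord]; exact (hUp.coprime_dvd_left (card_dvd_of_le hU1U)).symm),
        Nat.card_zpowers, hord]
      exact Nat.Coprime.mul_right hp2 (hU2.coprime_dvd_left (card_dvd_of_le hU1U)).symm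
    have hfpf : ∀ e ∈ BX, e ≠ 1 → ∀ u ∈ UX, e * u = u * e → u = 1 := by
      rintro _ ⟨e, he', rfl⟩ hne _ ⟨u, hu, rfl⟩ hcm
      rw [← map_mul, ← map_mul] at hcm
      rw [hU1fix u hu ?_, map_one]
      have hz : β ∈ zpowers e := by
        have hord : orderOf β = p := by haveI := Fact.mk hp; exact orderOf_eq_prime hβp hβ1
        have h1 : orderOf e ∣ p := by
          rw [← hord, ← Nat.card_zpowers β]; exact Subgroup.orderOf_dvd_natCard _ he'
        rcases (Nat.dvd_prime hp).1 h1 with h1 | h1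
        · exact absurd (by rw [orderOf_eq_one_iff.1 h1, map_one]) hne
        · rw [eq_of_le_of_card_ge (zpowers_le.2 he') (by rw [Nat.card_zpowers, Nat.card_zpowers, h1, hord])]
          exact mem_zpowers β
      obtain ⟨i, rfl⟩ := mem_zpowers_iff.1 hz
      exact (show Commute e u from hinr hcm).zpow_left i
    have hUE : UX ⊓ BX = ⊥ := inf_eq_bot_of_coprime (by
      rw [card_map_of_injective hinr, card_map_of_injective hinr, Nat.card_zpowers]
      haveI := Fact.mk hp
      rw [orderOf_eq_prime hβp hβ1]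
      exact hUp.coprime_dvd_left (card_dvd_of_le hU1U))
    have hW := Cfsg.Agent.OddChar.FixedPoint.frobenius_fixed_of_normalized UX BX HX hUE ?_ hfpf ?_
      (Group.isSolvable_of_comm fun a b => ?_) hcopX
    · have hCU : HX ⊓ centralizer (UX : Set X) = ⊥ := by
        rw [eq_bot_iff]
        rintro _ ⟨⟨x, hx, rfl⟩, hxc⟩
        rw [mem_bot, hFC x hx fun u hu => ?_, map_one]
        have h1 := mem_centralizer_iff.1 hxc (inr' u) ⟨u, hu, rfl⟩
        apply hinl
        rw [← hconj, h1, mul_inv_cancel_right]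
      have hCUB : HX ⊓ centralizer ((UX ⊔ BX : Subgroup X) : Set X) = ⊥ :=
        eq_bot_iff.2 (hCU ▸ inf_le_inf_left _ (centralizer_le (SetLike.coe_subset_coe.2 le_sup_left)))
      rw [hCU, hCUB, card_bot, mul_one, one_pow, one_mul, card_map_of_injective hinl] at hW
      set f : F →* E := (diffHom (β : E →* E)).comp F.subtype with hf
      have hCB : HX ⊓ centralizer (BX : Set X) = (F ⊓ (diffHom (β : E →* E)).ker).map inl' := by
        ext z
        constructor
        · rintro ⟨⟨x, hx, rfl⟩, hxc⟩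
          have h1 := mem_centralizer_iff.1 hxc (inr' β) ⟨β, mem_zpowers β, rfl⟩
          refine ⟨x, ⟨hx, inv_mul_eq_one.2 (hinl ?_).symm⟩, rfl⟩
          show inl' (β x) = inl' x
          rw [← hconj, h1, mul_inv_cancel_right]
        · rintro ⟨x, ⟨hx, hxk⟩, rfl⟩
          refine ⟨⟨x, hx, rfl⟩, mem_centralizer_iff.2 ?_⟩
          rintro _ ⟨e, he', rfl⟩
          have hst : β ∈ MulAction.stabilizer (MulAut E) x := (inv_mul_eq_one.1 hxk).symm
          have h2 : e x = x := (zpowers_le.2 hst) he'
          exact mul_inv_eq_iff_eq_mul.1 ((hconj e x).trans (by rw [h2]))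
      have hker : Nat.card f.ker = Nat.card ↥(F ⊓ (diffHom (β : E →* E)).ker) := by
        rw [← card_map_of_injective (K := f.ker) F.subtype_injective]
        congr 2
        ext x
        exact ⟨fun ⟨y, hy, hyx⟩ => hyx ▸ ⟨y.2, hy⟩, fun ⟨h1, h2⟩ => ⟨⟨x, h1⟩, h2, rfl⟩⟩
      have hrange : f.range ≤ D := by rintro _ ⟨x, rfl⟩; exact ⟨x, rfl⟩
      have hmul : Nat.card f.ker * Nat.card f.range = Nat.card F := by
        rw [← Subgroup.index_ker, mul_comm, Subgroup.index_mul_card]
      have hBXcard : Nat.card BX = p := by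
        haveI := Fact.mk hp
        rw [card_map_of_injective hinr, Nat.card_zpowers, orderOf_eq_prime hβp hβ1]
      rw [hCB, card_map_of_injective hinl, hBXcard, ← hker] at hW
      obtain ⟨m, hm⟩ : ∃ m, Nat.card f.ker = 2 ^ m := by
        haveI : Fact (Nat.Prime 2) := ⟨Nat.prime_two⟩
        exact (IsPGroup.iff_card (p := 2)).1 (fun x => ⟨1, by
          rw [pow_one]; exact Subtype.ext (Subtype.ext (by simp [he]))⟩)
      obtain ⟨i, hi, hir⟩ := (Nat.dvd_prime_pow Nat.prime_two).1 (hDcard ▸ card_dvd_of_le hrange)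
      rw [hm, hir, hW, hm, ← pow_add, ← pow_mul] at hmul
      have hexp := Nat.pow_right_injective le_rfl hmul
      obtain ⟨a, ha⟩ : ∃ a, j = 2 ^ a := by
        obtain ⟨a, -, ha⟩ := (Nat.dvd_prime_pow Nat.prime_two).1
          (show j ∣ 2 ^ (m * p) by rw [pow_mul, ← hm, ← hW, hjsq]; exact dvd_mul_right j j)
        exact ⟨a, ha⟩
      have heven : 2 * a = m * p := Nat.pow_right_injective le_rfl (by
        show 2 ^ (2 * a) = 2 ^ (m * p)
        rw [pow_mul 2 m p, ← hm, ← hW, hjsq, two_mul, pow_add, ha])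
      have hm2 : 2 ∣ m := by
        rcases Nat.prime_two.dvd_mul.1 (Dvd.intro a heven : 2 ∣ m * p) with h | h
        · exact h
        · exact absurd h (Nat.prime_two.coprime_iff_not_dvd.1 hp2)
      have hm0 : m ≠ 0 := fun e => hU1ne (eq_bot_iff.2 fun u hu => mem_bot.2 (MulEquiv.ext fun x => by
        rw [hm, e, pow_zero, one_pow] at hW
        have hb : F = ⊥ := F.eq_bot_of_card_eq hW
        have h1 : diffHom (MulEquiv.toMonoidHom (u : MulAut E)) x ∈ F :=
          le_iSup (fun u : U1 => (diffHom (MulEquiv.toMonoidHom (u : MulAut E))).range) ⟨u, hu⟩ ⟨x, rfl⟩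
        rw [hb, mem_bot, diffHom_apply, inv_mul_eq_one] at h1
        exact h1.symm))
      have hle := Nat.le_of_dvd (Nat.pos_of_ne_zero hm0) hm2
      have hp1 : i = m * 2 ^ n := by rw [hpn] at hexp; linarith
      have h2n : n < 2 ^ n := Nat.lt_two_pow_self
      have : 2 * 2 ^ n ≤ m * 2 ^ n := Nat.mul_le_mul_right _ hle
      omega
    · rintro _ ⟨e, he', rfl⟩ _ ⟨u, hu, rfl⟩
      refine ⟨e * u * e⁻¹, ?_, by rw [map_mul, map_mul, map_inv]⟩
      obtain ⟨i, rfl⟩ := (isOfFinOrder_of_finite β).mem_powers_iff_mem_zpowers.2 he'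
      show β ^ i * u * (β ^ i)⁻¹ ∈ U1
      clear he'
      induction i with
      | zero => simpa using hu
      | succ i ih =>
        have := hU1n _ ih
        rw [pow_succ', mul_inv_rev]
        simpa [mul_assoc] using this
    · intro g hg
      rw [show UX ⊔ BX = (U1 ⊔ zpowers β).map inr' from (Subgroup.map_sup _ _ _).symm] at hg
      obtain ⟨g, hg, rfl⟩ := hg
      rintro _ ⟨x, hx, rfl⟩
      exact ⟨g x, hnorm g hg x hx, (hconj g x).symm⟩
    · obtain ⟨x, -, hx⟩ := a.2
      obtain ⟨y, -, hy⟩ := b.2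
      apply Subtype.ext
      show (a : X) * b = b * a
      rw [← hx, ← hy, ← map_mul, ← map_mul, mul_comm]

end Cfsg.Agent.FGS.PQ
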