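import Cfsg.Agent.FGS.PQKey

/-!
A finite solvable group with a coprime fixed-point-free action of a non-abelian group of order `p * q`:
every subgroup contained in all invariant normal subgroups with nilpotent quotient (with abelian
quotient, if `p = 2` and `q = 3`) is nilpotent.
-/

set_option linter.unusedSectionVars false
set_option linter.style.haveILetI false

namespace Cfsg.Agent.FGS.PQ

open Module Module.End Subgroup
open scoped Pointwise commutatorElement

/-- the action on the quotient by an invariant normal subgroup -/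
abbrev quotAction {A G : Type*} [Group A] [Group G] [MulDistribMulAction A G] (N : Subgroup G) [N.Normal]
    (hN : ∀ a : A, ∀ x ∈ N, a • x ∈ N) : MulDistribMulAction A (G ⧸ N) where
  smul a := QuotientGroup.map N N (MulDistribMulAction.toMonoidHom G a) fun x hx => hN a x hx
  one_smul x := by
    obtain ⟨x, rfl⟩ := QuotientGroup.mk_surjective x
    exact congrArg QuotientGroup.mk (one_smul A x)
  mul_smul a b x := by
    obtain ⟨x, rfl⟩ := QuotientGroup.mk_surjective x
    exact congrArg QuotientGroup.mk (mul_smul a b x)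
  smul_one a := map_one _
  smul_mul a x y := map_mul _ x y

/-- fixed-point-freeness passes to the quotient -/
theorem fpf_quot {A G : Type*} [Group A] [Finite A] [Group G] [Finite G] [Group.IsSolvable G]
    [MulDistribMulAction A G] (hcop : (Nat.card G).Coprime (Nat.card A))
    (hfG : ∀ x : G, (∀ a : A, a • x = x) → x = 1) (N : Subgroup G) [N.Normal]
    (hN : ∀ a : A, ∀ x ∈ N, a • x ∈ N) {g : G} (hg : ∀ a : A, g⁻¹ * a • g ∈ N) : g ∈ N := by
  obtain ⟨c, hc, hgc⟩ := exists_fixed_coset hcop N hN g hg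
  rw [hfG c hc, mul_one] at hgc
  exact inv_mem_iff.1 hgc

/-- `D` lies in every invariant normal subgroup with nilpotent (resp. abelian) quotient -/
def IsResidual (A : Type*) {G : Type*} [Group A] [Group G] [MulDistribMulAction A G] (p q : ℕ)
    (D : Subgroup G) : Prop :=
  ∀ N : Subgroup G, ∀ [N.Normal], (∀ a : A, ∀ x ∈ N, a • x ∈ N) → Group.IsNilpotent (G ⧸ N) →
    (p = 2 → q = 3 → ∀ x y : G, ⁅x, y⁆ ∈ N) → D ≤ N

universe u v w

theorem trivial_on_residual {k : Type u} [Field k] [IsAlgClosed k] {A G : Type*} [Group A] [Finite A]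
    [Group G] [Finite G] [Group.IsSolvable G] [MulDistribMulAction A G] {p q : ℕ} {γ : A}
    (h : IsPQ A p q γ) (hcop : (Nat.card G).Coprime (p * q))
    (hfG : ∀ x : G, (∀ a : A, a • x = x) → x = 1) (hpk : (p : k) ≠ 0) (hqk : (q : k) ≠ 0)
    {D : Subgroup G} (hD : IsResidual A p q D) :
    ∀ (n : ℕ) (V : Type v) [AddCommGroup V] [Module k V] [FiniteDimensional k V]
      (ρ : G →* End k V) (τ : A →* End k V), finrank k V = n → IsRep ρ τ →
      ∀ x ∈ D, (orderOf x : k) ≠ 0 → ρ x = 1 := by
  intro n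
  induction n using Nat.strong_induction_on with
  | _ n ih =>
  intro V _ _ _ ρ τ hn hR x hx hxk
  classical
  by_cases hirr : Irred₂ ρ τ
  · have hNinv : ∀ a : A, ∀ y ∈ ρ.ker, a • y ∈ ρ.ker := fun a y hy => by
      refine MonoidHom.mem_ker.2 (LinearMap.ext fun v => ?_)
      rw [← tau_inv' (τ := τ) a v, ← hR.apply, MonoidHom.mem_ker.1 hy, Module.End.one_apply,
        Module.End.one_apply]
    letI := quotAction (A := A) ρ.ker hNinv
    let ρq : G ⧸ ρ.ker →* End k V := QuotientGroup.lift ρ.ker ρ fun z hz => hz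
    have hdvd : Nat.card (G ⧸ ρ.ker) ∣ Nat.card G := Subgroup.card_quotient_dvd_card _
    haveI : Group.IsSolvable (G ⧸ ρ.ker) :=
      Group.isSolvable_of_surjective (f := QuotientGroup.mk' ρ.ker) (QuotientGroup.mk'_surjective _)
    have hcopA : (Nat.card G).Coprime (Nat.card A) := h.card.symm ▸ hcop
    obtain ⟨hnil, habl⟩ := nilpotent_of_faithful_any (G := G ⧸ ρ.ker) h (ρ := ρq) (τ := τ)
      (hcop.coprime_dvd_left hdvd)
      (fun y hy => by
        obtain ⟨y, rfl⟩ := QuotientGroup.mk_surjective y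
        exact (QuotientGroup.eq_one_iff y).2
          (fpf_quot hcopA hfG ρ.ker hNinv fun a => QuotientGroup.eq.1 (hy a).symm))
      ⟨fun a y => by obtain ⟨y, rfl⟩ := QuotientGroup.mk_surjective y; exact hR.compat a y, hR.fix⟩
      (fun W hW hτ => hirr W (fun y v hv => hW (QuotientGroup.mk y) v hv) hτ)
      (fun a b hab => by
        obtain ⟨a, rfl⟩ := QuotientGroup.mk_surjective a
        obtain ⟨b, rfl⟩ := QuotientGroup.mk_surjective b
        have e : ρ a = ρ b := hab
        refine QuotientGroup.eq.2 (MonoidHom.mem_ker.2 ?_)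
        rw [map_mul, ← e, ← map_mul, inv_mul_cancel, map_one])
      hpk hqk
    refine MonoidHom.mem_ker.1 (hD ρ.ker hNinv hnil (fun hp hq y z => ?_) hx)
    refine (QuotientGroup.eq_one_iff _).1 ?_
    show QuotientGroup.mk' ρ.ker ⁅y, z⁆ = 1
    rw [map_commutatorElement]
    exact commutatorElement_eq_one_iff_mul_comm.2 (habl hp hq _ _)
  · simp only [Irred₂, not_forall, not_or] at hirr
    obtain ⟨W, hW, hτW, hW0, hW1⟩ := hirr
    have hlt : finrank k W < n := hn ▸ Submodule.finrank_lt hW1
    have h1 := ih _ hlt W (HH.subRep ρ W hW) (HH.subRep τ W hτW) rfl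
      ⟨fun a y => LinearMap.ext fun v => Subtype.ext (hR.apply a y (v : V)),
        fun v hv => Subtype.ext (hR.fix v fun a => congrArg Subtype.val (hv a))⟩ x hx hxk
    haveI : Fintype A := Fintype.ofFinite A
    have h2 := ih _ (hn ▸ HH.finrank_lt_of_ne_bot hW0) (V ⧸ W) (HH.quotRep ρ W hW) (HH.quotRep τ W hτW) rfl
      ⟨fun a y => LinearMap.ext fun v => by
        obtain ⟨v, rfl⟩ := Submodule.mkQ_surjective W v
        exact congrArg W.mkQ (hR.apply a y v),
      fun v hv => by
        obtain ⟨v, rfl⟩ := Submodule.mkQ_surjective W v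
        have hu : ∑ a : A, τ a v = 0 := hR.fix _ fun b => by
          rw [map_sum]
          exact Fintype.sum_equiv (Equiv.mulLeft b) _ _ fun a => by
            rw [Equiv.coe_mulLeft, map_mul, Module.End.mul_apply]
        have h3 := congrArg W.mkQ hu
        rw [map_sum, map_zero, Finset.sum_congr rfl fun a _ => (show W.mkQ (τ a v) = W.mkQ v from hv a),
          Finset.sum_const, Finset.card_univ, ← Nat.card_eq_fintype_card, h.card,
          ← Nat.cast_smul_eq_nsmul k, Nat.cast_mul] at h3
        exact (smul_eq_zero_iff_right (mul_ne_zero hpk hqk)).1 h3⟩ x hx hxk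
    refine HH.eq_one_of_sub_quot (m := orderOf x) (by rw [← map_pow, pow_orderOf_eq_one, map_one]) hxk W
      (fun v hv => congrArg Subtype.val (LinearMap.congr_fun h1 ⟨v, hv⟩))
      (fun v => (Submodule.Quotient.eq W).1 (LinearMap.congr_fun h2 (Submodule.Quotient.mk v)))

/-- additive functions from an elementary abelian group to a field -/
def addFns (k : Type*) [Field k] (V : Type*) [Group V] : Submodule k (V → k) where
  carrier := {f | ∀ v w, f (v * w) = f v + f w}
  add_mem' {f g} hf hg v w := by simp only [Pi.add_apply, hf v w, hg v w]; ring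
  zero_mem' v w := by simp
  smul_mem' c f hf v w := by simp only [Pi.smul_apply, hf v w, smul_eq_mul]; ring

/-- precomposition with a family of automorphisms -/
def precomp (k : Type*) [Field k] {V : Type*} [Group V] {H : Type*} [Group H] (θ : H →* MulAut V) :
    H →* End k (addFns k V) where
  toFun h :=
    { toFun := fun f => ⟨fun v => (f : V → k) (θ h⁻¹ v), fun v w => by
        show (f : V → k) (θ h⁻¹ (v * w)) = _
        rw [map_mul]; exact f.2 _ _⟩
      map_add' := fun f g => rfl
      map_smul' := fun c f => rfl }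
  map_one' := LinearMap.ext fun f => Subtype.ext (funext fun v => by
    show (f : V → k) (θ (1 : H)⁻¹ v) = (f : V → k) v
    rw [inv_one, map_one, MulAut.one_apply])
  map_mul' a b := LinearMap.ext fun f => Subtype.ext (funext fun v => by
    show (f : V → k) (θ (a * b)⁻¹ v) = (f : V → k) (θ b⁻¹ (θ a⁻¹ v))
    rw [mul_inv_rev, map_mul, MulAut.mul_apply])

theorem precomp_apply {k : Type*} [Field k] {V : Type*} [Group V] {H : Type*} [Group H]
    (θ : H →* MulAut V) (h : H) (f : addFns k V) (v : V) :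
    ((precomp k θ h f : addFns k V) : V → k) v = (f : V → k) (θ h⁻¹ v) := rfl

theorem exists_hom_ne_zero {r : ℕ} [Fact r.Prime] {W : Type*} [AddCommGroup W] [Module (ZMod r) W]
    {v : W} (hv : v ≠ 0) : ∃ l : W →+ ZMod r, l v ≠ 0 := by
  by_contra hc
  push Not at hc
  exact hv ((Module.forall_dual_apply_eq_zero_iff (ZMod r) v).1 fun l => hc l.toAddMonoidHom)

/-- additive functions separate points -/
theorem exists_addFn_ne_zero {r : ℕ} [Fact r.Prime] {k : Type*} [Field k] [CharP k r] {V : Type*}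
    [CommGroup V] (hr : ∀ v : V, v ^ r = 1) {v : V} (hv : v ≠ 1) :
    ∃ f : addFns k V, (f : V → k) v ≠ 0 := by
  obtain ⟨l, hl⟩ := @exists_hom_ne_zero r _ (Additive V) _
    (AddCommGroup.zmodModule fun x => hr x.toMul) (Additive.ofMul v) (fun e => hv e)
  refine ⟨⟨fun w => ZMod.castHom dvd_rfl k (l (Additive.ofMul w)), fun a b => ?_⟩, fun e => hl ?_⟩
  · show ZMod.castHom dvd_rfl k (l (Additive.ofMul a + Additive.ofMul b)) = _
    rw [map_add, map_add]
  · exact (ZMod.castHom dvd_rfl k).injective (by rw [map_zero]; exact e)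

/-- **The group-theoretic theorem.** -/
theorem residual_isNilpotent {A : Type*} [Group A] [Finite A] {p q : ℕ} {γ : A} (h : IsPQ A p q γ) :
    ∀ (n : ℕ) (G : Type w) [Group G] [Finite G] [Group.IsSolvable G] [MulDistribMulAction A G],
      Nat.card G = n → (Nat.card G).Coprime (p * q) → (∀ x : G, (∀ a : A, a • x = x) → x = 1) →
      ∀ D : Subgroup G, D.Normal → (∀ a : A, ∀ x ∈ D, a • x ∈ D) → IsResidual A p q D →
        Group.IsNilpotent D := by
  intro n
  induction n using Nat.strong_induction_on with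
  | _ n ih =>
  intro G _ _ _ _ hn hcop hfG D hDn hDinv hD
  classical
  rcases subsingleton_or_nontrivial G with hG | hG
  · infer_instance
  have hcopA : (Nat.card G).Coprime (Nat.card A) := h.card.symm ▸ hcop
  obtain ⟨r, hr, hne⟩ := Cfsg.Agent.Cores.exists_pCore_ne_bot (G := G)
  haveI := Fact.mk hr
  set O := Cfsg.pCore r G
  have hOp : IsPGroup r O := Cfsg.Agent.Cores.pCore_isPGroup
  have hOinv : ∀ a : A, ∀ x ∈ O, a • x ∈ O := fun a x hx =>
    Subgroup.characteristic_iff_map_le.1 inferInstance (MulDistribMulAction.toMulAut A G a) ⟨x, hx, rfl⟩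
  haveI : Nontrivial O := (nontrivial_iff_ne_bot O).2 hne
  haveI := hOp.center_nontrivial
  set R := (center O).map O.subtype with hRdef
  have hRne : R ≠ ⊥ := by
    rw [hRdef, Ne, map_eq_bot_iff_of_injective _ O.subtype_injective]
    exact (nontrivial_iff_ne_bot _).1 inferInstance
  haveI : R.Normal := ConjAct.normal_of_characteristic_of_normal
  have hRinv : ∀ a : A, ∀ x ∈ R, a • x ∈ R := by
    rintro a _ ⟨x, hx, rfl⟩
    refine ⟨⟨a • (x : G), hOinv a x x.2⟩, mem_center_iff.2 fun s => Subtype.ext ?_, rfl⟩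
    have h2 := congrArg Subtype.val (mem_center_iff.1 hx ⟨a⁻¹ • (s : G), hOinv a⁻¹ s s.2⟩)
    have h3 := congrArg (fun y : G => a • y) h2
    simpa [smul_mul'] using h3
  have hRcomm : ∀ x ∈ R, ∀ y ∈ R, x * y = y * x := by
    rintro _ ⟨x, -, rfl⟩ _ ⟨y, hy, rfl⟩
    rw [← map_mul, ← map_mul, mem_center_iff.1 hy x]
  -- a minimal invariant normal subgroup
  let good : Subgroup G → Prop := fun V => V.Normal ∧ (∀ a : A, ∀ x ∈ V, a • x ∈ V) ∧ V ≠ ⊥ ∧ V ≤ R
  have hex : ∃ m, ∃ V, good V ∧ Nat.card V = m := ⟨_, R, ⟨inferInstance, hRinv, hRne, le_rfl⟩, rfl⟩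
  obtain ⟨V, ⟨hVn, hVinv, hVne, hVR⟩, hVc⟩ := Nat.find_spec hex
  haveI := hVn
  have hmin : ∀ V', good V' → V' ≤ V → V' = V := fun V' h1 h2 =>
    eq_of_le_of_card_ge h2 (hVc ▸ Nat.find_min' hex ⟨V', h1, rfl⟩)
  letI : CommGroup V :=
    { (inferInstance : Group V) with mul_comm := fun a b => Subtype.ext (hRcomm a (hVR a.2) b (hVR b.2)) }
  have hVp : IsPGroup r V := hOp.to_le (hVR.trans (map_subtype_le _))
  have hexp' : ∀ v : V, v ^ r = 1 := by
    let V' : Subgroup G :=
      { carrier := {x | x ∈ V ∧ x ^ r = 1}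
        one_mem' := ⟨V.one_mem, one_pow r⟩
        mul_mem' := fun {x y} hx hy => ⟨V.mul_mem hx.1 hy.1, by
          rw [(show Commute x y from hRcomm x (hVR hx.1) y (hVR hy.1)).mul_pow, hx.2, hy.2, one_mul]⟩
        inv_mem' := fun {x} hx => ⟨V.inv_mem hx.1, by rw [inv_pow, hx.2, inv_one]⟩ }
    have hV'ne : V' ≠ ⊥ := by
      haveI : Nontrivial V := (nontrivial_iff_ne_bot V).2 hVne
      obtain ⟨j, hj, hjc⟩ := hVp.nontrivial_iff_card.1 inferInstance
      obtain ⟨z, hz⟩ := exists_prime_orderOf_dvd_card' (G := V) r (hjc ▸ dvd_pow_self r hj.ne')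
      intro hb
      have hzr : (z : G) ∈ V' := ⟨z.2, by
        rw [← SubmonoidClass.coe_pow, ← hz, pow_orderOf_eq_one]; rfl⟩
      rw [hb, mem_bot] at hzr
      rw [show z = 1 from Subtype.ext hzr, orderOf_one] at hz
      exact hr.one_lt.ne hz
    have hV'eq : V' = V := hmin V' ⟨⟨fun x hx g => ⟨hVn.conj_mem x hx.1 g, by
        rw [conj_pow, hx.2, mul_one, mul_inv_cancel]⟩⟩,
      fun a x hx => ⟨hVinv a x hx.1, by rw [← smul_pow', hx.2, smul_one]⟩, hV'ne, fun x hx => hVR hx.1⟩
      fun x hx => hx.1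
    intro v
    have this : (v : G) ∈ V' := by rw [hV'eq]; exact v.2
    exact Subtype.ext (by rw [SubmonoidClass.coe_pow]; exact this.2)
  -- the linear action
  let k := AlgebraicClosure (ZMod r)
  haveI : CharP k r := charP_of_injective_algebraMap (algebraMap (ZMod r) k).injective r
  have hcast : ∀ m : ℕ, ¬ r ∣ m → (m : k) ≠ 0 := fun m hm e => hm ((CharP.cast_eq_zero_iff k r m).1 e)
  have hrG : r ∣ Nat.card G := by
    obtain ⟨j, hj, hjc⟩ := hOp.nontrivial_iff_card.1 inferInstance
    exact (hjc ▸ dvd_pow_self r hj.ne').trans (Subgroup.card_subgroup_dvd_card O)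
  have hrpq : ¬ r ∣ p * q := fun e => hr.one_lt.ne' (Nat.eq_one_of_dvd_coprimes hcop hrG e)
  have hpk : (p : k) ≠ 0 := hcast p fun e => hrpq (e.mul_right q)
  have hqk : (q : k) ≠ 0 := hcast q fun e => hrpq (e.mul_left p)
  let θG : G →* MulAut V := MulAut.conjNormal
  let θA : A →* MulAut V :=
    { toFun := fun a =>
        { toFun := fun v => ⟨a • (v : G), hVinv a v v.2⟩
          invFun := fun v => ⟨a⁻¹ • (v : G), hVinv a⁻¹ v v.2⟩
          left_inv := fun v => Subtype.ext (inv_smul_smul a (v : G))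
          right_inv := fun v => Subtype.ext (smul_inv_smul a (v : G))
          map_mul' := fun v w => Subtype.ext (smul_mul' a (v : G) w) }
      map_one' := MulEquiv.ext fun v => Subtype.ext (one_smul A (v : G))
      map_mul' := fun a b => MulEquiv.ext fun v => Subtype.ext (mul_smul a b (v : G)) }
  haveI : Fintype A := Fintype.ofFinite A
  haveI : FiniteDimensional k (addFns k V) := inferInstance
  have hrep : IsRep (precomp k θG) (precomp k θA) := by
    refine ⟨fun a x => LinearMap.ext fun f => Subtype.ext (funext fun v => ?_), fun f hf => Subtype.ext (funext fun v => ?_)⟩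
    · show (f : V → k) (θG x⁻¹ (θA a⁻¹ v)) = (f : V → k) (θA a⁻¹ (θG (a • x)⁻¹ v))
      refine congrArg (f : V → k) (Subtype.ext ?_)
      show x⁻¹ * (a⁻¹ • (v : G)) * x⁻¹⁻¹ = a⁻¹ • ((a • x)⁻¹ * (v : G) * (a • x)⁻¹⁻¹)
      simp [smul_mul', smul_inv']
    · let P : V := ∏ a : A, θA a⁻¹ v
      have hP : (P : G) = 1 := by
        refine hfG _ fun b => ?_
        show ((θA b P : V) : G) = (P : G)
        congr 1
        rw [map_prod]
        refine Fintype.prod_equiv ((Equiv.mulRight b⁻¹)) _ _ fun a => ?_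
        rw [Equiv.coe_mulRight, mul_inv_rev, inv_inv, map_mul, MulAut.mul_apply]
      let fm : V →* Multiplicative k := MonoidHom.mk' (fun w => Multiplicative.ofAdd ((f : V → k) w)) fun a b =>
        congrArg Multiplicative.ofAdd (f.2 a b)
      have h1 : fm P = ∏ _a : A, fm v := by
        rw [map_prod]
        refine Finset.prod_congr rfl fun a _ => ?_
        show Multiplicative.ofAdd ((f : V → k) (θA a⁻¹ v)) = Multiplicative.ofAdd ((f : V → k) v)
        exact congrArg (fun g : addFns k V => Multiplicative.ofAdd ((g : V → k) v)) (hf a)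
      rw [show P = 1 from Subtype.ext hP, map_one, Finset.prod_const, Finset.card_univ,
        ← Nat.card_eq_fintype_card, h.card] at h1
      have h2 := congrArg Multiplicative.toAdd h1
      rw [toAdd_one, toAdd_pow, ← Nat.cast_smul_eq_nsmul k, Nat.cast_mul] at h2
      exact (smul_eq_zero_iff_right (mul_ne_zero hpk hqk)).1 h2.symm
  have hfix : ∀ x ∈ D, ¬ r ∣ orderOf x → x ∈ centralizer (V : Set G) := by
    intro x hx hxr
    have h1 := trivial_on_residual h hcop hfG hpk hqk hD _ (addFns k V) (precomp k θG)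
      (precomp k θA) rfl hrep x hx (hcast _ hxr)
    refine mem_centralizer_iff.2 fun v hv => ?_
    by_contra hne'
    have h3 : (⟨x⁻¹ * v * x, by simpa using hVn.conj_mem v hv x⁻¹⟩ : V) * (⟨v, hv⟩ : V)⁻¹ ≠ 1 := by
      intro e
      rw [mul_inv_eq_one] at e
      apply hne'
      have e' : x⁻¹ * v * x = v := congrArg Subtype.val e
      calc v * x = x * (x⁻¹ * v * x) := by group
        _ = x * v := by rw [e']
    obtain ⟨f, hf⟩ := exists_addFn_ne_zero (k := k) hexp' h3
    refine hf ?_
    have h4 := congrArg (fun g : addFns k V => (g : V → k) ⟨v, hv⟩) (LinearMap.congr_fun h1 f)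
    simp only [Module.End.one_apply, precomp_apply] at h4
    have h5 : θG x⁻¹ ⟨v, hv⟩ = ⟨x⁻¹ * v * x, by simpa using hVn.conj_mem v hv x⁻¹⟩ :=
      Subtype.ext (by show x⁻¹ * v * x⁻¹⁻¹ = x⁻¹ * v * x; rw [inv_inv])
    rw [h5] at h4
    have h6 := f.2 (⟨x⁻¹ * v * x, by simpa using hVn.conj_mem v hv x⁻¹⟩ * (⟨v, hv⟩ : V)⁻¹) ⟨v, hv⟩
    rw [inv_mul_cancel_right, h4] at h6
    exact right_eq_add.1 h6
  have hcent : V ≤ centralizer (D : Set G) := by
    have hne2 := Cfsg.Agent.Modules.inf_centralizer_ne_bot_of_isPGroup hVp hVne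
      (A := D) le_normalizer_of_normal (fun d hd => by
        obtain ⟨e, m, hm, hdm⟩ := Nat.exists_eq_pow_mul_and_not_dvd (orderOf_pos d).ne' r hr.ne_one
        refine ⟨e, hfix _ (pow_mem hd _) ?_⟩
        rw [orderOf_pow, hdm, Nat.gcd_eq_right (dvd_mul_right _ _), Nat.mul_div_cancel_left _ (pow_pos hr.pos e)]
        exact hm)
    haveI := hDn
    have heq := hmin (V ⊓ centralizer (D : Set G)) ⟨inferInstance, fun a x hx => ⟨hVinv a x hx.1, by
        refine mem_centralizer_iff.2 fun d hd => ?_
        have h3 := congrArg (fun y : G => a • y) (mem_centralizer_iff.1 hx.2 (a⁻¹ • d) (hDinv a⁻¹ d hd))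
        simpa [smul_mul'] using h3⟩, hne2, inf_le_left.trans hVR⟩ inf_le_left
    exact heq ▸ inf_le_right
  -- the quotient
  letI := quotAction (A := A) V hVinv
  have hdvd : Nat.card (G ⧸ V) ∣ Nat.card G := Subgroup.card_quotient_dvd_card _
  haveI : Group.IsSolvable (G ⧸ V) :=
    Group.isSolvable_of_surjective (f := QuotientGroup.mk' V) (QuotientGroup.mk'_surjective _)
  have hlt : Nat.card (G ⧸ V) < n := by
    rw [← hn, Subgroup.card_eq_card_quotient_mul_card_subgroup V]
    exact lt_mul_of_one_lt_right Nat.card_pos (V.one_lt_card_iff_ne_bot.2 hVne)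
  have hnil : Group.IsNilpotent (D.map (QuotientGroup.mk' V)) := by
    refine ih _ hlt (G ⧸ V) rfl (hcop.coprime_dvd_left hdvd) (fun y hy => ?_) _
      (hDn.map _ (QuotientGroup.mk'_surjective V)) ?_ ?_
    · obtain ⟨y, rfl⟩ := QuotientGroup.mk_surjective y
      exact (QuotientGroup.eq_one_iff y).2 (fpf_quot hcopA hfG V hVinv fun a => QuotientGroup.eq.1 (hy a).symm)
    · rintro a _ ⟨x, hx, rfl⟩
      exact ⟨a • x, hDinv a x hx, rfl⟩
    · intro N _ hNinv hNnil hNab
      refine map_le_iff_le_comap.2 ?_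
      refine hD (N.comap (QuotientGroup.mk' V)) (fun a x hx => hNinv a _ hx) ?_ (fun hp hq x y => ?_)
      · let f : G →* (G ⧸ V) ⧸ N := (QuotientGroup.mk' N).comp (QuotientGroup.mk' V)
        have hf : Function.Surjective f :=
          (QuotientGroup.mk'_surjective N).comp (QuotientGroup.mk'_surjective V)
        have hk : f.ker = N.comap (QuotientGroup.mk' V) := by
          ext x; exact QuotientGroup.eq_one_iff _
        haveI := hNnil
        exact Group.nilpotent_of_mulEquiv
          ((QuotientGroup.quotientKerEquivOfSurjective f hf).symm.trans (QuotientGroup.quotientMulEquivOfEq hk))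
      · show QuotientGroup.mk' V ⁅x, y⁆ ∈ N
        rw [map_commutatorElement]
        exact hNab hp hq _ _
  haveI := hnil
  haveI : Group.IsNilpotent (⊤ : Subgroup (D.map (QuotientGroup.mk' V))) :=
    Group.nilpotent_of_mulEquiv Subgroup.topEquiv.symm
  refine Subgroup.isNilpotent_of_ker_le_center ((QuotientGroup.mk' V).subgroupMap D) ?_
  intro d hd
  have hdV : (d : G) ∈ V := (QuotientGroup.eq_one_iff _).1 (congrArg Subtype.val hd)
  exact mem_center_iff.2 fun e => Subtype.ext (mem_centralizer_iff.1 (hcent hdV) e e.2)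

end Cfsg.Agent.FGS.PQ
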