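import Cfsg.Agent.FGS.PQLinear
import Cfsg.Agent.FGS.PQExc
import Cfsg.Agent.Lib.WardMain
import Cfsg.Agent.PGroup.Frattini

/-!
Coprime invariant subgroups of a group with a fixed-point-free action of a non-abelian group of order
`p * q` on it and on a faithful module commute (the exceptional case included).
-/

set_option linter.unusedSectionVars false
set_option linter.style.haveILetI false

namespace Cfsg.Agent.FGS.PQ

open Module Module.End Subgroup
open scoped Pointwise commutatorElement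
open Cfsg.Agent.FGS.HH (NonExc)

universe u

variable {k : Type*} [Field k] [IsAlgClosed k] {V : Type*} [AddCommGroup V] [Module k V]
  [FiniteDimensional k V] {A : Type*} [Group A] [Finite A] {p q : ℕ} {γ : A}

/-- `p` divides `q - 1` -/
theorem IsPQ.dvd_sub_one (h : IsPQ A p q γ) : p ∣ q - 1 := by
  classical
  haveI := Fact.mk h.hq
  obtain ⟨b, hb⟩ : ∃ b : A, b ∉ zpowers γ := by
    by_contra hc
    push Not at hc
    haveI : IsCyclic A := ⟨γ, hc⟩
    exact h.nonab IsCyclic.isMulCommutative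
  have hb1 : b ≠ 1 := fun e => hb (e ▸ one_mem _)
  have hbp := h.orderOf_eq hb1 hb
  obtain ⟨e, he⟩ : ∃ e : ℕ, b * γ * b⁻¹ = γ ^ e := by
    obtain ⟨e, he⟩ := (isOfFinOrder_of_finite γ).mem_powers_iff_mem_zpowers.2
      (h.normal.conj_mem γ (mem_zpowers γ) b)
    exact ⟨e, he.symm⟩
  have hpow : ∀ i : ℕ, b ^ i * γ * (b ^ i)⁻¹ = γ ^ e ^ i := by
    intro i
    induction i with
    | zero => simp
    | succ i ih =>
      calc b ^ (i + 1) * γ * (b ^ (i + 1))⁻¹ = b * (b ^ i * γ * (b ^ i)⁻¹) * b⁻¹ := by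
            rw [pow_succ']; group
        _ = γ ^ e ^ (i + 1) := by rw [ih, ← conj_pow, he, ← pow_mul, pow_succ']
  have h1 := hpow p
  rw [show b ^ p = 1 from hbp ▸ pow_orderOf_eq_one b, one_mul, inv_one, mul_one] at h1
  nth_rw 1 [← pow_one γ] at h1
  rw [pow_eq_pow_iff_modEq, h.order, ← ZMod.natCast_eq_natCast_iff] at h1
  push_cast at h1
  have hne1 : (e : ZMod q) ≠ 1 := fun e1 => by
    apply h.nonab
    have hcm : Commute b γ := by
      have : γ ^ e = γ ^ 1 := by
        rw [pow_eq_pow_iff_modEq, h.order, ← ZMod.natCast_eq_natCast_iff]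
        push_cast
        exact e1
      rw [← he, pow_one, mul_inv_eq_iff_eq_mul] at this
      exact this
    have htop := h.sup_eq_top h.gamma_ne hb
    refine ⟨⟨fun x y => ?_⟩⟩
    have hc : ∀ u ∈ ({γ, b} : Set A), ∀ v ∈ ({γ, b} : Set A), u * v = v * u := by
      rintro u (rfl | rfl) v (rfl | rfl)
      exacts [rfl, hcm.eq.symm, hcm.eq, rfl]
    exact congrArg Subtype.val ((Subgroup.closureCommGroupOfComm hc).mul_comm
      ⟨x, htop ▸ mem_top x⟩ ⟨y, htop ▸ mem_top y⟩)
  have hord : orderOf (e : ZMod q) = p := by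
    haveI := Fact.mk h.hp
    exact orderOf_eq_prime h1.symm hne1
  rw [← hord]
  exact ZMod.orderOf_dvd_card_sub_one fun e0 => by
    rw [e0, zero_pow h.hp.ne_zero] at h1
    exact one_ne_zero h1

/-- the normal subgroup of order `q` is never exceptional -/
theorem IsPQ.nonExc_q (h : IsPQ A p q γ) {n : ℕ} (hn : n.Coprime (p * q)) {s : ℕ} (hd : s ∣ n) :
    NonExc q s := by
  rintro ⟨rfl, m, hm⟩
  have h1 := h.dvd_sub_one
  rw [hm, Nat.add_sub_cancel] at h1
  have hp2 : p = 2 := (Nat.prime_dvd_prime_iff_eq h.hp Nat.prime_two).1 (h.hp.dvd_of_dvd_pow h1)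
  exact absurd (Nat.eq_one_of_dvd_coprimes hn hd (hp2 ▸ dvd_mul_right p q)) (by norm_num)

/-- the action on the quotient by an invariant normal subgroup -/
abbrev quotAction' {A G : Type*} [Group A] [Group G] [MulDistribMulAction A G] (N : Subgroup G) [N.Normal]
    (hN : ∀ a : A, ∀ x ∈ N, a • x ∈ N) : MulDistribMulAction A (G ⧸ N) where
  smul a := QuotientGroup.map N N (MulDistribMulAction.toMonoidHom G a) fun x hx => hN a x hx
  one_smul x := by
    obtain ⟨x, rfl⟩ := QuotientGroup.mk_surjective x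
    exact congrArg QuotientGroup.mk (one_smul A x)
  mul_smul a b x := by
    obtain ⟨x, rfl⟩ := QuotientGroup.mk_surjective x
    exact congrArg QuotientGroup.mk (mul_smul a b x)
  smul_one a := map_one _
  smul_mul a x y := map_mul _ x y

/-- the action on an invariant subgroup -/
abbrev subAction {A G : Type*} [Group A] [Group G] [MulDistribMulAction A G] (H : Subgroup G)
    (hH : ∀ a : A, ∀ x ∈ H, a • x ∈ H) : MulDistribMulAction A H where
  smul a x := ⟨a • (x : G), hH a x x.2⟩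
  one_smul x := Subtype.ext (one_smul A (x : G))
  mul_smul a b x := Subtype.ext (mul_smul a b (x : G))
  smul_one a := Subtype.ext (smul_one a)
  smul_mul a x y := Subtype.ext (smul_mul' a (x : G) y)

section weights2

variable {G : Type*} [Group G] [Finite G] [MulDistribMulAction A G]

/-- the weight spaces of an abelian subgroup of invertible order span -/
theorem iSup_wspace_eq_top {ρ : G →* End k V} (R : Subgroup G) [IsMulCommutative R]
    (hRk : (Nat.card R : k) ≠ 0) : ⨆ χ : R →* kˣ, wspace R ρ χ = ⊤ := by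
  classical
  rcases subsingleton_or_nontrivial V with hV | hV
  · exact Subsingleton.elim _ _
  haveI : Fintype R := Fintype.ofFinite R
  letI : CommGroup R :=
    { (inferInstance : Group R) with mul_comm := fun a b => IsMulCommutative.is_comm.comm a b }
  haveI : NeZero (Monoid.exponent R : k) := ⟨fun e => hRk (by
    obtain ⟨m, hm⟩ := Group.exponent_dvd_nat_card (G := R)
    rw [hm, Nat.cast_mul, e, zero_mul])⟩
  haveI : Finite (R →* kˣ) := by
    haveI : NeZero (Monoid.exponent R) := ⟨Monoid.exponent_ne_zero_of_finite⟩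
    refine Finite.of_injective (fun (f : R →* kˣ) (r : R) =>
      (⟨f r, (mem_rootsOfUnity (Monoid.exponent R) _).2 (by
        rw [← map_pow, Monoid.pow_exponent_eq_one, map_one])⟩ : rootsOfUnity (Monoid.exponent R) k)) ?_
    exact fun f g h => MonoidHom.ext fun r => congrArg Subtype.val (congrFun h r)
  haveI : Fintype (R →* kˣ) := Fintype.ofFinite _
  set E : Submodule k V := ⨆ χ : R →* kˣ, wspace R ρ χ
  have hmem : ∀ χ v, wproj R ρ χ v ∈ wspace R ρ χ := by
    intro χ v
    rw [mem_wspace]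
    intro r
    simp only [wproj, LinearMap.sum_apply, LinearMap.smul_apply, map_sum, map_smul, Finset.smul_sum]
    refine Fintype.sum_equiv (Equiv.mulLeft r) _ _ fun x => ?_
    simp only [Equiv.coe_mulLeft, Subgroup.coe_mul, map_mul, Module.End.mul_apply, smul_smul, mul_inv,
      Units.val_mul]
    rw [← mul_assoc, ← Units.val_mul (χ r), mul_inv_cancel, Units.val_one, one_mul]
  -- the sum of the projections
  have hsum : ∀ r : R, r ≠ 1 → ∑ χ : R →* kˣ, (((χ r)⁻¹ : kˣ) : k) = 0 := by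
    intro r hr
    obtain ⟨φ, hφ⟩ := CommGroup.exists_apply_ne_one_of_hasEnoughRootsOfUnity R k hr
    let f : (R →* kˣ) →* k :=
      { toFun := fun χ => (((χ r)⁻¹ : kˣ) : k)
        map_one' := by simp
        map_mul' := fun a b => by simp [mul_comm] }
    refine sum_hom_units_eq_zero f fun h1 => hφ ?_
    have h2 : (((φ r)⁻¹ : kˣ) : k) = 1 := DFunLike.congr_fun h1 φ
    rwa [Units.val_eq_one, inv_eq_one] at h2
  have hall : ∀ v, ∑ χ : R →* kˣ, wproj R ρ χ v = (Nat.card (R →* kˣ) : k) • v := by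
    intro v
    simp only [wproj, LinearMap.sum_apply, LinearMap.smul_apply]
    rw [Finset.sum_comm, Finset.sum_eq_single (1 : R)]
    · simp [Nat.card_eq_fintype_card, Nat.cast_smul_eq_nsmul]
    · intro r _ hr
      rw [← Finset.sum_smul, hsum r hr, zero_smul]
    · intro h'; exact absurd (Finset.mem_univ _) h'
  obtain ⟨χ₀, v₀, hv0, hv₀⟩ := HH.exists_common_eigen (ρ.comp R.subtype) (fun a b => by
    show ρ a * ρ b = ρ b * ρ a
    rw [← map_mul, ← map_mul]
    exact congrArg (fun r : R => ρ r) (IsMulCommutative.is_comm.comm a b))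
  have hv₀' : v₀ ∈ wspace R ρ χ₀.toHomUnits := (mem_wspace R).2 fun r => hv₀ r
  have hN : (Nat.card (R →* kˣ) : k) ≠ 0 := by
    intro h0
    have h1 := hall v₀
    rw [h0, zero_smul, Finset.sum_eq_single χ₀.toHomUnits] at h1
    · rw [wproj_eq R hv₀', if_pos rfl] at h1
      exact hv0 ((smul_eq_zero_iff_right hRk).1 h1)
    · intro χ _ hχ
      rw [wproj_eq R hv₀', if_neg hχ]
    · intro h'; exact absurd (Finset.mem_univ _) h'
  refine eq_top_iff.2 fun v _ => ?_
  rw [← Submodule.smul_mem_iff E hN, ← hall]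
  exact E.sum_mem fun χ _ => Submodule.mem_iSup_of_mem χ (hmem χ v)

/-- an invariant coprime subgroup normalizing an invariant abelian subgroup centralizes it -/
theorem commute_of_abelian [Group.IsSolvable G] (h : IsPQ A p q γ)
    (hcop : (Nat.card G).Coprime (p * q)) (hfG : ∀ x : G, (∀ a : A, a • x = x) → x = 1)
    {ρ : G →* End k V} {τ : A →* End k V} (hR : IsRep ρ τ) (hinj : Function.Injective ρ)
    (R : Subgroup G) [R.Normal] [IsMulCommutative R] (hinv : ∀ a : A, ∀ r ∈ R, a • r ∈ R)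
    (hRk : (Nat.card R : k) ≠ 0) (T : Subgroup G) (hT : ∀ a : A, ∀ x ∈ T, a • x ∈ T)
    (hTR : (Nat.card T).Coprime (Nat.card R)) : ∀ g ∈ T, ∀ r ∈ R, g * r = r * g := by
  classical
  have hcopA : (Nat.card G).Coprime (Nat.card A) := h.card.symm ▸ hcop
  letI := subAction (A := A) T hT
  letI : MulDistribMulAction A (R →* kˣ) :=
    { smul := fun a χ => aChar R hinv a χ
      one_smul := fun χ => MonoidHom.ext fun r => congrArg χ (Subtype.ext (by simp))
      mul_smul := fun a b χ => MonoidHom.ext fun r => congrArg χ (Subtype.ext (by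
        show (a * b)⁻¹ • (r : G) = b⁻¹ • (a⁻¹ • (r : G))
        rw [mul_inv_rev, mul_smul]))
      smul_one := fun a => MonoidHom.ext fun r => rfl
      smul_mul := fun a χ ψ => MonoidHom.ext fun r => rfl }
  letI : MulDistribMulAction T (R →* kˣ) :=
    { smul := fun g χ => gChar R (g : G) χ
      one_smul := fun χ => MonoidHom.ext fun r => congrArg χ (Subtype.ext (by simp))
      mul_smul := fun a b χ => MonoidHom.ext fun r => congrArg χ (Subtype.ext (by
        show ((a : G) * b)⁻¹ * r * ((a : G) * b) = (b : G)⁻¹ * ((a : G)⁻¹ * r * a) * b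
        group))
      smul_one := fun a => MonoidHom.ext fun r => rfl
      smul_mul := fun a χ ψ => MonoidHom.ext fun r => rfl }
  haveI : Group.IsSolvable T := inferInstance
  have hΛ := fix_of_stab (T := T) (Ξ := R →* kˣ)
    (fun a g χ => MonoidHom.ext fun r => congrArg χ (Subtype.ext (by
      show (g : G)⁻¹ * (a⁻¹ • (r : G)) * g = a⁻¹ • ((a • (g : G))⁻¹ * r * (a • (g : G)))
      simp [smul_mul', smul_inv'])))
    h (hcop.coprime_dvd_left (Subgroup.card_subgroup_dvd_card _))
    (fun x hx => Subtype.ext (hfG _ fun a => congrArg Subtype.val (hx a)))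
    (fun χ hχ => eq_one_of_fixed R hinv hfG hcopA hχ) (m := Nat.card R)
    (fun χ => MonoidHom.ext fun r => by
      rw [MonoidHom.pow_apply, ← map_pow, pow_card_eq_one', map_one, MonoidHom.one_apply]) hTR
    {χ | wspace R ρ χ ≠ ⊥}
    (fun g χ hχ => by
      obtain ⟨v, hv, hv0⟩ := Submodule.exists_mem_ne_zero_of_ne_bot hχ
      intro hb
      have h1 : ρ (g : G) v ∈ wspace R ρ (gChar R (g : G) χ) := rho_mem_wspace R (g : G) hv
      rw [show gChar R (g : G) χ = g • χ from rfl, hb, Submodule.mem_bot] at h1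
      refine hv0 ?_
      have := congrArg (ρ (g : G)⁻¹) h1
      rwa [map_zero, ← Module.End.mul_apply, ← map_mul, inv_mul_cancel, map_one, Module.End.one_apply] at this)
    (fun χ hχ => exists_stab R hinv hR hRk hχ)
  intro g hgP r hr
  have hρ : ρ (g⁻¹ * r * g) = ρ r := by
    refine LinearMap.ext fun v => ?_
    have hv : v ∈ ⨆ χ : R →* kˣ, wspace R ρ χ := by
      rw [iSup_wspace_eq_top (ρ := ρ) R hRk]; exact Submodule.mem_top
    refine Submodule.iSup_induction _ (motive := fun v => ρ (g⁻¹ * r * g) v = ρ r v) hv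
      (fun χ w hw => ?_) (by simp) (fun u w hu hw => by rw [map_add, map_add, hu, hw])
    by_cases hw0 : w = 0
    · simp [hw0]
    have hne : wspace R ρ χ ≠ ⊥ := fun hb => hw0 (by rwa [hb, Submodule.mem_bot] at hw)
    have h1 := DFunLike.congr_fun (hΛ χ hne ⟨g, hgP⟩) ⟨r, hr⟩
    change χ ⟨g⁻¹ * r * g, _⟩ = χ ⟨r, hr⟩ at h1
    have e1 := (mem_wspace R).1 hw ⟨g⁻¹ * r * g, by
      simpa using (inferInstance : R.Normal).conj_mem r hr g⁻¹⟩
    have e2 := (mem_wspace R).1 hw ⟨r, hr⟩
    rw [h1] at e1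
    exact e1.trans e2.symm
  have := hinj hρ
  calc g * r = g * (g⁻¹ * r * g) := by rw [this]
    _ = r * g := by group

/-- the stabilizer of a non-trivial weight of an invariant subgroup has prime order and no fixed vectors
on the weight space -/
theorem component (h : IsPQ A p q γ) (hcop : (Nat.card G).Coprime (p * q))
    (hfG : ∀ x : G, (∀ a : A, a • x = x) → x = 1)
    {ρ : G →* End k V} {τ : A →* End k V} (hR : IsRep ρ τ)
    (hpk : (p : k) ≠ 0) (hqk : (q : k) ≠ 0)
    (Z : Subgroup G) [Z.Normal] [IsMulCommutative Z] (hinv : ∀ a : A, ∀ z ∈ Z, a • z ∈ Z)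
    (hZk : (Nat.card Z : k) ≠ 0) (ν : Z →* kˣ) (hWne : wspace Z ρ ν ≠ ⊥) (hν : ν ≠ 1) :
    ∃ a₀ : A, a₀ ≠ 1 ∧ (∀ v ∈ wspace Z ρ ν, τ a₀ v ∈ wspace Z ρ ν) ∧
      (∀ v ∈ wspace Z ρ ν, τ a₀ v = v → v = 0) := by
  classical
  have hcopA : (Nat.card G).Coprime (Nat.card A) := h.card.symm ▸ hcop
  haveI : Fintype Z := Fintype.ofFinite Z
  obtain ⟨a₀, ha1, ha₀⟩ := exists_stab Z hinv hR hZk hWne
  let St : Subgroup A :=
    { carrier := {a | aChar Z hinv a ν = ν}
      one_mem' := MonoidHom.ext fun r => congrArg ν (Subtype.ext (by simp))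
      mul_mem' := fun {a b} ha hb => by
        show aChar Z hinv (a * b) ν = ν
        have e : aChar Z hinv (a * b) ν = aChar Z hinv a (aChar Z hinv b ν) :=
          MonoidHom.ext fun r => congrArg ν (Subtype.ext (by
            show (a * b)⁻¹ • (r : G) = b⁻¹ • (a⁻¹ • (r : G))
            rw [mul_inv_rev, mul_smul]))
        rw [e, show aChar Z hinv b ν = ν from hb]
        exact ha
      inv_mem' := fun {a} ha => by
        show aChar Z hinv a⁻¹ ν = ν
        conv_lhs => rw [← show aChar Z hinv a ν = ν from ha]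
        exact MonoidHom.ext fun r => congrArg ν (Subtype.ext (by
          show a⁻¹ • ((a⁻¹)⁻¹ • (r : G)) = r
          rw [inv_inv, inv_smul_smul])) }
  have hSt : ∀ a ∈ St, a ∈ zpowers a₀ := by
    intro a ha
    by_contra hna
    refine hν (eq_one_of_fixed (k := k) Z hinv hfG hcopA fun b => ?_)
    have hle : (⊤ : Subgroup A) ≤ St := by
      rw [← h.sup_eq_top ha1 hna, Subgroup.closure_le]
      rintro x (rfl | rfl)
      exacts [ha₀, ha]
    exact hle (mem_top b)
  refine ⟨a₀, ha1, fun v hv => ?_, fun v hv hfix => ?_⟩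
  · have := tau_mem_wspace Z hinv hR a₀ hv
    rwa [ha₀] at this
  haveI : Fintype A := Fintype.ofFinite A
  have hu : ∑ a : A, τ a v = 0 := hR.fix _ fun b => by
    rw [map_sum]
    exact Fintype.sum_equiv (Equiv.mulLeft b) _ _ fun a => by
      rw [Equiv.coe_mulLeft, map_mul, Module.End.mul_apply]
  have hzp : ∀ a ∈ zpowers a₀, τ a v = v := by
    intro a ha
    obtain ⟨n, rfl⟩ := (isOfFinOrder_of_finite a₀).mem_powers_iff_mem_zpowers.2 ha
    show τ (a₀ ^ n) v = v
    rw [map_pow]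
    clear ha
    induction n with
    | zero => rfl
    | succ n ih => rw [pow_succ', Module.End.mul_apply, ih, hfix]
  have h1 := congrArg (wproj Z ρ ν) hu
  rw [map_sum, map_zero] at h1
  have h2 : ∀ a : A, wproj Z ρ ν (τ a v) = if a ∈ zpowers a₀ then (Nat.card Z : k) • v else 0 := by
    intro a
    rw [wproj_eq Z (tau_mem_wspace Z hinv hR a hv)]
    by_cases ha : a ∈ zpowers a₀
    · rw [if_pos ha, if_pos (zpowers_le.2 (show a₀ ∈ St from ha₀) ha).symm, hzp a ha]
    · rw [if_neg ha, if_neg fun e => ha (hSt a e.symm)]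
  rw [Finset.sum_congr rfl fun a _ => h2 a, Finset.sum_ite, Finset.sum_const_zero, add_zero,
    Finset.sum_const] at h1
  have hc : (Finset.univ.filter (· ∈ zpowers a₀)).card = orderOf a₀ := by
    rw [← Fintype.card_subtype, ← Nat.card_eq_fintype_card, ← Nat.card_zpowers]
  rw [hc, ← Nat.cast_smul_eq_nsmul k, smul_smul] at h1
  refine (smul_eq_zero_iff_right (mul_ne_zero (fun e => ?_) hZk)).1 h1
  obtain ⟨c, hc'⟩ : orderOf a₀ ∣ p * q := h.card ▸ orderOf_dvd_natCard a₀
  exact mul_ne_zero hpk hqk (by rw [← Nat.cast_mul, hc', Nat.cast_mul, e, zero_mul])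

end weights2

section exceptional

variable {G : Type*} [Group G] [Finite G]

set_option maxHeartbeats 1000000 in
/-- the exceptional configuration: the `2`-group is centralized on the component -/
theorem centralizes_exceptional {o n : ℕ} [ho : Fact o.Prime] (hon : o = 2 ^ n + 1) (hn : 1 ≤ n)
    {W : Type*} [AddCommGroup W] [Module k W] [FiniteDimensional k W] [Nontrivial W]
    (ρ : G →* End k W) (φ : MulAut G) (T₀ : End k W) (hok : (o : k) ≠ 0) (h2k : ((2 : ℕ) : k) ≠ 0)
    (hφ : φ ^ o = 1) (hT₀ : T₀ ^ o = 1) (hρT : ∀ x, T₀ * ρ x = ρ (φ x) * T₀)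
    (hfix : ∀ v, T₀ v = v → v = 0)
    (S T : Subgroup G) [S.Normal] (hSφ : ∀ x ∈ S, φ x ∈ S) (hTφ : ∀ x ∈ T, φ x ∈ T)
    (hS : IsPGroup 2 S) (hT2 : (Nat.card T).Coprime 2) (hTo : (Nat.card T).Coprime o)
    (hscal : ∀ x y : S, ∃ a : k, ρ ⁅(x : G), (y : G)⁆ = a • (1 : End k W))
    (hgen : S = ⁅S, T⁆) (hsq : ∀ x ∈ S, x ^ 2 ∈ center G)
    (hTab : ∀ g ∈ T, ∀ g' ∈ T, ∀ x ∈ S, ⁅g, g'⁆ * x = x * ⁅g, g'⁆) :
    ∀ x ∈ S, ρ (φ x) = ρ x := by
  classical
  obtain ⟨a, ha⟩ := IsPGroup.iff_card.1 hS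
  have hu : ∀ x, ρ x * ρ x⁻¹ = 1 := fun x => by rw [← map_mul, mul_inv_cancel, map_one]
  have huniq : ∀ (x : G) (a b : k), a • ρ x = b • ρ x → a = b := fun x a b h =>
    smul_left_injective k (HH.rho_ne_zero ρ x) h
  let c : S → S → k := fun x y => Classical.choose (hscal x y)
  have hc : ∀ x y : S, ρ x * ρ y = c x y • (ρ y * ρ x) := by
    intro x y
    calc ρ x * ρ y = ρ ⁅(x : G), y⁆ * (ρ y * ρ x) := by
          rw [← map_mul, ← map_mul, ← map_mul, commutatorElement_def]; congr 1; group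
      _ = _ := by rw [Classical.choose_spec (hscal x y), smul_mul_assoc, one_mul]
  have hcu : ∀ (x y : S) (b : k), ρ x * ρ y = b • (ρ y * ρ x) → c x y = b := fun x y b hb =>
    huniq ((y : G) * x) _ _ (by rw [map_mul]; exact (hc x y).symm.trans hb)
  have hcl : ∀ x x' y, c (x * x') y = c x y * c x' y := by
    intro x x' y
    apply hcu
    rw [Subgroup.coe_mul, map_mul, mul_assoc, hc x' y, mul_smul_comm, ← mul_assoc, hc x y, smul_mul_assoc,
      smul_smul, mul_comm (c x' y), mul_assoc]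
  have hcr : ∀ x y y', c x (y * y') = c x y * c x y' := by
    intro x y y'
    apply hcu
    rw [Subgroup.coe_mul, map_mul, ← mul_assoc, hc x y, smul_mul_assoc, mul_assoc, hc x y', mul_smul_comm,
      smul_smul, mul_assoc]
  have hcs : ∀ x, c x x = 1 := fun x => hcu _ _ _ (one_smul k _).symm
  have hc1l : ∀ y, c 1 y = 1 := fun y => hcu _ _ _ (by simp)
  have hc1r : ∀ y, c y 1 = 1 := fun y => hcu _ _ _ (by simp)
  have hcsymm : ∀ x y, c x y * c y x = 1 := by
    intro x y
    have h := hcs (x * y)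
    rwa [hcl, hcr, hcr, hcs, hcs, one_mul, mul_one] at h
  let R : Subgroup S :=
    { carrier := {x | ∀ y, c x y = 1}
      one_mem' := hc1l
      mul_mem' := fun {x x'} hx hx' y => by rw [hcl, hx y, hx' y, one_mul]
      inv_mem' := fun {x} hx y => by
        have := hcl x x⁻¹ y
        rwa [mul_inv_cancel, hc1l, hx y, one_mul, eq_comm] at this }
  have hcR : ∀ y, ∀ r ∈ R, c y r = 1 := fun y r hr => by
    have := hcsymm y r
    rwa [hr y, mul_one] at this
  have hRcomm : ∀ x y : S, ⁅x, y⁆ ∈ R := by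
    intro x y z
    refine hcu _ _ _ ?_
    obtain ⟨b, hb⟩ := hscal x y
    rw [one_smul, show ((⁅x, y⁆ : S) : G) = ⁅(x : G), (y : G)⁆ from rfl, hb, smul_mul_assoc, one_mul,
      mul_smul_comm, mul_one]
  haveI hRn : R.Normal := Cfsg.Agent.PGroup.normal_of_commutator_le (by
    rw [commutator_def]; exact Subgroup.commutator_le.2 fun x _ y _ => hRcomm x y)
  letI : CommGroup (S ⧸ R) :=
    { (inferInstance : Group (S ⧸ R)) with
      mul_comm := fun a b => by
        obtain ⟨a, rfl⟩ := QuotientGroup.mk_surjective a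
        obtain ⟨b, rfl⟩ := QuotientGroup.mk_surjective b
        rw [← QuotientGroup.mk_mul, ← QuotientGroup.mk_mul, QuotientGroup.eq]
        have := hRcomm b⁻¹ a⁻¹
        rwa [commutatorElement_def, inv_inv, inv_inv, ← mul_inv_rev, mul_assoc] at this }
  let ce : (S ⧸ R) → (S ⧸ R) → k := fun a b => c a.out b.out
  have hce : ∀ x y : S, ce (QuotientGroup.mk x) (QuotientGroup.mk y) = c x y := by
    intro x y
    obtain ⟨z, hz⟩ := QuotientGroup.mk_out_eq_mul R x
    obtain ⟨w, hw⟩ := QuotientGroup.mk_out_eq_mul R y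
    show c _ _ = _
    rw [hz, hw, hcl, z.2 _, mul_one, hcr, hcR _ _ w.2, mul_one]
  have hsym : IsSympl ce := by
    refine ⟨fun a b z => ?_, fun a b z => ?_, fun a => hcs _, fun a ha1 => ?_⟩
    · obtain ⟨a, rfl⟩ := QuotientGroup.mk_surjective a
      obtain ⟨b, rfl⟩ := QuotientGroup.mk_surjective b
      obtain ⟨z, rfl⟩ := QuotientGroup.mk_surjective z
      rw [← QuotientGroup.mk_mul, hce, hce, hce, hcl]
    · obtain ⟨a, rfl⟩ := QuotientGroup.mk_surjective a
      obtain ⟨b, rfl⟩ := QuotientGroup.mk_surjective b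
      obtain ⟨z, rfl⟩ := QuotientGroup.mk_surjective z
      rw [← QuotientGroup.mk_mul, hce, hce, hce, hcr]
    · obtain ⟨a, rfl⟩ := QuotientGroup.mk_surjective a
      by_contra hall
      push Not at hall
      exact ha1 ((QuotientGroup.eq_one_iff a).2 fun y => by rw [← hce]; exact hall _)
  have he2 : ∀ a : S ⧸ R, a ^ 2 = 1 := by
    intro a
    obtain ⟨a, rfl⟩ := QuotientGroup.mk_surjective a
    rw [← QuotientGroup.mk_pow, QuotientGroup.eq_one_iff]
    intro y
    refine hcu _ _ _ ?_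
    rw [one_smul, ← map_mul, ← map_mul, SubmonoidClass.coe_pow]
    exact congrArg ρ (mem_center_iff.1 (hsq a a.2) y).symm
  have hcinv : ∀ (g : G) (x y : S) (hx : g * x * g⁻¹ ∈ S) (hy : g * y * g⁻¹ ∈ S),
      c ⟨g * x * g⁻¹, hx⟩ ⟨g * y * g⁻¹, hy⟩ = c x y := by
    intro g x y hx hy
    refine hcu _ _ _ ?_
    show ρ (g * x * g⁻¹) * ρ (g * y * g⁻¹) = c x y • (ρ (g * y * g⁻¹) * ρ (g * x * g⁻¹))
    calc ρ (g * x * g⁻¹) * ρ (g * y * g⁻¹) = ρ g * (ρ x * ρ y) * ρ g⁻¹ := by
          simp only [← map_mul]; congr 1; group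
      _ = c x y • (ρ g * (ρ y * ρ x) * ρ g⁻¹) := by rw [hc x y, mul_smul_comm, smul_mul_assoc]
      _ = _ := by congr 1; simp only [← map_mul]; congr 1; group
  have hTT : T₀ * T₀ ^ (o - 1) = 1 := by
    rw [← pow_succ', Nat.sub_add_cancel ho.out.one_le, hT₀]
  have hconjφ : ∀ x, ρ (φ x) = T₀ * ρ x * T₀ ^ (o - 1) := fun x => by
    rw [hρT, mul_assoc, hTT, mul_one]
  have hcφ : ∀ x y : S, c ⟨φ x, hSφ x x.2⟩ ⟨φ y, hSφ y y.2⟩ = c x y := by
    intro x y
    refine hcu _ _ _ ?_
    show ρ (φ x) * ρ (φ y) = c x y • (ρ (φ y) * ρ (φ x))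
    calc ρ (φ x) * ρ (φ y) = T₀ * (ρ x * ρ y) * T₀ ^ (o - 1) := by
          rw [← map_mul ρ, ← map_mul φ, hconjφ, map_mul ρ]
      _ = c x y • (T₀ * (ρ y * ρ x) * T₀ ^ (o - 1)) := by rw [hc, mul_smul_comm, smul_mul_assoc]
      _ = _ := by rw [← map_mul ρ (y : G) (x : G), ← hconjφ, map_mul φ, map_mul ρ]
  -- automorphisms of the quotient preserving the form
  let desc : ∀ ψ : MulAut S, (∀ x y, c (ψ x) (ψ y) = c x y) → MulAut (S ⧸ R) := fun ψ hψ =>
    QuotientGroup.congr R R ψ (eq_of_le_of_card_ge (by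
      rintro _ ⟨r, hr, rfl⟩ y
      obtain ⟨y, rfl⟩ := ψ.surjective y
      exact (hψ r y).trans (hr y)) (by rw [card_map_of_injective (MulEquiv.injective _)]))
  have hdesc : ∀ (ψ : MulAut S) (hψ : ∀ x y, c (ψ x) (ψ y) = c x y) (x : S),
      desc ψ hψ (QuotientGroup.mk x) = QuotientGroup.mk (ψ x) := fun ψ hψ x => rfl
  let φS : MulAut S := MulEquiv.ofBijective
    (MonoidHom.mk' (fun x : S => (⟨φ x, hSφ x x.2⟩ : S)) fun a b => Subtype.ext (map_mul φ _ _))
    (Finite.injective_iff_bijective.1 fun a b h => Subtype.ext (φ.injective (congrArg Subtype.val h)))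
  let β : MulAut (S ⧸ R) := desc φS hcφ
  have hφi : ∀ (i : ℕ) (x : S), (((φS ^ i) x : S) : G) = (φ ^ i) (x : G) := by
    intro i
    induction i with
    | zero => intro x; rfl
    | succ i ih => intro x; rw [pow_succ', MulAut.mul_apply, pow_succ', MulAut.mul_apply, ← ih]; rfl
  have hφSo : φS ^ o = 1 := MulEquiv.ext fun x => Subtype.ext (by rw [hφi, hφ]; rfl)
  have hβi : ∀ (i : ℕ) (x : S), (β ^ i) (QuotientGroup.mk x) = QuotientGroup.mk ((φS ^ i) x) := by
    intro i
    induction i with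
    | zero => intro x; rfl
    | succ i ih => intro x; rw [pow_succ', MulAut.mul_apply, ih, pow_succ', MulAut.mul_apply]; rfl
  have hβo : β ^ o = 1 := MulEquiv.ext fun x => by
    obtain ⟨x, rfl⟩ := QuotientGroup.mk_surjective x
    rw [hβi, hφSo]; rfl
  have hβc : ∀ a b, ce (β a) (β b) = ce a b := by
    intro a b
    obtain ⟨a, rfl⟩ := QuotientGroup.mk_surjective a
    obtain ⟨b, rfl⟩ := QuotientGroup.mk_surjective b
    show ce (desc φS hcφ _) (desc φS hcφ _) = _
    rw [hdesc φS hcφ, hdesc φS hcφ, hce, hce]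
    exact hcφ a b
  let θ : T →* MulAut (S ⧸ R) :=
    { toFun := fun g => desc (MulAut.conjNormal (g : G)) (fun x y => hcinv (g : G) x y _ _)
      map_one' := MulEquiv.ext fun x => by
        obtain ⟨x, rfl⟩ := QuotientGroup.mk_surjective x
        show QuotientGroup.mk (MulAut.conjNormal ((1 : T) : G) x) = _
        rw [OneMemClass.coe_one, map_one]; rfl
      map_mul' := fun g g' => MulEquiv.ext fun x => by
        obtain ⟨x, rfl⟩ := QuotientGroup.mk_surjective x
        show QuotientGroup.mk (MulAut.conjNormal ((g * g' : T) : G) x) = _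
        rw [Subgroup.coe_mul, map_mul]; rfl }
  have hθ : ∀ (g : T) (x : S), θ g (QuotientGroup.mk x) = QuotientGroup.mk (MulAut.conjNormal (g : G) x) :=
    fun g x => rfl
  haveI : IsMulCommutative θ.range := ⟨⟨by
    rintro ⟨_, g, rfl⟩ ⟨_, g', rfl⟩
    refine Subtype.ext (MulEquiv.ext fun x => ?_)
    obtain ⟨x, rfl⟩ := QuotientGroup.mk_surjective x
    simp only [Subgroup.coe_mul, MulAut.mul_apply]
    rw [hθ, hθ, hθ, hθ]
    refine congrArg QuotientGroup.mk (Subtype.ext ?_)
    rw [MulAut.conjNormal_apply, MulAut.conjNormal_apply, MulAut.conjNormal_apply, MulAut.conjNormal_apply]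
    have h1 := hTab g g.2 g' g'.2 ((g' * g : G) * x * (g' * g : G)⁻¹)
      ((inferInstance : S.Normal).conj_mem x x.2 _)
    rw [commutatorElement_def] at h1
    calc (g : G) * ((g' : G) * x * (g' : G)⁻¹) * (g : G)⁻¹
        = ((g : G) * g' * (g : G)⁻¹ * (g' : G)⁻¹) * (((g' : G) * g) * x * ((g' : G) * g)⁻¹) *
            ((g : G) * g' * (g : G)⁻¹ * (g' : G)⁻¹)⁻¹ := by group
      _ = ((g' : G) * g) * x * ((g' : G) * g)⁻¹ := by rw [h1, mul_inv_cancel_right]
      _ = _ := by group⟩⟩
  have hθcard : Nat.card θ.range ∣ Nat.card T := card_range_dvd θ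
  have hfixU : ∀ x : S ⧸ R, (∀ u ∈ θ.range, u x = x) → x = 1 := by
    haveI : Fintype θ.range := Fintype.ofFinite _
    let Nm : (S ⧸ R) →* (S ⧸ R) := ∏ u : θ.range, MulEquiv.toMonoidHom (u : MulAut (S ⧸ R))
    have hNm : ∀ x, Nm x = ∏ u : θ.range, (u : MulAut (S ⧸ R)) x := fun x => MonoidHom.finset_prod_apply _ _ x
    have hker : ∀ (g : T) (y : S ⧸ R), Nm (θ g y) = Nm y := by
      intro g y
      rw [hNm, hNm]
      exact Fintype.prod_equiv (Equiv.mulRight ⟨θ g, g, rfl⟩) _ _ fun u => rfl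
    have hle : S ≤ (Nm.comp (QuotientGroup.mk' R)).ker.map S.subtype := by
      have hST : ⁅S, T⁆ ≤ (Nm.comp (QuotientGroup.mk' R)).ker.map S.subtype := by
        rw [Subgroup.commutator_le]
        intro x hx g hg
        have hm : g * x⁻¹ * g⁻¹ ∈ S := (inferInstance : S.Normal).conj_mem _ (S.inv_mem hx) g
        refine ⟨⟨x, hx⟩ * ⟨g * x⁻¹ * g⁻¹, hm⟩, ?_, by simp [commutatorElement_def, mul_assoc]⟩
        show Nm (QuotientGroup.mk (_ * _)) = 1
        rw [QuotientGroup.mk_mul, map_mul,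
          show (⟨g * x⁻¹ * g⁻¹, hm⟩ : S) = MulAut.conjNormal g (⟨x, hx⟩⁻¹ : S) from
            Subtype.ext (by rw [MulAut.conjNormal_apply]; rfl)]
        rw [← hθ ⟨g, hg⟩, hker, QuotientGroup.mk_inv, map_inv, mul_inv_cancel]
      exact hgen.le.trans hST
    intro y hy
    obtain ⟨x, rfl⟩ := QuotientGroup.mk_surjective y
    obtain ⟨z, hz, hzx⟩ := hle x.2
    have hzx' : z = x := Subtype.ext hzx
    subst hzx'
    have h1 : Nm (QuotientGroup.mk z) = 1 := hz
    rw [hNm, Finset.prod_congr rfl (fun (u : θ.range) _ => hy (u : MulAut (S ⧸ R)) u.2), Finset.prod_const,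
      Finset.card_univ, ← Nat.card_eq_fintype_card] at h1
    have h2 := pow_gcd_eq_one.2 ⟨h1, he2 _⟩
    rwa [hT2.coprime_dvd_left hθcard, pow_one] at h2
  have ho2 : Nat.Coprime 2 o := by
    rw [Nat.prime_two.coprime_iff_not_dvd, hon]
    rintro ⟨d, hd⟩
    obtain ⟨n', rfl⟩ : ∃ n', n = n' + 1 := ⟨n - 1, by omega⟩
    rw [pow_succ] at hd
    omega
  have hSk : (Nat.card S : k) ≠ 0 := by rw [ha, Nat.cast_pow]; exact pow_ne_zero _ h2k
  -- the radical commutes with `T₀`
  have hRfix : ∀ r ∈ R, ρ (φ (r : G)) = ρ (r : G) := by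
    have hRφ : ∀ r ∈ R, φS r ∈ R := fun r hr y => by
      obtain ⟨y, rfl⟩ := φS.surjective y
      exact (hcφ r y).trans (hr y)
    let φR : MulAut R := MulEquiv.ofBijective
      (MonoidHom.mk' (fun x : R => (⟨φS x, hRφ x x.2⟩ : R)) fun a b => Subtype.ext (map_mul φS _ _))
      (Finite.injective_iff_bijective.1 fun a b h => Subtype.ext (φS.injective (congrArg Subtype.val h)))
    have hRi : ∀ (i : ℕ) (x : R), (((φR ^ i) x : R) : S) = (φS ^ i) (x : S) := by
      intro i
      induction i with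
      | zero => intro x; rfl
      | succ i ih => intro x; rw [pow_succ', MulAut.mul_apply, pow_succ', MulAut.mul_apply, ← ih]; rfl
    intro r hr
    exact HH.centralizes_comm_image (s := 2) (fun e => by subst e; simp at ho2) hok h2k
      ((ρ.comp S.subtype).comp R.subtype) φR T₀ (hS.to_subgroup R)
      (fun x y => by
        show ρ ((x : S) : G) * ρ ((y : S) : G) = ρ ((y : S) : G) * ρ ((x : S) : G)
        rw [hc, x.2 _, one_smul])
      (MulEquiv.ext fun x => Subtype.ext (by rw [hRi, hφSo]; rfl)) hT₀ (fun x => hρT _) hfix ⟨r, hr⟩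
  have hβ1 : β = 1 := by
    refine trivial_of_sympl he2 hsym ho.out hon hn β hβo hβc θ.range (hT2.coprime_dvd_left hθcard)
      (hTo.coprime_dvd_left hθcard) ?_ ?_ hfixU ?_
    · rintro _ ⟨g, rfl⟩ x y
      obtain ⟨x, rfl⟩ := QuotientGroup.mk_surjective x
      obtain ⟨y, rfl⟩ := QuotientGroup.mk_surjective y
      rw [hθ, hθ, hce, hce]
      exact hcinv (g : G) x y _ _
    · rintro _ ⟨g, rfl⟩
      refine ⟨⟨φ (g : G), hTφ g g.2⟩, MulEquiv.ext fun x => ?_⟩
      obtain ⟨x, rfl⟩ := QuotientGroup.mk_surjective x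
      obtain ⟨x, rfl⟩ := φS.surjective x
      rw [hθ, MulAut.mul_apply, MulAut.mul_apply,
        show β⁻¹ (QuotientGroup.mk (φS x)) = QuotientGroup.mk x from
          β.injective (by rw [MulAut.apply_inv_self]; rfl), hθ]
      show _ = desc φS hcφ _
      rw [hdesc φS hcφ]
      refine congrArg QuotientGroup.mk (Subtype.ext ?_)
      show _ = φ ((MulAut.conjNormal (g : G) x : S) : G)
      rw [MulAut.conjNormal_apply, MulAut.conjNormal_apply, map_mul, map_mul, map_inv]
      rfl
    · intro hβne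
      set D := (diffHom (β : (S ⧸ R) →* (S ⧸ R))).range with hD
      obtain ⟨hDfix, hDnd⟩ := hsym.diff_nondeg he2 ho2 β hβo hβc
      set P := D.comap (QuotientGroup.mk' R) with hP
      have hPinv : ∀ x ∈ P, φS x ∈ P := by
        intro x hx
        obtain ⟨z, hz⟩ := hx
        refine ⟨β z, ?_⟩
        have hz' : z⁻¹ * β z = QuotientGroup.mk x := hz
        show (β z)⁻¹ * β (β z) = QuotientGroup.mk (φS x)
        rw [← hdesc φS hcφ x]
        show _ = β (QuotientGroup.mk x)
        rw [← hz', map_mul, map_inv]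
      let φP : MulAut P := MulEquiv.ofBijective
        (MonoidHom.mk' (fun x : P => (⟨φS x, hPinv x x.2⟩ : P)) fun a b => Subtype.ext (map_mul φS _ _))
        (Finite.injective_iff_bijective.1 fun a b h => Subtype.ext (φS.injective (congrArg Subtype.val h)))
      have hPi : ∀ (i : ℕ) (x : P), (((φP ^ i) x : P) : S) = (φS ^ i) (x : S) := by
        intro i
        induction i with
        | zero => intro x; rfl
        | succ i ih => intro x; rw [pow_succ', MulAut.mul_apply, pow_succ', MulAut.mul_apply, ← ih]; rfl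
      let ρP : P →* End k W := (ρ.comp S.subtype).comp P.subtype
      -- a minimal invariant subspace
      let good : Submodule k W → Prop := fun U => U ≠ ⊥ ∧ (∀ x, ∀ v ∈ U, ρP x v ∈ U) ∧ ∀ v ∈ U, T₀ v ∈ U
      have hex : ∃ d, ∃ U, good U ∧ finrank k U = d :=
        ⟨_, ⊤, ⟨top_ne_bot, fun x v _ => Submodule.mem_top, fun v _ => Submodule.mem_top⟩, rfl⟩
      obtain ⟨W', ⟨hW0, hW'ρ, hW'T⟩, hW'd⟩ := Nat.find_spec hex
      haveI : Nontrivial W' := Submodule.nontrivial_iff_ne_bot.2 hW0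
      let ρ' := HH.subRep ρP W' hW'ρ
      let T' := T₀.restrict hW'T
      have hirr : HH.Irred ρ' T' := by
        intro U hU1 hU2
        by_cases hU0 : U = ⊥
        · exact Or.inl hU0
        right
        have hg : good (U.map W'.subtype) := by
          refine ⟨fun hb => hU0 (eq_bot_iff.2 fun u hu => (Submodule.mem_bot k).2 ?_), ?_, ?_⟩
          · have h3 : (u : W) ∈ U.map W'.subtype := ⟨u, hu, rfl⟩
            rw [hb, Submodule.mem_bot] at h3
            exact Subtype.ext h3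
          · rintro x _ ⟨u, hu, rfl⟩; exact ⟨_, hU1 x u hu, rfl⟩
          · rintro _ ⟨u, hu, rfl⟩; exact ⟨_, hU2 u hu, rfl⟩
        have heq : U.map W'.subtype = W' := Submodule.eq_of_le_of_finrank_le (Submodule.map_subtype_le _ _)
          (hW'd ▸ Nat.find_min' hex ⟨_, hg, rfl⟩)
        refine eq_top_iff.2 fun u _ => ?_
        obtain ⟨u', hu', he'⟩ : (u : W) ∈ U.map W'.subtype := heq.symm ▸ u.2
        rwa [← show u' = u from Subtype.ext he']
      have hρ'c : ∀ x y : P, ρ' x * ρ' y = c x y • (ρ' y * ρ' x) := fun x y =>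
        LinearMap.ext fun v => Subtype.ext (LinearMap.congr_fun (hc (x : S) (y : S)) (v : W))
      set Z' := R.subgroupOf P with hZ'
      haveI : Z'.Normal := hRn.subgroupOf P
      have hPk : (Nat.card P : k) ≠ 0 := by
        intro h0
        apply hSk
        obtain ⟨m, hm⟩ := Subgroup.card_subgroup_dvd_card P
        rw [hm, Nat.cast_mul, h0, zero_mul]
      have hcard := HH.card_quotient_eq ρ' φP T' hok hPk
        (MulEquiv.ext fun x => Subtype.ext (by rw [hPi, hφSo]; rfl))
        (LinearMap.ext fun v => Subtype.ext (by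
          rw [Module.End.pow_restrict]
          show (T₀ ^ o) (v : W) = v
          rw [hT₀, Module.End.one_apply]))
        (fun x => LinearMap.ext fun v => Subtype.ext (LinearMap.congr_fun (hρT _) (v : W)))
        (fun v hv => Subtype.ext (hfix v (congrArg Subtype.val hv))) hirr Z' ?_ ?_ ?_ ?_ ?_
      · -- identify the quotient with `D`
        let f : P →* D := MonoidHom.mk' (fun x => (⟨QuotientGroup.mk (x : S), x.2⟩ : D))
          fun a b => Subtype.ext (QuotientGroup.mk_mul R (a : S) b)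
        have hf : Function.Surjective f := fun d => by
          obtain ⟨x, hx⟩ := QuotientGroup.mk_surjective (d : S ⧸ R)
          exact ⟨⟨x, by show QuotientGroup.mk x ∈ D; rw [hx]; exact d.2⟩, Subtype.ext hx⟩
        have hfk : f.ker = Z' := by
          ext x
          exact ⟨fun h => (QuotientGroup.eq_one_iff (x : S)).1 (congrArg Subtype.val h : ((x : S) : S ⧸ R) = 1),
            fun h => Subtype.ext ((QuotientGroup.eq_one_iff _).2 h)⟩
        rw [← Nat.card_congr (QuotientGroup.quotientKerEquivOfSurjective f hf).toEquiv, hfk, hcard, hon,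
          Nat.add_sub_cancel, ← pow_mul, mul_comm n 2]
      · intro x
        refine ⟨fun hx y => ?_, fun hx => ?_⟩
        · show ρ' x * ρ' y = ρ' y * ρ' x
          rw [hρ'c, (show (x : S) ∈ R from hx) _, one_smul]
        · refine (QuotientGroup.eq_one_iff (x : S)).1 (hDnd _ x.2 fun e he' => ?_)
          obtain ⟨y, rfl⟩ := QuotientGroup.mk_surjective e
          rw [hce]
          have h1 := (hρ'c x ⟨y, he'⟩).symm.trans (hx ⟨y, he'⟩)
          refine smul_left_injective k (show ρ' ⟨y, he'⟩ * ρ' x ≠ 0 from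
            fun e0 => HH.rho_ne_zero ρ' (⟨y, he'⟩ * x) (by rw [map_mul]; exact e0)) ?_
          · show c (x : S) y • (ρ' ⟨y, he'⟩ * ρ' x) = (1 : k) • (ρ' ⟨y, he'⟩ * ρ' x)
            rw [one_smul]; exact h1
      · intro x hx
        refine HH.eq_smul_one hirr _ (fun y => ?_) ?_
        · show ρ' x * ρ' y = ρ' y * ρ' x
          rw [hρ'c, (show (x : S) ∈ R from hx) _, one_smul]
        · refine LinearMap.ext fun v => Subtype.ext ?_
          have h1 : ρ ((x : S) : G) * T₀ = T₀ * ρ ((x : S) : G) := by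
            rw [hρT, hRfix (x : S) hx]
          exact LinearMap.congr_fun h1 (v : W)
      · exact fun x y => hRcomm (x : S) y
      · intro x hx
        refine (QuotientGroup.eq_one_iff (x : S)).1 (hDfix _ x.2 ?_)
        show desc φS hcφ _ = _
        rw [hdesc φS hcφ]
        exact ((QuotientGroup.eq (s := R) (a := (x : S)) (b := φS (x : S))).2 hx).symm
      · intro htop
        apply hβne
        refine MulEquiv.ext fun y => ?_
        obtain ⟨w, hw⟩ := QuotientGroup.mk_surjective (diffHom (β : (S ⧸ R) →* (S ⧸ R)) y)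
        have hwP : w ∈ P := ⟨y, hw.symm⟩
        have h1 : (⟨w, hwP⟩ : P) ∈ Z' := htop ▸ mem_top _
        have h2 : (diffHom (β : (S ⧸ R) →* (S ⧸ R))) y = 1 := hw ▸ (QuotientGroup.eq_one_iff w).2 h1
        exact (inv_mul_eq_one.1 h2).symm
  intro x hx
  have hmem : (⟨x, hx⟩ : S)⁻¹ * φS ⟨x, hx⟩ ∈ R := by
    refine QuotientGroup.eq.1 ?_
    rw [← hdesc φS hcφ, show desc φS hcφ = β from rfl, hβ1]
    rfl
  have hfix' : ρ (φ (x⁻¹ * φ x)) = ρ (x⁻¹ * φ x) := hRfix _ hmem
  exact HH.mem_cent_of_diff (ρ := ρ.comp S.subtype) (φ := φS) (T := T₀) hφSo hT₀ (fun y => hρT _)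
    (ha ▸ (Nat.Coprime.pow_left a ho2)) (x := ⟨x, hx⟩) hfix'

end exceptional

section key

variable {G : Type*} [Group G] [Finite G] [MulDistribMulAction A G]

set_option maxHeartbeats 1000000 in
/-- the minimal configuration -/
theorem key_minimal [Group.IsSolvable G] (h : IsPQ A p q γ) (hcop : (Nat.card G).Coprime (p * q))
    (hfG : ∀ x : G, (∀ a : A, a • x = x) → x = 1)
    {ρ : G →* End k V} {τ : A →* End k V} (hR : IsRep ρ τ) (hinj : Function.Injective ρ)
    (hpk : (p : k) ≠ 0) (hqk : (q : k) ≠ 0) {s t : ℕ} [hs : Fact s.Prime] [ht : Fact t.Prime]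
    (hst : s ≠ t) (hsk : (s : k) ≠ 0) (S T : Subgroup G) [S.Normal]
    (hSinv : ∀ a : A, ∀ x ∈ S, a • x ∈ S) (hTinv : ∀ a : A, ∀ x ∈ T, a • x ∈ T)
    (hS : IsPGroup s S) (hT : IsPGroup t T) (hgen : S = ⁅S, T⁆)
    (hΦ : (frattini S).map S.subtype ≤ center G)
    (hTab : ∀ g ∈ T, ∀ g' ∈ T, ∀ x ∈ S, ⁅g, g'⁆ * x = x * ⁅g, g'⁆) : S = ⊥ := by
  classical
  obtain ⟨i, hi⟩ := IsPGroup.iff_card.1 hS
  obtain ⟨j, hj⟩ := IsPGroup.iff_card.1 hT
  have hSk : (Nat.card S : k) ≠ 0 := by rw [hi, Nat.cast_pow]; exact pow_ne_zero _ hsk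
  have hcopA : (Nat.card G).Coprime (Nat.card A) := h.card.symm ▸ hcop
  have hTS : (Nat.card T).Coprime (Nat.card S) := by
    rw [hi, hj]; exact ((Nat.coprime_primes ht.out hs.out).2 (Ne.symm hst)).pow _ _
  by_cases hab : ∀ x ∈ S, ∀ y ∈ S, x * y = y * x
  · haveI : IsMulCommutative S := ⟨⟨fun a b => Subtype.ext (hab a a.2 b b.2)⟩⟩
    have hc := commute_of_abelian h hcop hfG hR hinj S hSinv hSk T hTinv hTS
    rw [hgen, commutator_eq_bot_iff_le_centralizer]
    exact fun x hx => mem_centralizer_iff.2 fun g hg => hc g hg x hx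
  exfalso
  push Not at hab
  obtain ⟨x₀, hx₀, y₀, hy₀, hne⟩ := hab
  set Z := (frattini S).map S.subtype with hZ
  haveI : Z.Normal := ⟨fun z hz g => by rwa [mem_center_iff.1 (hΦ hz) g, mul_inv_cancel_right]⟩
  haveI : IsMulCommutative Z := ⟨⟨fun a b => Subtype.ext (mem_center_iff.1 (hΦ b.2) a)⟩⟩
  have hZinv : ∀ a : A, ∀ z ∈ Z, a • z ∈ Z := by
    rintro a _ ⟨z, hz, rfl⟩
    letI := subAction (A := A) S hSinv
    exact ⟨a • z, Subgroup.characteristic_iff_map_le.1 inferInstance (MulDistribMulAction.toMulAut A S a) ⟨z, hz, rfl⟩, rfl⟩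
  have hZk : (Nat.card Z : k) ≠ 0 := by
    obtain ⟨l, hl⟩ := IsPGroup.iff_card.1 (hS.to_le (map_subtype_le (frattini S)))
    rw [hl, Nat.cast_pow]; exact pow_ne_zero _ hsk
  have hcZ : ∀ x y : S, ⁅(x : G), (y : G)⁆ ∈ Z := fun x y =>
    ⟨⁅x, y⁆, Cfsg.Agent.PGroup.commutatorElement_mem_frattini hS x y, rfl⟩
  set c₀ : Z := ⟨⁅x₀, y₀⁆, hcZ ⟨x₀, hx₀⟩ ⟨y₀, hy₀⟩⟩ with hc₀
  -- a weight which is non-trivial on the commutator
  obtain ⟨ν, hWne, hν₀⟩ : ∃ ν : Z →* kˣ, wspace Z ρ ν ≠ ⊥ ∧ ν c₀ ≠ 1 := by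
    by_contra hall
    push Not at hall
    apply hne
    have h1 : ρ ⁅x₀, y₀⁆ = 1 := by
      refine LinearMap.ext fun v => ?_
      have hv : v ∈ ⨆ χ : Z →* kˣ, wspace Z ρ χ := by
        rw [iSup_wspace_eq_top (ρ := ρ) Z hZk]; exact Submodule.mem_top
      refine Submodule.iSup_induction _ (motive := fun v => ρ ⁅x₀, y₀⁆ v = (1 : End k V) v) hv
        (fun χ w hw => ?_) (by simp) (fun u w hu hw => by rw [map_add, map_add, hu, hw])
      by_cases hw0 : w = 0
      · simp [hw0]
      have := (mem_wspace Z).1 hw c₀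
      rw [hall χ (fun hb => hw0 (by rwa [hb, Submodule.mem_bot] at hw)), Units.val_one, one_smul] at this
      rw [Module.End.one_apply]; exact this
    exact commutatorElement_eq_one_iff_mul_comm.1 (hinj (h1.trans (map_one ρ).symm))
  set W := wspace Z ρ ν with hW
  have hν : ν ≠ 1 := fun e => hν₀ (by rw [e]; rfl)
  obtain ⟨a₀, ha1, hτW, hfixW⟩ := component h hcop hfG hR hpk hqk Z hZinv hZk ν hWne hν
  have hWG : ∀ x, ∀ v ∈ W, ρ x v ∈ W := by
    intro x v hv
    rw [hW, mem_wspace] at hv ⊢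
    intro r
    rw [← Module.End.mul_apply, ← map_mul, ← mem_center_iff.1 (hΦ r.2) x, map_mul, Module.End.mul_apply,
      hv, map_smul]
  haveI : Nontrivial W := Submodule.nontrivial_iff_ne_bot.2 hWne
  let ρW := HH.subRep ρ W hWG
  have hscal : ∀ x y : S, ∃ a : k, ρW ⁅(x : G), (y : G)⁆ = a • (1 : End k W) := fun x y =>
    ⟨(ν ⟨_, hcZ x y⟩ : k), LinearMap.ext fun v => Subtype.ext ((mem_wspace Z).1 v.2 ⟨_, hcZ x y⟩)⟩
  -- the order of the stabilizer
  haveI hp' := Fact.mk h.hp
  haveI hq' := Fact.mk h.hq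
  obtain ⟨o, ho, hop, hok, hoc, hoex⟩ : ∃ o, orderOf a₀ = o ∧ o.Prime ∧ (o : k) ≠ 0 ∧
      (Nat.card G).Coprime o ∧ (o = p ∨ (o = q ∧ ∀ s' : ℕ, s' ∣ Nat.card G → NonExc o s')) := by
    by_cases haN : a₀ ∈ zpowers γ
    · refine ⟨q, ?_, h.hq, hqk, hcop.coprime_dvd_right (dvd_mul_left q p), Or.inr ⟨rfl, fun s' hd => h.nonExc_q hcop hd⟩⟩
      rcases (Nat.dvd_prime h.hq).1 (h.order ▸ Nat.card_zpowers γ ▸ Subgroup.orderOf_dvd_natCard _ haN) with e | e
      · exact absurd (orderOf_eq_one_iff.1 e) ha1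
      · exact e
    · exact ⟨p, h.orderOf_eq ha1 haN, h.hp, hpk, hcop.coprime_dvd_right (dvd_mul_right p q), Or.inl rfl⟩
  haveI := Fact.mk hop
  set φ : MulAut G := MulDistribMulAction.toMulAut A G a₀ with hφdef
  have hφp : φ ^ o = 1 := by rw [hφdef, ← map_pow, ← ho, pow_orderOf_eq_one, map_one]
  set T₀ := (τ a₀).restrict hτW with hT₀def
  have hT₀p : T₀ ^ o = 1 := LinearMap.ext fun v => Subtype.ext (by
    rw [hT₀def, Module.End.pow_restrict]
    show (τ a₀ ^ o) (v : V) = v
    rw [← map_pow, ← ho, pow_orderOf_eq_one, map_one, Module.End.one_apply])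
  have hρT : ∀ x, T₀ * ρW x = ρW (φ x) * T₀ := fun x =>
    LinearMap.ext fun v => Subtype.ext (hR.apply a₀ x (v : V))
  have hfix : ∀ v : W, T₀ v = v → v = 0 := fun v hv => Subtype.ext (hfixW v v.2 (congrArg Subtype.val hv))
  have hscop : s ≠ o := fun e => by
    have hs1 : s ∣ Nat.card G := by
      rcases Nat.eq_zero_or_pos i with rfl | hi0
      · rw [pow_zero, Subgroup.card_eq_one] at hi
        rw [hi, mem_bot] at hx₀ hy₀
        exact absurd (by rw [hx₀, hy₀]) hne
      · exact (hi ▸ dvd_pow_self s hi0.ne').trans (card_subgroup_dvd_card S)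
    exact hop.one_lt.ne' (Nat.eq_one_of_dvd_coprimes hoc (e ▸ hs1) dvd_rfl)
  have hcent : ∀ x ∈ S, ρW (φ x) = ρW x := by
    by_cases hex : NonExc o s
    · let φS : MulAut S := MulEquiv.ofBijective
        (MonoidHom.mk' (fun x : S => (⟨φ x, hSinv a₀ x x.2⟩ : S)) fun a b => Subtype.ext (map_mul φ _ _))
        (Finite.injective_iff_bijective.1 fun a b h => Subtype.ext (φ.injective (congrArg Subtype.val h)))
      have hφi : ∀ (l : ℕ) (x : S), (((φS ^ l) x : S) : G) = (φ ^ l) (x : G) := by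
        intro l
        induction l with
        | zero => intro x; rfl
        | succ l ih => intro x; rw [pow_succ', MulAut.mul_apply, pow_succ', MulAut.mul_apply, ← ih]; rfl
      intro x hx
      exact HH.centralizes hscop hex hok hsk (ρW.comp S.subtype) φS T₀ hS
        (MulEquiv.ext fun x => Subtype.ext (by rw [hφi, hφp]; rfl)) hT₀p (fun x => hρT _) hfix ⟨x, hx⟩
    · obtain ⟨hs2, n, hn⟩ := not_not.1 hex
      subst hs2
      have hn1 : 1 ≤ n := by
        rcases Nat.eq_zero_or_pos n with h0 | h0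
        · rw [h0, pow_zero] at hn
          exact absurd hn.symm hscop
        · exact h0
      refine centralizes_exceptional hn hn1 ρW φ T₀ hok hsk hφp hT₀p hρT hfix S T (fun x hx => hSinv a₀ x hx)
        (fun x hx => hTinv a₀ x hx) hS ?_ (hoc.coprime_dvd_left (card_subgroup_dvd_card T)) hscal hgen
        (fun x hx => hΦ ⟨⟨x, hx⟩ ^ 2, Cfsg.Agent.PGroup.pow_mem_frattini hS _, rfl⟩) hTab
      rw [hj]
      exact ((Nat.coprime_primes ht.out Nat.prime_two).2 (Ne.symm hst)).pow_left _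
  -- the centralizer of the image of `S`
  have hu : ∀ x, ρW x * ρW x⁻¹ = 1 := fun x => by rw [← map_mul, mul_inv_cancel, map_one]
  have hu' : ∀ x, ρW x⁻¹ * ρW x = 1 := fun x => by rw [← map_mul, inv_mul_cancel, map_one]
  let K0 : Subgroup G :=
    { carrier := {g | ∀ x ∈ S, Commute (ρW g) (ρW x)}
      one_mem' := fun x _ => by rw [map_one]; exact Commute.one_left _
      mul_mem' := fun {a b} ha hb x hx => by rw [map_mul]; exact (ha x hx).mul_left (hb x hx)
      inv_mem' := fun {a} ha x hx =>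
        Commute.units_inv_left (u := ⟨ρW a, ρW a⁻¹, hu a, hu' a⟩) (ha x hx) }
  haveI hK0n : K0.Normal := ⟨fun g hg y x hx => by
    have h1 := hg (y⁻¹ * x * y) (by simpa using (inferInstance : S.Normal).conj_mem x hx y⁻¹)
    show ρW (y * g * y⁻¹) * ρW x = ρW x * ρW (y * g * y⁻¹)
    calc ρW (y * g * y⁻¹) * ρW x = ρW y * (ρW g * ρW (y⁻¹ * x * y)) * ρW y⁻¹ := by
          simp only [← map_mul]; congr 1; group
      _ = ρW y * (ρW (y⁻¹ * x * y) * ρW g) * ρW y⁻¹ := by rw [h1.eq]
      _ = _ := by simp only [← map_mul]; congr 1; group⟩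
  have hSK0 : ¬ S ≤ K0 := by
    intro hle
    apply hν₀
    have h1 : ρW ⁅x₀, y₀⁆ = 1 := by
      rw [commutatorElement_def, map_mul, map_mul, map_mul, (hle hx₀ y₀ hy₀).eq, mul_assoc (ρW y₀),
        hu, mul_one, hu]
    obtain ⟨v, hv, hv0⟩ := Submodule.exists_mem_ne_zero_of_ne_bot hWne
    refine Units.ext (smul_left_injective k hv0 ?_)
    show (ν c₀ : k) • v = ((1 : kˣ) : k) • v
    rw [← (mem_wspace Z).1 hv c₀, Units.val_one, one_smul]
    exact congrArg Subtype.val (LinearMap.congr_fun h1 ⟨v, hv⟩)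
  have hdiff : ∀ g : G, g⁻¹ * a₀ • g ∈ K0 := by
    intro g x hx
    have h1 : ρW (φ (g * x * g⁻¹)) = ρW (g * x * g⁻¹) := hcent _ ((inferInstance : S.Normal).conj_mem x hx g)
    have h2 : ρW (φ x) = ρW x := hcent x hx
    rw [map_mul φ, map_mul φ, map_inv φ, map_mul ρW, map_mul ρW, h2] at h1
    show ρW (g⁻¹ * φ g) * ρW x = ρW x * ρW (g⁻¹ * φ g)
    calc ρW (g⁻¹ * φ g) * ρW x = ρW g⁻¹ * (ρW (φ g) * ρW x * ρW (φ g)⁻¹) * ρW (φ g) := by
          rw [map_mul, mul_assoc (ρW g⁻¹) (ρW (φ g) * ρW x * _), mul_assoc (ρW (φ g) * ρW x), hu', mul_one,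
            ← mul_assoc]
      _ = ρW g⁻¹ * ρW (g * x * g⁻¹) * ρW (φ g) := by rw [h1]
      _ = _ := by simp only [← map_mul]; congr 1; group
  -- the largest invariant subgroup in it
  set K : Subgroup G := ⨅ c : A, K0.comap (MulDistribMulAction.toMulAut A G c).toMonoidHom with hK
  have hKmem : ∀ g, g ∈ K ↔ ∀ c : A, c • g ∈ K0 := fun g => by
    rw [hK, Subgroup.mem_iInf]; rfl
  haveI hKn : K.Normal := ⟨fun g hg y => by
    rw [hKmem] at hg ⊢
    intro c
    rw [smul_mul', smul_mul', smul_inv']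
    exact hK0n.conj_mem _ (hg c) _⟩
  have hKinv : ∀ a : A, ∀ g ∈ K, a • g ∈ K := fun a g hg => by
    rw [hKmem] at hg ⊢
    intro c
    rw [← mul_smul]
    exact hg _
  have hKle : K ≤ K0 := fun g hg => by have := (hKmem g).1 hg 1; rwa [one_smul] at this
  letI := quotAction' (A := A) K hKinv
  have hdvd : Nat.card (G ⧸ K) ∣ Nat.card G := Subgroup.card_quotient_dvd_card _
  haveI : Group.IsSolvable (G ⧸ K) :=
    Group.isSolvable_of_surjective (f := QuotientGroup.mk' K) (QuotientGroup.mk'_surjective _)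
  have hfq : ∀ x : G ⧸ K, (∀ a : A, a • x = x) → x = 1 := by
    intro x hx
    obtain ⟨g, rfl⟩ := QuotientGroup.mk_surjective x
    obtain ⟨c, hc, hgc⟩ := exists_fixed_coset hcopA K hKinv g fun a => QuotientGroup.eq.1 (hx a).symm
    rw [hfG c hc, mul_one] at hgc
    exact (QuotientGroup.eq_one_iff g).2 (inv_mem_iff.1 hgc)
  have hnil : Group.IsNilpotent (G ⧸ K) := by
    have hmem : ∀ (c : A) (g : G), c • g ∈ K0 → ∀ n : ℕ, (a₀ ^ n * c) • g ∈ K0 := by
      intro c g hg n
      induction n with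
      | zero => simpa using hg
      | succ n ih =>
        have := K0.mul_mem ih (hdiff ((a₀ ^ n * c) • g))
        rwa [mul_inv_cancel_left, ← mul_smul, ← mul_assoc, ← pow_succ'] at this
    by_cases haN : a₀ ∈ zpowers γ
    · haveI := h.normal
      have hz : zpowers a₀ = zpowers γ := eq_of_le_of_card_ge (zpowers_le.2 haN) (by
        rw [Nat.card_zpowers, Nat.card_zpowers, h.order, ho]
        rcases hoex with e | ⟨e, -⟩
        · exact absurd ((Nat.prime_dvd_prime_iff_eq h.hp h.hq).1 (by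
            rw [← e, ← ho, ← h.order, ← Nat.card_zpowers γ]
            exact Subgroup.orderOf_dvd_natCard _ haN)) h.hne
        · exact e.ge)
      have hz2 : ∀ g ∈ zpowers γ, ∀ y, y⁻¹ * g • y ∈ K0 := by
        intro g hg
        obtain ⟨n, rfl⟩ := (isOfFinOrder_of_finite a₀).mem_powers_iff_mem_zpowers.2 (hz.symm ▸ hg)
        intro y
        show y⁻¹ * a₀ ^ n • y ∈ K0
        clear hg
        induction n with
        | zero => simp
        | succ n ih =>
          have := K0.mul_mem ih (hdiff (a₀ ^ n • y))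
          rwa [mul_assoc, mul_inv_cancel_left, ← mul_smul, ← pow_succ'] at this
      have hγfix : ∀ x : G ⧸ K, γ • x = x := by
        intro x
        obtain ⟨g, rfl⟩ := QuotientGroup.mk_surjective x
        refine (QuotientGroup.eq.2 ((hKmem _).2 fun c => ?_)).symm
        have := hz2 _ (h.normal.conj_mem γ (mem_zpowers γ) c) (c • g)
        rw [mul_smul, mul_smul, inv_smul_smul] at this
        rwa [smul_mul', smul_inv']
      obtain ⟨b, hb⟩ : ∃ b : A, b ∉ zpowers γ := by
        by_contra hc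
        push Not at hc
        haveI : IsCyclic A := ⟨γ, hc⟩
        exact h.nonab IsCyclic.isMulCommutative
      have hb1 : b ≠ 1 := fun e => hb (e ▸ one_mem _)
      have hbp := h.orderOf_eq hb1 hb
      refine Cfsg.Agent.Solvable.isNilpotent_of_fpf_of_isSolvable h.hp
        (φ := MulDistribMulAction.toMulAut A (G ⧸ K) b) (fun x hx => hfq x fun a => ?_) ?_
      · have hle : Subgroup.closure ({γ, b} : Set A) ≤ MulAction.stabilizer A x := by
          rw [Subgroup.closure_le]
          rintro y (rfl | rfl)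
          exacts [hγfix x, hx]
        rw [h.sup_eq_top h.gamma_ne hb] at hle
        exact hle (mem_top a)
      · funext x
        show (fun y : G ⧸ K => b • y)^[p] x = x
        rw [smul_iterate_apply, ← hbp, pow_orderOf_eq_one, one_smul]
    · haveI : (K0.map (QuotientGroup.mk' K)).Normal := hK0n.map _ (QuotientGroup.mk'_surjective K)
      have hiff : ∀ g : G, QuotientGroup.mk g ∈ K0.map (QuotientGroup.mk' K) ↔ g ∈ K0 := fun g => by
        refine ⟨fun ⟨g', hg', e⟩ => ?_, fun hg => ⟨g, hg, rfl⟩⟩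
        have := K0.mul_mem hg' (hKle (QuotientGroup.eq.1 e))
        rwa [mul_inv_cancel_left] at this
      refine (nilpotent_of_conj_kernels h (hcop.coprime_dvd_left hdvd) hfq ha1 haN
        (K0.map (QuotientGroup.mk' K)) (fun x => ?_) (fun x hx => ?_)).1
      · obtain ⟨g, rfl⟩ := QuotientGroup.mk_surjective x
        exact (hiff _).2 (hdiff g)
      · obtain ⟨g, rfl⟩ := QuotientGroup.mk_surjective x
        refine (QuotientGroup.eq_one_iff g).2 ((hKmem g).2 fun c => ?_)
        haveI := h.normal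
        have hc : c ∈ zpowers a₀ ⊔ (zpowers γ : Subgroup A) := by
          have hle : Subgroup.closure ({γ, a₀} : Set A) ≤ zpowers a₀ ⊔ zpowers γ := by
            rw [Subgroup.closure_le]
            rintro y (rfl | rfl)
            exacts [mem_sup_right (mem_zpowers y), mem_sup_left (mem_zpowers y)]
          rw [h.sup_eq_top h.gamma_ne haN] at hle
          exact hle (mem_top c)
        rw [Subgroup.mem_sup_of_normal_right] at hc
        obtain ⟨d, hd, e, he, rfl⟩ := hc
        obtain ⟨n, rfl⟩ := (isOfFinOrder_of_finite a₀).mem_powers_iff_mem_zpowers.2 hd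
        obtain ⟨l, hl⟩ := (isOfFinOrder_of_finite γ).mem_powers_iff_mem_zpowers.2 ((zpowers γ).inv_mem he)
        refine hmem _ _ ?_ n
        have h1 := (hiff _).1 (hx (l % q) (Nat.mod_lt _ h.hq.pos))
        have hl' : γ ^ l = e⁻¹ := hl
        rwa [← pow_eq_pow_mod l (h.order ▸ pow_orderOf_eq_one γ), hl', inv_inv] at h1
  -- the conclusion
  apply hSK0
  refine le_trans ?_ hKle
  haveI := hnil
  obtain ⟨n, hn⟩ := Subgroup.nilpotent_iff_lowerCentralSeries.1 (inferInstance : Group.IsNilpotent (G ⧸ K))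
  have hl : ∀ m, S ≤ (⊤ : Subgroup G).lowerCentralSeries m := by
    intro m
    induction m with
    | zero => simp
    | succ m ih =>
      rw [Subgroup.lowerCentralSeries_succ]
      exact hgen.le.trans (commutator_mono ih le_top)
  have h1 : S.map (QuotientGroup.mk' K) ≤ ⊥ := by
    refine (map_mono (hl n)).trans ?_
    rw [Subgroup.map_lowerCentralSeries, Subgroup.map_top_of_surjective _ (QuotientGroup.mk'_surjective K), hn]
  rwa [map_le_iff_le_comap, MonoidHom.comap_bot, QuotientGroup.ker_mk'] at h1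

end key

universe v w

/-- Coprime invariant subgroups, one normalized by the other, commute. -/
theorem key_aux {k : Type*} [Field k] [IsAlgClosed k] {A : Type*} [Group A] [Finite A] {p q : ℕ} {γ : A}
    (h : IsPQ A p q γ) (hpk : (p : k) ≠ 0) (hqk : (q : k) ≠ 0)
    {s t : ℕ} [Fact s.Prime] [Fact t.Prime] (hst : s ≠ t) (hsk : (s : k) ≠ 0)
    {V : Type v} [AddCommGroup V] [Module k V] [FiniteDimensional k V] :
    ∀ (n : ℕ) (G : Type w) [Group G] [Finite G] [Group.IsSolvable G] [MulDistribMulAction A G]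
      (ρ : G →* End k V) (τ : A →* End k V) (S T : Subgroup G), Nat.card G = n →
      (Nat.card G).Coprime (p * q) → (∀ x : G, (∀ a : A, a • x = x) → x = 1) →
      IsRep ρ τ → Function.Injective ρ → S.Normal →
      (∀ a : A, ∀ x ∈ S, a • x ∈ S) → (∀ a : A, ∀ x ∈ T, a • x ∈ T) →
      IsPGroup s S → IsPGroup t T → S ⊔ T = ⊤ → ⁅S, T⁆ = ⊥ := by
  intro n
  induction n using Nat.strong_induction_on with
  | _ n ih =>
  intro G _ _ _ _ ρ τ S T hn hcop hfG hR hinj hSn hSinv hTinv hS hT htop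
  classical
  haveI := hSn
  obtain ⟨i, hi⟩ := IsPGroup.iff_card.1 hS
  obtain ⟨j, hj⟩ := IsPGroup.iff_card.1 hT
  have hTS : (Nat.card T).Coprime (Nat.card S) := by
    rw [hi, hj]; exact ((Nat.coprime_primes Fact.out Fact.out).2 (Ne.symm hst)).pow _ _
  -- proper pairs
  have hsub : ∀ S0 T0 : Subgroup G, S0 ≤ S → T0 ≤ T → T0 ≤ normalizer (S0 : Set G) →
      (∀ a : A, ∀ x ∈ S0, a • x ∈ S0) → (∀ a : A, ∀ x ∈ T0, a • x ∈ T0) →
      (S0 ≠ S ∨ T0 ≠ T) → ⁅S0, T0⁆ = ⊥ := by
    intro S0 T0 hS0 hT0 hnorm hS0i hT0i hne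
    set H := S0 ⊔ T0 with hH
    have hHinv : ∀ a : A, ∀ x ∈ H, a • x ∈ H := by
      intro a x hx
      have hle : H.map (MulDistribMulAction.toMulAut A G a).toMonoidHom ≤ H := by
        rw [hH, Subgroup.map_sup]
        exact sup_le_sup (by rintro _ ⟨y, hy, rfl⟩; exact hS0i a y hy) (by rintro _ ⟨y, hy, rfl⟩; exact hT0i a y hy)
      exact hle ⟨x, hx, rfl⟩
    have hT0S0 : (Nat.card T0).Coprime (Nat.card S0) :=
      (hTS.coprime_dvd_left (card_dvd_of_le hT0)).coprime_dvd_right (card_dvd_of_le hS0)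
    have hcard : Nat.card H = Nat.card T0 * Nat.card S0 := by
      rw [hH, sup_comm, Cfsg.Agent.Coprime.card_sup_of_coprime hnorm hT0S0]
    have hcardG : Nat.card G = Nat.card T * Nat.card S := by
      rw [← Cfsg.Agent.Coprime.card_sup_of_coprime le_normalizer_of_normal hTS, sup_comm, htop, card_top]
    have hlt : Nat.card H < n := by
      rw [← hn, hcard, hcardG]
      have h1 := Nat.le_of_dvd Nat.card_pos (card_dvd_of_le hT0)
      have h2 := Nat.le_of_dvd Nat.card_pos (card_dvd_of_le hS0)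
      rcases hne with hne | hne
      · exact Nat.mul_lt_mul_of_le_of_lt h1 (lt_of_le_of_ne h2 fun e => hne (eq_of_le_of_card_ge hS0 e.ge)) Nat.card_pos
      · exact Nat.mul_lt_mul_of_lt_of_le (lt_of_le_of_ne h1 fun e => hne (eq_of_le_of_card_ge hT0 e.ge)) h2 Nat.card_pos
    letI := subAction (A := A) H hHinv
    haveI : (S0.subgroupOf H).Normal := normal_subgroupOf_of_le_normalizer (sup_le le_normalizer hnorm)
    have h1 := ih _ hlt H (ρ.comp H.subtype) τ (S0.subgroupOf H) (T0.subgroupOf H) rfl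
      (hcop.coprime_dvd_left (card_subgroup_dvd_card H))
      (fun x hx => Subtype.ext (hfG _ fun a => congrArg Subtype.val (hx a)))
      ⟨fun a x => hR.compat a (x : G), hR.fix⟩ (fun a b hab => Subtype.ext (hinj hab)) inferInstance
      (fun a x hx => hS0i a _ hx) (fun a x hx => hT0i a _ hx)
      ((hS.to_le hS0).comap_of_injective H.subtype H.subtype_injective)
      ((hT.to_le hT0).comap_of_injective H.subtype H.subtype_injective)
      (by rw [← subgroupOf_sup le_sup_left le_sup_right, subgroupOf_self])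
    rw [commutator_eq_bot_iff_le_centralizer] at h1 ⊢
    intro x hx
    rw [mem_centralizer_iff]
    intro y hy
    exact congrArg Subtype.val (mem_centralizer_iff.1 (h1 (x := ⟨x, mem_sup_left hx⟩) hx)
      ⟨y, mem_sup_right hy⟩ hy)
  have hTN : T ≤ normalizer (S : Set G) := le_normalizer_of_normal
  by_contra hne
  have hcS : ⁅S, T⁆ ≤ S := Cfsg.Agent.Coprime.commutator_le_of_le_normalizer hTN
  have hgen : S = ⁅S, T⁆ := by
    by_contra hne1
    apply hne
    have hinv1 : ∀ a : A, ∀ x ∈ ⁅S, T⁆, a • x ∈ ⁅S, T⁆ := by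
      intro a x hx
      have hle : ⁅S, T⁆.map (MulDistribMulAction.toMulAut A G a).toMonoidHom ≤ ⁅S, T⁆ := by
        rw [Subgroup.map_commutator]
        exact commutator_mono (by rintro _ ⟨y, hy, rfl⟩; exact hSinv a y hy) (by rintro _ ⟨y, hy, rfl⟩; exact hTinv a y hy)
      exact hle ⟨x, hx, rfl⟩
    have h1 := hsub ⁅S, T⁆ T hcS le_rfl (Cfsg.Agent.Coprime.le_normalizer_commutator_right S T) hinv1 hTinv
      (Or.inl (Ne.symm hne1))
    rwa [Cfsg.Agent.Coprime.commutator_commutator_eq hTN hTS] at h1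
  set Φ := (frattini S).map S.subtype with hΦdef
  haveI : Φ.Normal := ConjAct.normal_of_characteristic_of_normal
  have hΦinv : ∀ a : A, ∀ z ∈ Φ, a • z ∈ Φ := by
    rintro a _ ⟨z, hz, rfl⟩
    letI := subAction (A := A) S hSinv
    exact ⟨a • z, Subgroup.characteristic_iff_map_le.1 inferInstance (MulDistribMulAction.toMulAut A S a) ⟨z, hz, rfl⟩, rfl⟩
  have hΦne : Φ ≠ S := by
    intro e
    apply hne
    have hft : frattini S = ⊤ := by
      refine eq_top_iff.2 fun x _ => ?_
      have hx : (x : G) ∈ Φ := e.symm ▸ x.2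
      obtain ⟨y, hy, hyx⟩ := hx
      rwa [← show y = x from Subtype.ext hyx]
    have hb : S = ⊥ := by
      have h0 := frattini_nongenerating (K := (⊥ : Subgroup S)) (by rw [hft, bot_sup_eq])
      exact eq_bot_iff.2 fun x hx => by
        have : (⟨x, hx⟩ : S) ∈ (⊥ : Subgroup S) := h0.symm ▸ mem_top _
        rw [mem_bot] at this ⊢
        exact congrArg Subtype.val this
    rw [hb]
    exact commutator_bot_left _
  have hΦT : ⁅Φ, T⁆ = ⊥ := hsub Φ T (map_subtype_le _) le_rfl le_normalizer_of_normal hΦinv hTinv (Or.inl hΦne)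
  have hΦS : ⁅⁅S, T⁆, Φ⁆ = ⊥ := by
    refine commutator_commutator_eq_bot_of_rotate ?_ ?_
    · rw [commutator_comm T Φ, hΦT, commutator_bot_left]
    · refine eq_bot_iff.2 (le_trans (commutator_mono (commutator_le_left Φ S) le_rfl) hΦT.le)
  rw [← hgen] at hΦS
  have hΦc : Φ ≤ center G := by
    intro z hz
    refine mem_center_iff.2 fun g => ?_
    have hle : S ⊔ T ≤ centralizer {z} := by
      refine sup_le (fun x hx => ?_) (fun x hx => ?_)
      · rw [mem_centralizer_singleton_iff]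
        exact (mem_centralizer_iff.1 (commutator_eq_bot_iff_le_centralizer.1 hΦS hx) z hz).symm
      · rw [mem_centralizer_singleton_iff]
        exact mem_centralizer_iff.1 (commutator_eq_bot_iff_le_centralizer.1 hΦT hz) x hx
    rw [htop] at hle
    exact mem_centralizer_singleton_iff.1 (hle (mem_top g))
  have hTne : T ≠ ⊥ := fun e => hne (by rw [e, commutator_bot_right])
  set ΦT := (frattini T).map T.subtype with hΦTdef
  have hΦTinv : ∀ a : A, ∀ z ∈ ΦT, a • z ∈ ΦT := by
    rintro a _ ⟨z, hz, rfl⟩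
    letI := subAction (A := A) T hTinv
    exact ⟨a • z, Subgroup.characteristic_iff_map_le.1 inferInstance (MulDistribMulAction.toMulAut A T a) ⟨z, hz, rfl⟩, rfl⟩
  have hΦTne : ΦT ≠ T := by
    intro e
    apply hTne
    have hft : frattini T = ⊤ := by
      refine eq_top_iff.2 fun x _ => ?_
      have hx : (x : G) ∈ ΦT := e.symm ▸ x.2
      obtain ⟨y, hy, hyx⟩ := hx
      rwa [← show y = x from Subtype.ext hyx]
    have h0 := frattini_nongenerating (K := (⊥ : Subgroup T)) (by rw [hft, bot_sup_eq])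
    exact eq_bot_iff.2 fun x hx => by
      have : (⟨x, hx⟩ : T) ∈ (⊥ : Subgroup T) := h0.symm ▸ mem_top _
      rw [mem_bot] at this ⊢
      exact congrArg Subtype.val this
  have hΦTS : ⁅S, ΦT⁆ = ⊥ := hsub S ΦT le_rfl (map_subtype_le _) le_normalizer_of_normal hSinv hΦTinv (Or.inr hΦTne)
  have hTab : ∀ g ∈ T, ∀ g' ∈ T, ∀ x ∈ S, ⁅g, g'⁆ * x = x * ⁅g, g'⁆ := fun g hg g' hg' x hx =>
    mem_centralizer_iff.1 (commutator_eq_bot_iff_le_centralizer.1 hΦTS hx) _
      ⟨⁅⟨g, hg⟩, ⟨g', hg'⟩⁆, Cfsg.Agent.PGroup.commutatorElement_mem_frattini hT _ _, rfl⟩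
  have := key_minimal h hcop hfG hR hinj hpk hqk hst hsk S T hSinv hTinv hS hT hgen hΦc hTab
  exact hne (by rw [this, commutator_bot_left])

section faithful

variable {G : Type*} [Group G] [Finite G] [MulDistribMulAction A G]

/-- **The faithful irreducible case, in general.** -/
theorem nilpotent_of_faithful_any [Group.IsSolvable G] (h : IsPQ A p q γ) {ρ : G →* End k V}
    {τ : A →* End k V} (hcop : (Nat.card G).Coprime (p * q))
    (hfG : ∀ x : G, (∀ a : A, a • x = x) → x = 1) (hR : IsRep ρ τ) (hirr : Irred₂ ρ τ)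
    (hinj : Function.Injective ρ) (hpk : (p : k) ≠ 0) (hqk : (q : k) ≠ 0) :
    Group.IsNilpotent G ∧ (p = 2 → q = 3 → ∀ x y : G, x * y = y * x) := by
  classical
  have hcopA : (Nat.card G).Coprime (Nat.card A) := h.card.symm ▸ hcop
  refine ⟨Cfsg.Agent.Ward.isNilpotent_of_forall_commute fun s t hs ht hst x hx y hy => ?_, fun hp2 hq3 => ?_⟩
  · haveI := Fact.mk hs
    haveI := Fact.mk ht
    set O := Cfsg.pCore t G
    have hOp : IsPGroup t O := Cfsg.Agent.Cores.pCore_isPGroup
    have hOinv : ∀ a : A, ∀ z ∈ O, a • z ∈ O := fun a z hz =>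
      Subgroup.characteristic_iff_map_le.1 inferInstance (MulDistribMulAction.toMulAut A G a) ⟨z, hz, rfl⟩
    by_cases htk : (t : k) = 0
    · have : y = 1 := hinj (by rw [map_one]; exact trivial_of_cast_eq_zero hR hirr htk O hOinv hOp hy)
      rw [this]; exact Commute.one_right x
    let P₀ : Sylow s G := default
    obtain ⟨g, hg⟩ := exists_fixed_of_transitive (Ξ := Sylow s G) hcopA (fun a g P => by
      refine Sylow.ext (SetLike.ext fun x => ?_)
      simp only [Sylow.pointwise_smul_def, Sylow.coe_subgroup_smul]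
      simp only [Subgroup.mem_pointwise_smul_iff_inv_smul_mem, MulAut.smul_def, MulAut.conj_inv_apply,
        smul_mul', smul_inv', inv_smul_smul])
      P₀ (fun a => (MulAction.exists_smul_eq G P₀ (a • P₀)).imp fun t ht => ht.symm)
    set P := g • P₀
    have hPinv : ∀ (a : A), ∀ z ∈ (P : Subgroup G), a • z ∈ (P : Subgroup G) := fun a z hz => by
      have h1 := Subgroup.smul_mem_pointwise_smul z a (P : Subgroup G) hz
      rwa [← Sylow.pointwise_smul_def, hg a] at h1
    set H := O ⊔ (P : Subgroup G) with hH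
    have hHinv : ∀ a : A, ∀ z ∈ H, a • z ∈ H := by
      intro a z hz
      have hle : H.map (MulDistribMulAction.toMulAut A G a).toMonoidHom ≤ H := by
        rw [hH, Subgroup.map_sup]
        exact sup_le_sup (by rintro _ ⟨w, hw, rfl⟩; exact hOinv a w hw) (by rintro _ ⟨w, hw, rfl⟩; exact hPinv a w hw)
      exact hle ⟨z, hz, rfl⟩
    letI := subAction (A := A) H hHinv
    haveI : (O.subgroupOf H).Normal := (inferInstance : O.Normal).subgroupOf H
    have hc := key_aux (k := k) (V := V) h hpk hqk (s := t) (t := s) (Ne.symm hst) htk _ H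
      (ρ.comp H.subtype) τ (O.subgroupOf H) ((P : Subgroup G).subgroupOf H) rfl
      (hcop.coprime_dvd_left (card_subgroup_dvd_card H))
      (fun z hz => Subtype.ext (hfG _ fun a => congrArg Subtype.val (hz a)))
      ⟨fun a z => hR.compat a (z : G), hR.fix⟩ (fun a b hab => Subtype.ext (hinj hab)) inferInstance
      (fun a z hz => hOinv a _ hz) (fun a z hz => hPinv a _ hz)
      (hOp.comap_of_injective H.subtype H.subtype_injective)
      (P.isPGroup'.comap_of_injective H.subtype H.subtype_injective)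
      (by rw [← subgroupOf_sup le_sup_left le_sup_right, subgroupOf_self])
    rw [commutator_eq_bot_iff_le_centralizer] at hc
    have hcomm : ∀ z ∈ (P : Subgroup G), ∀ w ∈ O, z * w = w * z := fun z hz w hw =>
      congrArg Subtype.val (mem_centralizer_iff.1 (hc (x := ⟨w, mem_sup_left hw⟩) hw) ⟨z, mem_sup_right hz⟩ hz)
    -- conjugate `x` into `P`
    obtain ⟨e, he⟩ := hx
    obtain ⟨Q, hQ⟩ := Cfsg.Agent.Element.exists_sylow_mem he
    obtain ⟨c, hc'⟩ := MulAction.exists_smul_eq G P Q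
    rw [← hc', Sylow.coe_subgroup_smul, Subgroup.mem_pointwise_smul_iff_inv_smul_mem] at hQ
    have hxP : c⁻¹ * x * c ∈ (P : Subgroup G) := by
      simpa [MulAut.smul_def, MulAut.conj_inv_apply] using hQ
    have hy' : c⁻¹ * y * c ∈ O := by simpa using (inferInstance : O.Normal).conj_mem y hy c⁻¹
    have h2 := hcomm _ hxP _ hy'
    show x * y = y * x
    calc x * y = c * (c⁻¹ * x * c * (c⁻¹ * y * c)) * c⁻¹ := by group
      _ = c * (c⁻¹ * y * c * (c⁻¹ * x * c)) * c⁻¹ := by rw [h2]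
      _ = y * x := by group
  · subst hp2 hq3
    have hne : ∀ r : ℕ, ∀ s : ℕ, s.Prime → s ∣ Nat.card G → NonExc r s := by
      rintro r s _ hd ⟨rfl, -⟩
      exact absurd (Nat.eq_one_of_dvd_coprimes hcop hd ⟨3, rfl⟩) (by norm_num)
    exact (nilpotent_of_faithful h hcop hfG hR hirr hinj hpk hqk (hne 2) (hne 3)).2 rfl rfl

end faithful

end Cfsg.Agent.FGS.PQ
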