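import Cfsg.Agent.FGS.FpfSolvable
import Cfsg.Agent.FGS.PQAction
import Cfsg.Agent.Solvable.FixedPointFree
import Cfsg.Agent.Modules.Fixed
import Cfsg.Agent.Lib.Element
import Mathlib.GroupTheory.FixedPointFree

/-!
A solvable group with a coprime fixed-point-free action of a non-abelian group of order `p * q`,
acting faithfully and irreducibly (together with the operators) without common fixed vectors, is
nilpotent; it is abelian when `p = 2` and `q = 3`.
-/

set_option linter.unusedSectionVars false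
set_option linter.style.haveILetI false

namespace Cfsg.Agent.FGS.PQ

open Module Module.End Subgroup
open scoped Pointwise commutatorElement
open Cfsg.Agent.FGS.HH (NonExc)

variable {k : Type*} [Field k] [IsAlgClosed k] {V : Type*} [AddCommGroup V] [Module k V]
  [FiniteDimensional k V] {A G : Type*} [Group A] [Finite A] [Group G] [Finite G]
  [MulDistribMulAction A G] {p q : ℕ} {γ : A}

/-- `ρ` and `τ` form a compatible pair of actions without common fixed vectors -/
structure IsRep (ρ : G →* End k V) (τ : A →* End k V) : Prop where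
  compat : ∀ a x, τ a * ρ x = ρ (a • x) * τ a
  fix : ∀ v : V, (∀ a, τ a v = v) → v = 0

/-- no proper non-zero subspace is invariant under both actions -/
def Irred₂ (ρ : G →* End k V) (τ : A →* End k V) : Prop :=
  ∀ W : Submodule k V, (∀ x, ∀ v ∈ W, ρ x v ∈ W) → (∀ a, ∀ v ∈ W, τ a v ∈ W) → W = ⊥ ∨ W = ⊤

theorem IsRep.apply {ρ : G →* End k V} {τ : A →* End k V} (hR : IsRep ρ τ) (a : A) (x : G) (v : V) :
    τ a (ρ x v) = ρ (a • x) (τ a v) :=
  LinearMap.congr_fun (hR.compat a x) v

theorem tau_inv {τ : A →* End k V} (a : A) (v : V) : τ a⁻¹ (τ a v) = v := by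
  rw [← Module.End.mul_apply, ← map_mul, inv_mul_cancel, map_one, Module.End.one_apply]

theorem tau_inv' {τ : A →* End k V} (a : A) (v : V) : τ a (τ a⁻¹ v) = v := by
  rw [← Module.End.mul_apply, ← map_mul, mul_inv_cancel, map_one, Module.End.one_apply]

theorem rho_conj {ρ : G →* End k V} (g r : G) (v : V) : ρ r (ρ g v) = ρ g (ρ (g⁻¹ * r * g) v) := by
  rw [← Module.End.mul_apply, ← Module.End.mul_apply, ← map_mul, ← map_mul]
  congr 2
  group

/-- a normal invariant `s`-subgroup acts trivially in characteristic `s` -/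
theorem trivial_of_cast_eq_zero {ρ : G →* End k V} {τ : A →* End k V} (hR : IsRep ρ τ)
    (hirr : Irred₂ ρ τ) {s : ℕ} [hs : Fact s.Prime] (hsk : (s : k) = 0) (R : Subgroup G) [R.Normal]
    (hRinv : ∀ a : A, ∀ r ∈ R, a • r ∈ R) (hRp : IsPGroup s R) {r : G} (hr : r ∈ R) : ρ r = 1 := by
  haveI : CharP k s := by
    rcases hs.out.eq_one_or_self_of_dvd _ (ringChar.dvd hsk) with h | h
    · exact absurd h CharP.ringChar_ne_one
    · rw [← h]; exact ringChar.charP k
  rcases subsingleton_or_nontrivial V with hV | hV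
  · exact LinearMap.ext fun v => Subsingleton.elim _ _
  let W : Submodule k V := ⨅ z : R, eigenspace (ρ z) 1
  have hW : ∀ v, v ∈ W ↔ ∀ z ∈ R, ρ z v = v := fun v => by
    simp [W, Submodule.mem_iInf, mem_eigenspace_iff]
  obtain ⟨v, -, hv0, hv⟩ := Cfsg.Agent.PermLib.exists_fixed_vector hRp (ρ.comp R.subtype)
    (⊤ : Submodule k V) (fun _ _ _ => Submodule.mem_top) top_ne_bot
  have hWt : W = ⊤ := by
    refine (hirr W (fun g w hw => (hW _).2 fun z hz => ?_) (fun a w hw => (hW _).2 fun z hz => ?_)).resolve_left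
      fun hb => hv0 ?_
    · have h2 := (hW w).1 hw _ ((inferInstance : R.Normal).conj_mem z hz g⁻¹)
      rw [inv_inv] at h2
      rw [rho_conj, h2]
    · have h2 := (hW w).1 hw _ (hRinv a⁻¹ z hz)
      have h3 := hR.apply a (a⁻¹ • z) w
      rw [h2, smul_inv_smul] at h3
      exact h3.symm
    · have : v ∈ W := (hW v).2 fun z hz => hv ⟨z, hz⟩
      rwa [hb, Submodule.mem_bot] at this
  exact LinearMap.ext fun w => (hW w).1 (hWt ▸ Submodule.mem_top) r hr

section weights

variable {ρ : G →* End k V} {τ : A →* End k V} (R : Subgroup G)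

/-- the weight space of a character of `R` -/
def wspace (ρ : G →* End k V) (χ : R →* kˣ) : Submodule k V := ⨅ r : R, eigenspace (ρ r) (χ r : k)

theorem mem_wspace {χ : R →* kˣ} {v : V} : v ∈ wspace R ρ χ ↔ ∀ r : R, ρ r v = (χ r : k) • v := by
  simp [wspace, Submodule.mem_iInf, mem_eigenspace_iff]

/-- two weight spaces with different characters are disjoint -/
theorem eq_zero_of_mem_wspace {χ χ' : R →* kˣ} (h : χ ≠ χ') {v : V} (h1 : v ∈ wspace R ρ χ)
    (h2 : v ∈ wspace R ρ χ') : v = 0 := by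
  by_contra hv
  refine h (MonoidHom.ext fun r => Units.ext (smul_left_injective k hv ?_))
  show (χ r : k) • v = (χ' r : k) • v
  rw [← (mem_wspace R).1 h1 r, (mem_wspace R).1 h2 r]

/-- the averaged projection on a weight space -/
noncomputable def wproj [Fintype R] (ρ : G →* End k V) (χ : R →* kˣ) : End k V :=
  ∑ r : R, ((χ r)⁻¹ : kˣ).1 • ρ r

theorem wproj_apply [Fintype R] {χ χ' : R →* kˣ} {v : V} (hv : v ∈ wspace R ρ χ') :
    wproj R ρ χ v = (∑ r : R, ((χ r)⁻¹ * χ' r : kˣ).1) • v := by
  simp [wproj, LinearMap.sum_apply, (mem_wspace R).1 hv, smul_smul, Finset.sum_smul]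

open scoped Classical in
theorem wproj_eq [Fintype R] {χ χ' : R →* kˣ} {v : V} (hv : v ∈ wspace R ρ χ') :
    wproj R ρ χ v = if χ = χ' then (Nat.card R : k) • v else 0 := by
  rw [wproj_apply R hv]
  split_ifs with h
  · subst h
    simp [Nat.card_eq_fintype_card]
  · let f : R →* k :=
      { toFun := fun r => ((χ r)⁻¹ * χ' r : kˣ).1
        map_one' := by simp
        map_mul' := fun a b => by
          rw [← Units.val_mul, map_mul, map_mul, mul_inv, mul_mul_mul_comm] }
    have h0 : ∑ r, f r = 0 := by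
      refine sum_hom_units_eq_zero f fun h1 => h (MonoidHom.ext fun r => ?_)
      have : (χ r)⁻¹ * χ' r = 1 := Units.ext (DFunLike.congr_fun h1 r)
      exact inv_mul_eq_one.1 this
    show (∑ r, f r) • v = 0
    rw [h0, zero_smul]

variable [R.Normal] (hinv : ∀ a : A, ∀ r ∈ R, a • r ∈ R)

/-- `A` on the characters of `R` -/
def aChar (a : A) : (R →* kˣ) → (R →* kˣ) := fun χ =>
  χ.comp (MonoidHom.mk' (fun r : R => (⟨a⁻¹ • (r : G), hinv a⁻¹ r r.2⟩ : R)) fun r s =>
    Subtype.ext (smul_mul' a⁻¹ (r : G) s))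

theorem aChar_apply (a : A) (χ : R →* kˣ) (r : R) :
    aChar R hinv a χ r = χ ⟨a⁻¹ • (r : G), hinv a⁻¹ r r.2⟩ := rfl

/-- `G` on the characters of `R` -/
def gChar (g : G) : (R →* kˣ) → (R →* kˣ) := fun χ =>
  χ.comp (MonoidHom.mk' (fun r : R => (⟨g⁻¹ * r * g, by
    simpa using (inferInstance : R.Normal).conj_mem r r.2 g⁻¹⟩ : R)) fun r s =>
      Subtype.ext (by simp [mul_assoc]))

theorem tau_mem_wspace (hR : IsRep ρ τ) (a : A) {χ : R →* kˣ} {v : V} (hv : v ∈ wspace R ρ χ) :
    τ a v ∈ wspace R ρ (aChar R hinv a χ) := by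
  rw [mem_wspace] at hv ⊢
  intro r
  have h := hR.apply a (a⁻¹ • (r : G)) v
  rw [smul_inv_smul, hv ⟨_, hinv a⁻¹ r r.2⟩, map_smul] at h
  exact h.symm

theorem rho_mem_wspace (g : G) {χ : R →* kˣ} {v : V} (hv : v ∈ wspace R ρ χ) :
    ρ g v ∈ wspace R ρ (gChar R g χ) := by
  rw [mem_wspace] at hv ⊢
  intro r
  rw [rho_conj, hv ⟨g⁻¹ * r * g, by simpa using (inferInstance : R.Normal).conj_mem r r.2 g⁻¹⟩, map_smul]
  rfl

/-- every weight has a non-trivial stabilizer in `A` -/
theorem exists_stab [Finite R] (hR : IsRep ρ τ) (hRk : (Nat.card R : k) ≠ 0) {χ : R →* kˣ}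
    (hχ : wspace R ρ χ ≠ ⊥) : ∃ a : A, a ≠ 1 ∧ aChar R hinv a χ = χ := by
  classical
  by_contra h
  push Not at h
  haveI : Fintype A := Fintype.ofFinite A
  haveI : Fintype R := Fintype.ofFinite R
  obtain ⟨v, hv, hv0⟩ := Submodule.exists_mem_ne_zero_of_ne_bot hχ
  have hu : ∑ a : A, τ a v = 0 := hR.fix _ fun b => by
    rw [map_sum]
    exact Fintype.sum_equiv (Equiv.mulLeft b) _ _ fun a => by
      rw [Equiv.coe_mulLeft, map_mul, Module.End.mul_apply]
  have h1 := congrArg (wproj R ρ χ) hu
  rw [map_sum, map_zero, Finset.sum_eq_single (1 : A)] at h1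
  · rw [map_one, Module.End.one_apply, wproj_eq R hv, if_pos rfl] at h1
    exact hv0 ((smul_eq_zero_iff_right hRk).1 h1)
  · intro a _ ha
    rw [wproj_eq R (tau_mem_wspace R hinv hR a hv), if_neg (Ne.symm (h a ha))]
  · intro h'; exact absurd (Finset.mem_univ _) h'

/-- the norm: a character fixed by `A` is trivial -/
theorem eq_one_of_fixed [IsMulCommutative R] (hfG : ∀ x : G, (∀ a : A, a • x = x) → x = 1)
    (hcop : (Nat.card G).Coprime (Nat.card A)) {χ : R →* kˣ} (h : ∀ a : A, aChar R hinv a χ = χ) :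
    χ = 1 := by
  classical
  haveI : Fintype A := Fintype.ofFinite A
  letI : CommGroup R := { (inferInstance : Group R) with mul_comm := fun a b => IsMulCommutative.is_comm.comm a b }
  refine MonoidHom.ext fun r => ?_
  let P : R := ∏ a : A, (⟨a • (r : G), hinv a r r.2⟩ : R)
  have hP : (P : G) = 1 := by
    refine hfG _ fun b => ?_
    let f : R →* R := MonoidHom.mk' (fun s : R => (⟨b • (s : G), hinv b s s.2⟩ : R)) fun s t =>
      Subtype.ext (smul_mul' b (s : G) t)
    show ((f P : R) : G) = (P : G)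
    congr 1
    rw [map_prod]
    exact Fintype.prod_equiv (Equiv.mulLeft b) _ _ fun a => Subtype.ext (mul_smul b a (r : G)).symm
  have hχP : χ P = χ r ^ Nat.card A := by
    rw [map_prod, Finset.prod_congr rfl fun a _ => ?_, Finset.prod_const, Finset.card_univ,
      Nat.card_eq_fintype_card]
    have h1 := DFunLike.congr_fun (h a) ⟨a • (r : G), hinv a r r.2⟩
    rw [aChar_apply] at h1
    rw [← h1]
    exact congrArg χ (Subtype.ext (inv_smul_smul a (r : G)))
  rw [show P = 1 from Subtype.ext hP, map_one] at hχP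
  have h2 : χ r ^ Nat.card R = 1 := by rw [← map_pow, pow_card_eq_one', map_one]
  have h3 := pow_gcd_eq_one.2 ⟨h2, hχP.symm⟩
  rw [(hcop.coprime_dvd_left (Subgroup.card_subgroup_dvd_card R)), pow_one] at h3
  exact h3

end weights

section faithful

variable {ρ : G →* End k V} {τ : A →* End k V}

/-- An invariant normal abelian `s`-subgroup is centralized by every Sylow subgroup for another prime. -/
theorem exists_sylow_commute [Group.IsSolvable G] (h : IsPQ A p q γ)
    (hcop : (Nat.card G).Coprime (p * q)) (hfG : ∀ x : G, (∀ a : A, a • x = x) → x = 1)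
    (hR : IsRep ρ τ) (hirr : Irred₂ ρ τ) (hinj : Function.Injective ρ)
    (R : Subgroup G) [R.Normal] [IsMulCommutative R] (hinv : ∀ a : A, ∀ r ∈ R, a • r ∈ R)
    (hRk : (Nat.card R : k) ≠ 0) {t : ℕ} [Fact t.Prime] (ht : ¬ t ∣ Nat.card R) :
    ∃ P : Sylow t G, ∀ g ∈ (P : Subgroup G), ∀ r ∈ R, g * r = r * g := by
  classical
  have hcopA : (Nat.card G).Coprime (Nat.card A) := h.card.symm ▸ hcop
  let P₀ : Sylow t G := default
  obtain ⟨g, hg⟩ := exists_fixed_of_transitive (Ξ := Sylow t G) hcopA (fun a g P => by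
    refine Sylow.ext (SetLike.ext fun x => ?_)
    simp only [Sylow.pointwise_smul_def, Sylow.coe_subgroup_smul]
    simp only [Subgroup.mem_pointwise_smul_iff_inv_smul_mem, MulAut.smul_def, MulAut.conj_inv_apply,
      smul_mul', smul_inv', inv_smul_smul])
    P₀ (fun a => (MulAction.exists_smul_eq G P₀ (a • P₀)).imp fun t ht => ht.symm)
  set P := g • P₀ with hP
  have hPinv : ∀ (a : A), ∀ x ∈ (P : Subgroup G), a • x ∈ (P : Subgroup G) := fun a x hx => by
    have h1 := Subgroup.smul_mem_pointwise_smul x a (P : Subgroup G) hx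
    rwa [← Sylow.pointwise_smul_def, hg a] at h1
  refine ⟨P, ?_⟩
  letI : MulDistribMulAction A (P : Subgroup G) :=
    { smul := fun a x => ⟨a • (x : G), hPinv a x x.2⟩
      one_smul := fun x => Subtype.ext (one_smul A (x : G))
      mul_smul := fun a b x => Subtype.ext (mul_smul a b (x : G))
      smul_one := fun a => Subtype.ext (smul_one a)
      smul_mul := fun a x y => Subtype.ext (smul_mul' a (x : G) y) }
  letI : MulDistribMulAction A (R →* kˣ) :=
    { smul := fun a χ => aChar R hinv a χ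
      one_smul := fun χ => MonoidHom.ext fun r => congrArg χ (Subtype.ext (by simp))
      mul_smul := fun a b χ => MonoidHom.ext fun r => congrArg χ (Subtype.ext (by
        show (a * b)⁻¹ • (r : G) = b⁻¹ • (a⁻¹ • (r : G))
        rw [mul_inv_rev, mul_smul]))
      smul_one := fun a => MonoidHom.ext fun r => rfl
      smul_mul := fun a χ ψ => MonoidHom.ext fun r => rfl }
  letI : MulDistribMulAction (P : Subgroup G) (R →* kˣ) :=
    { smul := fun g χ => gChar R (g : G) χ
      one_smul := fun χ => MonoidHom.ext fun r => congrArg χ (Subtype.ext (by simp))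
      mul_smul := fun a b χ => MonoidHom.ext fun r => congrArg χ (Subtype.ext (by
        show ((a : G) * b)⁻¹ * r * ((a : G) * b) = (b : G)⁻¹ * ((a : G)⁻¹ * r * a) * b
        group))
      smul_one := fun a => MonoidHom.ext fun r => rfl
      smul_mul := fun a χ ψ => MonoidHom.ext fun r => rfl }
  have hPR : (Nat.card (P : Subgroup G)).Coprime (Nat.card R) := by
    obtain ⟨j, hj⟩ := IsPGroup.iff_card.1 P.isPGroup'
    rw [hj]
    exact Nat.Coprime.pow_left _ ((Fact.out : t.Prime).coprime_iff_not_dvd.2 ht)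
  haveI : Group.IsSolvable (P : Subgroup G) := inferInstance
  have hΛ := fix_of_stab (T := (P : Subgroup G)) (Ξ := R →* kˣ)
    (fun a g χ => MonoidHom.ext fun r => congrArg χ (Subtype.ext (by
      show (g : G)⁻¹ * (a⁻¹ • (r : G)) * g = a⁻¹ • ((a • (g : G))⁻¹ * r * (a • (g : G)))
      simp [smul_mul', smul_inv'])))
    h (hcop.coprime_dvd_left (Subgroup.card_subgroup_dvd_card _))
    (fun x hx => Subtype.ext (hfG _ fun a => congrArg Subtype.val (hx a)))
    (fun χ hχ => eq_one_of_fixed R hinv hfG hcopA hχ) (m := Nat.card R)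
    (fun χ => MonoidHom.ext fun r => by
      rw [MonoidHom.pow_apply, ← map_pow, pow_card_eq_one', map_one, MonoidHom.one_apply]) hPR
    {χ | wspace R ρ χ ≠ ⊥}
    (fun g χ hχ => by
      obtain ⟨v, hv, hv0⟩ := Submodule.exists_mem_ne_zero_of_ne_bot hχ
      intro hb
      have h1 : ρ (g : G) v ∈ wspace R ρ (gChar R (g : G) χ) := rho_mem_wspace R (g : G) hv
      rw [show gChar R (g : G) χ = g • χ from rfl, hb, Submodule.mem_bot] at h1
      refine hv0 ?_
      have := congrArg (ρ (g : G)⁻¹) h1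
      rwa [map_zero, ← Module.End.mul_apply, ← map_mul, inv_mul_cancel, map_one, Module.End.one_apply] at this)
    (fun χ hχ => exists_stab R hinv hR hRk hχ)
  rcases subsingleton_or_nontrivial V with hV | hV
  · intro g _ r _
    exact hinj (LinearMap.ext fun v => Subsingleton.elim _ _)
  set E : Submodule k V := ⨆ χ : R →* kˣ, wspace R ρ χ with hE
  have hEt : E = ⊤ := by
    refine (hirr E (fun x v hv => ?_) (fun a v hv => ?_)).resolve_left fun hb => ?_
    · refine Submodule.iSup_induction _ (motive := fun v => ρ x v ∈ E) hv (fun χ w hw => ?_) (by simp)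
        (fun u w hu hw => by simpa using E.add_mem hu hw)
      exact Submodule.mem_iSup_of_mem _ (rho_mem_wspace R x hw)
    · refine Submodule.iSup_induction _ (motive := fun v => τ a v ∈ E) hv (fun χ w hw => ?_) (by simp)
        (fun u w hu hw => by simpa using E.add_mem hu hw)
      exact Submodule.mem_iSup_of_mem _ (tau_mem_wspace R hinv hR a hw)
    · obtain ⟨χ, v, hv0, hv⟩ := HH.exists_common_eigen (ρ.comp R.subtype) (fun a b => by
        show ρ a * ρ b = ρ b * ρ a
        rw [← map_mul, ← map_mul]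
        exact congrArg (fun r : R => ρ r) (IsMulCommutative.is_comm.comm a b))
      have hmem : v ∈ E := Submodule.mem_iSup_of_mem χ.toHomUnits ((mem_wspace R).2 fun r => hv r)
      rw [hb, Submodule.mem_bot] at hmem
      exact hv0 hmem
  intro g hgP r hr
  have hρ : ρ (g⁻¹ * r * g) = ρ r := by
    refine LinearMap.ext fun v => ?_
    have hv : v ∈ E := hEt ▸ Submodule.mem_top
    refine Submodule.iSup_induction _ (motive := fun v => ρ (g⁻¹ * r * g) v = ρ r v) hv
      (fun χ w hw => ?_) (by simp) (fun u w hu hw => by rw [map_add, map_add, hu, hw])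
    by_cases hw0 : w = 0
    · simp [hw0]
    have hne : wspace R ρ χ ≠ ⊥ := fun hb => hw0 (by rwa [hb, Submodule.mem_bot] at hw)
    have h1 := DFunLike.congr_fun (hΛ χ hne ⟨g, hgP⟩) ⟨r, hr⟩
    change χ ⟨g⁻¹ * r * g, _⟩ = χ ⟨r, hr⟩ at h1
    have e1 := (mem_wspace R).1 hw ⟨g⁻¹ * r * g, by
      simpa using (inferInstance : R.Normal).conj_mem r hr g⁻¹⟩
    have e2 := (mem_wspace R).1 hw ⟨r, hr⟩
    rw [h1] at e1
    exact e1.trans e2.symm
  have := hinj hρ
  calc g * r = g * (g⁻¹ * r * g) := by rw [this]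
    _ = r * g := by group

/-- a non-trivial central invariant subgroup of invertible order -/
theorem exists_central [Group.IsSolvable G] [Nontrivial G] (h : IsPQ A p q γ)
    (hcop : (Nat.card G).Coprime (p * q)) (hfG : ∀ x : G, (∀ a : A, a • x = x) → x = 1)
    (hR : IsRep ρ τ) (hirr : Irred₂ ρ τ) (hinj : Function.Injective ρ) :
    ∃ Z : Subgroup G, Z ≠ ⊥ ∧ Z ≤ center G ∧ (∀ a : A, ∀ z ∈ Z, a • z ∈ Z) ∧ (Nat.card Z : k) ≠ 0 := by
  classical
  obtain ⟨s, hs, hne⟩ := Cfsg.Agent.Cores.exists_pCore_ne_bot (G := G)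
  haveI := Fact.mk hs
  set O := Cfsg.pCore s G with hO
  have hOp : IsPGroup s O := Cfsg.Agent.Cores.pCore_isPGroup
  have hchar : ∀ (C : Subgroup G), C.Characteristic → ∀ a : A, ∀ r ∈ C, a • r ∈ C := fun C hC a r hr =>
    Subgroup.characteristic_iff_map_le.1 hC (MulDistribMulAction.toMulAut A G a) ⟨r, hr, rfl⟩
  haveI : Nontrivial O := (nontrivial_iff_ne_bot O).2 hne
  haveI := hOp.center_nontrivial
  set R := (center O).map O.subtype with hRdef
  have hRne : R ≠ ⊥ := by
    rw [hRdef, Ne, map_eq_bot_iff_of_injective _ O.subtype_injective]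
    exact (nontrivial_iff_ne_bot _).1 inferInstance
  haveI hRn : R.Normal := ConjAct.normal_of_characteristic_of_normal
  haveI : IsMulCommutative R := ⟨⟨fun a b => by
    obtain ⟨a', ha', hea⟩ := a.2
    obtain ⟨b', hb', heb⟩ := b.2
    apply Subtype.ext
    show (a : G) * b = b * a
    rw [← hea, ← heb, ← map_mul, ← map_mul, mem_center_iff.1 hb' a']⟩⟩
  have hRinv : ∀ a : A, ∀ r ∈ R, a • r ∈ R := by
    rintro a _ ⟨r, hr, rfl⟩
    have hOinv := hchar O inferInstance
    refine ⟨⟨a • (r : G), hOinv a r r.2⟩, mem_center_iff.2 fun s' => Subtype.ext ?_, rfl⟩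
    have h2 := congrArg Subtype.val (mem_center_iff.1 hr ⟨a⁻¹ • (s' : G), hOinv a⁻¹ s' s'.2⟩)
    have h3 := congrArg (fun x : G => a • x) h2
    simpa [smul_mul'] using h3
  have hRp : IsPGroup s R := hOp.to_le (map_subtype_le _)
  obtain ⟨j, hj⟩ := IsPGroup.iff_card.1 hRp
  have hsk : (s : k) ≠ 0 := fun h0 => hRne (eq_bot_iff.2 fun r hr => mem_bot.2 (hinj (by
    rw [map_one]; exact trivial_of_cast_eq_zero hR hirr h0 R hRinv hRp hr)))
  set C := centralizer (R : Set G)
  haveI : C.Normal := inferInstance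
  have hCt : ∀ g : G, ∃ m, g ^ s ^ m ∈ C := by
    intro g
    obtain ⟨e, m, hm, hgm⟩ := Nat.exists_eq_pow_mul_and_not_dvd (orderOf_pos g).ne' s hs.ne_one
    refine ⟨e, ?_⟩
    -- `g ^ s ^ e` has order prime to `s`
    have hy : ∀ y : G, (orderOf y).Coprime s → y ∈ C := by
      intro y hys
      have hidx : ∀ t : ℕ, t.Prime → t ≠ s → ¬ t ∣ C.index := by
        intro t ht hts
        haveI := Fact.mk ht
        obtain ⟨P, hP⟩ := exists_sylow_commute h hcop hfG hR hirr hinj R hRinv
          (by rw [hj, Nat.cast_pow]; exact pow_ne_zero _ hsk) (t := t)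
          (by rw [hj]; exact fun hd => hts ((Nat.prime_dvd_prime_iff_eq ht hs).1 (ht.dvd_of_dvd_pow hd)))
        have hle : (P : Subgroup G) ≤ C := fun x hx => mem_centralizer_iff.2 fun r hr => (hP x hx r hr).symm
        exact fun hd => P.not_dvd_index (hd.trans (index_dvd_of_le hle))
      rw [← QuotientGroup.eq_one_iff, ← orderOf_eq_one_iff]
      by_contra hne1
      obtain ⟨t, ht, htd⟩ := Nat.exists_prime_and_dvd hne1
      have h1 : t ∣ orderOf y := htd.trans (orderOf_map_dvd (QuotientGroup.mk' C) y)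
      refine hidx t ht ?_ (htd.trans (orderOf_dvd_natCard _))
      rintro rfl
      exact ht.one_lt.ne' (Nat.eq_one_of_dvd_coprimes hys h1 dvd_rfl)
    refine hy _ ?_
    rw [orderOf_pow, hgm, Nat.gcd_eq_right (dvd_mul_right _ _), Nat.mul_div_cancel_left _ (pow_pos hs.pos e)]
    exact (hs.coprime_iff_not_dvd.2 hm).symm
  refine ⟨R ⊓ center G, ?_, inf_le_right, fun a z hz => ⟨hRinv a z hz.1, mem_center_iff.2 fun g => ?_⟩, ?_⟩
  · rw [← centralizer_univ, ← coe_top]
    exact Cfsg.Agent.Modules.inf_centralizer_ne_bot_of_isPGroup hRp hRne le_normalizer_of_normal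
      fun g _ => hCt g
  · have h3 := congrArg (fun x : G => a • x) (mem_center_iff.1 hz.2 (a⁻¹ • g))
    simpa [smul_mul'] using h3
  · obtain ⟨i, hi⟩ := IsPGroup.iff_card.1 (hRp.to_le (inf_le_left : R ⊓ center G ≤ R))
    rw [hi, Nat.cast_pow]
    exact pow_ne_zero _ hsk

end faithful

/-- if conjugates of an element of order `p` centralize the quotients by the conjugates of `N`, whose
intersection is trivial, then the group is nilpotent -/
theorem nilpotent_of_conj_kernels [Group.IsSolvable G] (h : IsPQ A p q γ)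
    (hcop : (Nat.card G).Coprime (p * q)) (hfG : ∀ x : G, (∀ a : A, a • x = x) → x = 1)
    {b : A} (hb1 : b ≠ 1) (hb : b ∉ zpowers γ) (N : Subgroup G) [N.Normal]
    (hdiff : ∀ x : G, x⁻¹ * b • x ∈ N)
    (hint : ∀ x : G, (∀ i < q, (γ ^ i)⁻¹ • x ∈ N) → x = 1) :
    Group.IsNilpotent G ∧ (q = 3 → ∀ x y : G, x * y = y * x) := by
  classical
  haveI : NeZero q := ⟨h.hq.ne_zero⟩
  have hcopA : (Nat.card G).Coprime (Nat.card A) := h.card.symm ▸ hcop
  have hγq : γ ^ q = 1 := h.order ▸ pow_orderOf_eq_one γ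
  let c : ZMod q → A := fun i => γ ^ i.val
  have hcadd : ∀ i j : ZMod q, c (i + j) = c i * c j := fun i j => by
    show γ ^ (i + j).val = γ ^ i.val * γ ^ j.val
    rw [← pow_add, pow_eq_pow_mod (i.val + j.val) hγq, ← ZMod.val_add]
  have hc0 : c 0 = 1 := by show γ ^ (0 : ZMod q).val = 1; rw [ZMod.val_zero, pow_zero]
  have hcneg : ∀ i, c (-i) = (c i)⁻¹ := fun i => eq_inv_of_mul_eq_one_left (by rw [← hcadd, neg_add_cancel, hc0])
  let M : ZMod q → Subgroup G := fun i =>
    N.comap (MulDistribMulAction.toMulAut A G (c i)⁻¹).toMonoidHom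
  have hM : ∀ i x, x ∈ M i ↔ (c i)⁻¹ • x ∈ N := fun i x => Iff.rfl
  have hMn : ∀ i, (M i).Normal := fun i => inferInstance
  have hint' : ∀ x, (∀ i, x ∈ M i) → x = 1 := fun x hx => hint x fun i hi => by
    have := (hM (i : ZMod q) x).1 (hx i)
    simpa [c, ZMod.val_natCast, Nat.mod_eq_of_lt hi] using this
  have hshift : ∀ i j x, x ∈ M i → c j • x ∈ M (i + j) := fun i j x hx => by
    rw [hM, add_comm, hcadd, mul_inv_rev, mul_smul, inv_smul_smul]
    exact (hM i x).1 hx
  let B : ZMod q → A := fun i => c i * b * (c i)⁻¹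
  have hBdiff : ∀ i x, x⁻¹ * B i • x ∈ M i := fun i x => by
    rw [hM, smul_mul', smul_inv']
    show ((c i)⁻¹ • x)⁻¹ * (c i)⁻¹ • ((c i * b * (c i)⁻¹) • x) ∈ N
    rw [mul_smul, mul_smul, inv_smul_smul]
    exact hdiff _
  haveI := h.normal
  obtain ⟨e, he⟩ : ∃ e : ℕ, b * γ * b⁻¹ = γ ^ e := by
    obtain ⟨e, he⟩ := (isOfFinOrder_of_finite γ).mem_powers_iff_mem_zpowers.2
      (h.normal.conj_mem γ (mem_zpowers γ) b)
    exact ⟨e, he.symm⟩
  have hec : Nat.Coprime e q := by
    rw [Nat.coprime_comm, h.hq.coprime_iff_not_dvd]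
    rintro ⟨d, rfl⟩
    rw [pow_mul, hγq, one_pow, mul_inv_eq_one] at he
    exact h.gamma_ne (mul_eq_left.1 he)
  have hbc : ∀ i, b * c i = c ((e : ZMod q) * i) * b := fun i => by
    show b * γ ^ i.val = γ ^ ((e : ZMod q) * i).val * b
    rw [ZMod.val_mul, ZMod.val_natCast, Nat.mod_mul_mod, ← pow_eq_pow_mod (e * i.val) hγq, pow_mul, ← he,
      conj_pow, inv_mul_cancel_right]
  have hbN : ∀ i x, x ∈ M i → b • x ∈ M ((e : ZMod q) * i) := fun i x hx => by
    have e1 : (c ((e : ZMod q) * i))⁻¹ * b = b * (c i)⁻¹ :=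
      inv_mul_eq_iff_eq_mul.2 (by rw [← mul_assoc, ← hbc, mul_inv_cancel_right])
    rw [hM, ← mul_smul, e1, mul_smul]
    have := N.mul_mem ((hM i x).1 hx) (hdiff ((c i)⁻¹ • x))
    rwa [mul_inv_cancel_left] at this
  have he0 : (e : ZMod q) ≠ 0 := by
    rw [Ne, ZMod.natCast_eq_zero_iff]
    exact fun hd => h.hq.one_lt.ne' (Nat.eq_one_of_dvd_coprimes hec.symm dvd_rfl hd)
  haveI := Fact.mk h.hq
  have hall1 : ∀ x, (∀ i, i ≠ 0 → x ∈ M i) → x = 1 := by
    intro x hx
    have hbx : b • x = x := by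
      have h0 : x⁻¹ * b • x = 1 := by
        refine hint' _ fun i => ?_
        rcases eq_or_ne i 0 with rfl | hi
        · simpa [B, hc0] using hBdiff 0 x
        · refine (M i).mul_mem ((M i).inv_mem (hx i hi)) ?_
          have := hbN ((e : ZMod q)⁻¹ * i) x (hx _ (mul_ne_zero (inv_ne_zero he0) hi))
          rwa [← mul_assoc, mul_inv_cancel₀ he0, one_mul] at this
      exact (inv_mul_eq_one.1 h0).symm
    set y := ((List.range q).map fun l : ℕ => c (l : ZMod q) • x).prod with hy
    have hyimg : ∀ j, QuotientGroup.mk (s := M j) y = QuotientGroup.mk (c j • x) := by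
      intro j
      have e1 : (QuotientGroup.mk' (M j)) y =
          (((List.range q).map fun l : ℕ => (QuotientGroup.mk' (M j)) (c (l : ZMod q) • x))).prod := by
        rw [hy, map_list_prod, List.map_map]; rfl
      have e2 := List.prod_map_eq_pow_single (l := List.range q) j.val
        (fun l : ℕ => (QuotientGroup.mk' (M j)) (c (l : ZMod q) • x)) (fun l hl hmem => by
          refine (QuotientGroup.eq_one_iff _).2 ?_
          have hne : (l : ZMod q) ≠ j := fun e3 => hl (by
            rw [← e3, ZMod.val_natCast, Nat.mod_eq_of_lt (List.mem_range.1 hmem)])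
          have := hshift (j - l) l x (hx _ (sub_ne_zero.2 hne.symm))
          rwa [sub_add_cancel] at this)
      rw [List.count_eq_one_of_mem List.nodup_range (List.mem_range.2 (ZMod.val_lt j)), pow_one,
        ZMod.natCast_zmod_val] at e2
      exact e1.trans e2
    have hfix : ∀ a ∈ ({γ, b} : Set A), a • y = y := by
      have hγ : γ = c 1 := by show γ = γ ^ (1 : ZMod q).val; rw [ZMod.val_one, pow_one]
      intro a ha'
      rcases ha' with ha' | ha' <;> rw [ha']
      · refine (inv_mul_eq_one.1 (hint' ((γ • y)⁻¹ * y) fun j => QuotientGroup.eq.1 ?_))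
        have h1 : (c 1 • y)⁻¹ * c 1 • (c (j - 1) • x) ∈ M j := by
          have := hshift (j - 1) 1 _ (QuotientGroup.eq.1 (hyimg (j - 1)))
          rwa [sub_add_cancel, smul_mul', smul_inv'] at this
        rw [← hγ] at h1
        refine (QuotientGroup.eq.2 h1).trans ?_
        rw [hyimg j, hγ, ← mul_smul, ← hcadd, add_sub_cancel]
      · refine (inv_mul_eq_one.1 (hint' ((b • y)⁻¹ * y) fun j => QuotientGroup.eq.1 ?_))
        set i := (e : ZMod q)⁻¹ * j
        have hij : (e : ZMod q) * i = j := by rw [← mul_assoc, mul_inv_cancel₀ he0, one_mul]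
        have h1 := hbN i _ (QuotientGroup.eq.1 (hyimg i))
        rw [hij, smul_mul', smul_inv'] at h1
        refine (QuotientGroup.eq.2 h1).trans ?_
        rw [hyimg j, ← mul_smul, hbc, hij, mul_smul, hbx]
    have hy1 : y = 1 := by
      refine hfG y fun a => ?_
      have hle : Subgroup.closure ({γ, b} : Set A) ≤ MulAction.stabilizer A y := by
        rw [Subgroup.closure_le]; exact fun a ha => hfix a ha
      rw [h.sup_eq_top h.gamma_ne hb] at hle
      exact hle (mem_top a)
    refine hint' x fun i => ?_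
    rcases eq_or_ne i 0 with rfl | hi
    · have h1 := hyimg 0
      rw [hy1, hc0, one_smul] at h1
      have := QuotientGroup.eq.1 h1
      rwa [inv_one, one_mul] at this
    · exact hx i hi
  have hallc : ∀ i₀ x, (∀ i, i ≠ i₀ → x ∈ M i) → x = 1 := by
    intro i₀ x hx
    have h1 : c (-i₀) • x = 1 := hall1 _ fun i hi => by
      have := hshift (i + i₀) (-i₀) x (hx _ (fun e1 => hi (by
        simpa using congrArg (· - i₀) e1)))
      rwa [add_neg_cancel_right] at this
    rwa [smul_eq_iff_eq_inv_smul, smul_one] at h1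
  have hsup : ∀ i j : ZMod q, i ≠ j → M i ⊔ M j = ⊤ := by
    intro i j hij
    set R := M i ⊔ M j with hR'
    haveI := hMn i
    haveI := hMn j
    have hcl : Subgroup.closure ({B i, B j} : Set A) = ⊤ := by
      refine h.sup_eq_top (fun e1 => hb1 ?_)
        (h.conj_notMem hb1 hb (ZMod.val_lt i) (ZMod.val_lt j) fun e1 => hij (ZMod.val_injective q e1))
      have : b = (c i)⁻¹ * B i * c i := by simp only [B]; group
      rw [this, e1, mul_one, inv_mul_cancel]
    refine eq_top_iff.2 fun s _ => eq_top_of_diff hcopA hfG R {B i, B j} hcl s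
      (smul_mem_of_diff R {B i, B j} hcl ?_) ?_
    · rintro a (rfl | rfl) r hr
      · simpa using R.mul_mem hr (mem_sup_left (hBdiff i r) : r⁻¹ * B i • r ∈ R)
      · simpa using R.mul_mem hr (mem_sup_right (hBdiff j r) : r⁻¹ * B j • r ∈ R)
    · rintro a (rfl | rfl)
      exacts [mem_sup_left (hBdiff i s), mem_sup_right (hBdiff j s)]
  have hcent : ∀ (n : ℕ) (X : Finset (ZMod q)), X.Nonempty → X.card + n = q - 1 →
      ∀ x, (∀ i ∈ X, x ∈ M i) → x ∈ Subgroup.upperCentralSeries G n := by
    intro n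
    induction n with
    | zero =>
      intro X _ hX x hx
      obtain ⟨i₀, hi₀⟩ : ∃ i₀, Xᶜ = {i₀} := Finset.card_eq_one.1 (by
        rw [Finset.card_compl, ZMod.card]; have := h.hq.two_le; omega)
      rw [Subgroup.upperCentralSeries_zero, mem_bot]
      refine hallc i₀ x fun i hi => hx i ?_
      by_contra hiX
      have : i ∈ Xᶜ := Finset.mem_compl.2 hiX
      rw [hi₀, Finset.mem_singleton] at this
      exact hi this
    | succ n ih =>
      intro X hXne hX x hx
      obtain ⟨i, hi, j, hj, hij⟩ : ∃ i ∈ Xᶜ, ∃ j ∈ Xᶜ, i ≠ j := Finset.one_lt_card.1 (by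
        rw [Finset.card_compl, ZMod.card]; omega)
      rw [Finset.mem_compl] at hi hj
      rw [Subgroup.mem_upperCentralSeries_succ_iff]
      intro g
      set Q := QuotientGroup.mk' (Subgroup.upperCentralSeries G n) with hQ
      have hkey : ∀ i, i ∉ X → M i ≤ (centralizer {Q x}).comap Q := by
        intro i hi z hz
        rw [mem_comap, mem_centralizer_singleton_iff]
        have hmem : ⁅z, x⁆ ∈ Subgroup.upperCentralSeries G n := ih (insert i X) (Finset.insert_nonempty _ _)
          (by rw [Finset.card_insert_of_notMem hi]; omega) _ fun l hl => by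
            haveI := hMn l
            rcases Finset.mem_insert.1 hl with rfl | hl
            · exact Subgroup.commutator_le_left _ ⊤ (commutator_mem_commutator hz (mem_top x))
            · exact Subgroup.commutator_le_right ⊤ _ (commutator_mem_commutator (mem_top z) (hx l hl))
        have h1 : ⁅Q z, Q x⁆ = 1 := by
          rw [← map_commutatorElement]; exact (QuotientGroup.eq_one_iff _).2 hmem
        exact commutatorElement_eq_one_iff_mul_comm.1 h1
      have hg : g ∈ (centralizer {Q x}).comap Q := by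
        have := sup_le (hkey i hi) (hkey j hj)
        rw [hsup i j hij] at this
        exact this (mem_top g)
      rw [mem_comap, mem_centralizer_singleton_iff] at hg
      refine (QuotientGroup.eq_one_iff _).1 ?_
      show Q (x * g * x⁻¹ * g⁻¹) = 1
      rw [map_mul, map_mul, map_mul, map_inv, map_inv, ← hg]
      group
  have htop : Subgroup.upperCentralSeries G (q - 2) = ⊤ := by
    rw [eq_top_iff, ← hsup 0 1 zero_ne_one]
    refine sup_le ?_ ?_ <;> intro x hx <;>
      exact hcent (q - 2) {_} (Finset.singleton_nonempty _)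
        (by rw [Finset.card_singleton]; have := h.hq.two_le; omega) x (fun i hi => (Finset.mem_singleton.1 hi).symm ▸ hx)
  refine ⟨⟨q - 2, htop⟩, fun hq3 x y => ?_⟩
  subst hq3
  rw [show 3 - 2 = 1 from rfl, Subgroup.upperCentralSeries_one] at htop
  exact (mem_center_iff.1 (htop ▸ mem_top x : x ∈ center G) y).symm

/-- **The faithful irreducible case.** -/
theorem nilpotent_of_faithful [Group.IsSolvable G] (h : IsPQ A p q γ) {ρ : G →* End k V} {τ : A →* End k V}
    (hcop : (Nat.card G).Coprime (p * q)) (hfG : ∀ x : G, (∀ a : A, a • x = x) → x = 1)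
    (hR : IsRep ρ τ) (hirr : Irred₂ ρ τ) (hinj : Function.Injective ρ)
    (hpk : (p : k) ≠ 0) (hqk : (q : k) ≠ 0)
    (hexp : ∀ s : ℕ, s.Prime → s ∣ Nat.card G → NonExc p s)
    (hexq : ∀ s : ℕ, s.Prime → s ∣ Nat.card G → NonExc q s) :
    Group.IsNilpotent G ∧ (p = 2 → q = 3 → ∀ x y : G, x * y = y * x) := by
  classical
  rcases subsingleton_or_nontrivial G with hG | hG
  · exact ⟨inferInstance, fun _ _ x y => Subsingleton.elim _ _⟩
  have hcopA : (Nat.card G).Coprime (Nat.card A) := h.card.symm ▸ hcop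
  obtain ⟨Z, hZne, hZc, hZinv, hZk⟩ := exists_central h hcop hfG hR hirr hinj
  haveI : Z.Normal := ⟨fun z hz g => by
    rwa [mem_center_iff.1 (hZc hz) g, mul_inv_cancel_right]⟩
  haveI : IsMulCommutative Z := ⟨⟨fun a b => Subtype.ext (mem_center_iff.1 (hZc b.2) a)⟩⟩
  haveI : Fintype Z := Fintype.ofFinite Z
  haveI : Nontrivial V := by
    obtain ⟨x, y, hxy⟩ := exists_pair_ne G
    by_contra hV
    rw [not_nontrivial_iff_subsingleton] at hV
    exact hxy (hinj (LinearMap.ext fun v => Subsingleton.elim _ _))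
  obtain ⟨χ, v₀, hv0, hv₀⟩ := HH.exists_common_eigen (ρ.comp Z.subtype) (fun a b => by
    show ρ a * ρ b = ρ b * ρ a
    rw [← map_mul, ← map_mul, mem_center_iff.1 (hZc b.2) a])
  set ν : Z →* kˣ := χ.toHomUnits
  set W := wspace Z ρ ν with hW
  have hv₀W : v₀ ∈ W := (mem_wspace Z).2 fun r => hv₀ r
  have hWne : W ≠ ⊥ := fun hb => hv0 (by rwa [hb, Submodule.mem_bot] at hv₀W)
  have hWG : ∀ x, ∀ v ∈ W, ρ x v ∈ W := by
    intro x v hv
    rw [hW, mem_wspace] at hv ⊢
    intro r
    rw [← Module.End.mul_apply, ← map_mul, ← mem_center_iff.1 (hZc r.2) x, map_mul, Module.End.mul_apply,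
      hv, map_smul]
  obtain ⟨a₀, ha1, ha₀⟩ := exists_stab Z hZinv hR hZk hWne
  have hστ : ∀ a : A, aChar Z hZinv a ν = ν → ∀ v ∈ W, τ a v ∈ W := fun a ha v hv => by
    have := tau_mem_wspace Z hZinv hR a hv
    rwa [ha] at this
  -- the stabilizer of the weight
  let St : Subgroup A :=
    { carrier := {a | aChar Z hZinv a ν = ν}
      one_mem' := MonoidHom.ext fun r => congrArg ν (Subtype.ext (by simp))
      mul_mem' := fun {a b} ha hb => by
        show aChar Z hZinv (a * b) ν = ν
        have e : aChar Z hZinv (a * b) ν = aChar Z hZinv a (aChar Z hZinv b ν) :=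
          MonoidHom.ext fun r => congrArg ν (Subtype.ext (by
            show (a * b)⁻¹ • (r : G) = b⁻¹ • (a⁻¹ • (r : G))
            rw [mul_inv_rev, mul_smul]))
        rw [e, show aChar Z hZinv b ν = ν from hb]
        exact ha
      inv_mem' := fun {a} ha => by
        show aChar Z hZinv a⁻¹ ν = ν
        conv_lhs => rw [← show aChar Z hZinv a ν = ν from ha]
        exact MonoidHom.ext fun r => congrArg ν (Subtype.ext (by
          show a⁻¹ • ((a⁻¹)⁻¹ • (r : G)) = r
          rw [inv_inv, inv_smul_smul])) }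
  have hStne : St ≠ ⊤ := by
    intro ht
    have h1 : ν = 1 := eq_one_of_fixed Z hZinv hfG hcopA fun a => (ht ▸ mem_top a : a ∈ St)
    have hWt : W = ⊤ := (hirr W hWG (fun a v hv => hστ a (ht ▸ mem_top a : a ∈ St) v hv)).resolve_left hWne
    refine hZne (eq_bot_iff.2 fun z hz => mem_bot.2 (hinj (LinearMap.ext fun v => ?_)))
    have hv : v ∈ W := hWt ▸ Submodule.mem_top
    have := (mem_wspace Z).1 hv ⟨z, hz⟩
    rw [h1, MonoidHom.one_apply, Units.val_one, one_smul] at this
    rw [map_one]; exact this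
  have hSt : ∀ a ∈ St, a ∈ zpowers a₀ := by
    intro a ha
    by_contra hna
    apply hStne
    rw [eq_top_iff, ← h.sup_eq_top ha1 hna, Subgroup.closure_le]
    rintro x (rfl | rfl)
    exacts [ha₀, ha]
  haveI hp' := Fact.mk h.hp
  haveI hq' := Fact.mk h.hq
  obtain ⟨o, ho, hop, hok, hoex, hoc⟩ : ∃ o, orderOf a₀ = o ∧ o.Prime ∧ (o : k) ≠ 0 ∧
      (∀ s : ℕ, s.Prime → s ∣ Nat.card G → NonExc o s) ∧ (Nat.card G).Coprime o := by
    by_cases haN : a₀ ∈ zpowers γ
    · refine ⟨q, ?_, h.hq, hqk, hexq, hcop.coprime_dvd_right (dvd_mul_left q p)⟩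
      rcases (Nat.dvd_prime h.hq).1 (h.order ▸ Nat.card_zpowers γ ▸ Subgroup.orderOf_dvd_natCard _ haN) with e | e
      · exact absurd (orderOf_eq_one_iff.1 e) ha1
      · exact e
    · exact ⟨p, h.orderOf_eq ha1 haN, h.hp, hpk, hexp, hcop.coprime_dvd_right (dvd_mul_right p q)⟩
  haveI := Fact.mk hop
  have hτW : ∀ v ∈ W, τ a₀ v ∈ W := hστ a₀ ha₀
  set T := (τ a₀).restrict hτW with hT
  have hTp : T ^ o = 1 := LinearMap.ext fun v => Subtype.ext (by
    rw [hT, Module.End.pow_restrict]
    show (τ a₀ ^ o) (v : V) = v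
    rw [← map_pow, ← ho, pow_orderOf_eq_one, map_one, Module.End.one_apply])
  haveI : Fintype A := Fintype.ofFinite A
  have hTfix : ∀ v : W, T v = v → v = 0 := by
    intro v hv
    have hv' : τ a₀ (v : V) = v := congrArg Subtype.val hv
    have hu : ∑ a : A, τ a (v : V) = 0 := hR.fix _ fun b => by
      rw [map_sum]
      exact Fintype.sum_equiv (Equiv.mulLeft b) _ _ fun a => by
        rw [Equiv.coe_mulLeft, map_mul, Module.End.mul_apply]
    have hzp : ∀ a ∈ zpowers a₀, τ a (v : V) = v := by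
      intro a ha
      obtain ⟨n, rfl⟩ := (isOfFinOrder_of_finite a₀).mem_powers_iff_mem_zpowers.2 ha
      show τ (a₀ ^ n) (v : V) = v
      rw [map_pow]
      clear ha
      induction n with
      | zero => rfl
      | succ n ih => rw [pow_succ', Module.End.mul_apply, ih, hv']
    have h1 := congrArg (wproj Z ρ ν) hu
    rw [map_sum, map_zero] at h1
    have h2 : ∀ a : A, wproj Z ρ ν (τ a (v : V)) = if a ∈ zpowers a₀ then (Nat.card Z : k) • (v : V) else 0 := by
      intro a
      rw [wproj_eq Z (tau_mem_wspace Z hZinv hR a v.2)]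
      by_cases ha : a ∈ zpowers a₀
      · rw [if_pos ha, if_pos (zpowers_le.2 (show a₀ ∈ St from ha₀) ha).symm, hzp a ha]
      · rw [if_neg ha, if_neg fun e => ha (hSt a e.symm)]
    rw [Finset.sum_congr rfl fun a _ => h2 a, Finset.sum_ite, Finset.sum_const_zero, add_zero,
      Finset.sum_const] at h1
    have hc : (Finset.univ.filter (· ∈ zpowers a₀)).card = o := by
      rw [← Fintype.card_subtype, ← Nat.card_eq_fintype_card, ← ho, ← Nat.card_zpowers]
    rw [hc, ← Nat.cast_smul_eq_nsmul k, smul_smul] at h1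
    exact Subtype.ext ((smul_eq_zero_iff_right (mul_ne_zero hok hZk)).1 h1)
  let φ : MulAut G := MulDistribMulAction.toMulAut A G a₀
  have hφp : φ ^ o = 1 := by
    show MulDistribMulAction.toMulAut A G a₀ ^ o = 1
    rw [← map_pow, ← ho, pow_orderOf_eq_one, map_one]
  have hirrW : HH.Irred (HH.subRep ρ W hWG) T := by
    intro W₀ h₁ h₂
    by_cases hb : W₀ = ⊥
    · exact Or.inl hb
    right
    set W₀' := W₀.map W.subtype with hW₀'
    set X : Submodule k V := ⨆ a : A, W₀'.map (τ a) with hX
    have hW₀G : ∀ x, ∀ v ∈ W₀', ρ x v ∈ W₀' := by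
      rintro x _ ⟨v, hv, rfl⟩
      exact ⟨_, h₁ x v hv, rfl⟩
    have hW₀τ : ∀ v ∈ W₀', τ a₀ v ∈ W₀' := by
      rintro _ ⟨v, hv, rfl⟩
      exact ⟨_, h₂ v hv, rfl⟩
    have hXt : X = ⊤ := by
      refine (hirr X (fun x v hv => ?_) (fun b v hv => ?_)).resolve_left fun hb' => hb ?_
      · refine Submodule.iSup_induction _ (motive := fun v => ρ x v ∈ X) hv (fun a w hw => ?_) (by simp)
          (fun u w hu hw => by simpa using X.add_mem hu hw)
        obtain ⟨u, hu, rfl⟩ := hw
        have := hR.apply a (a⁻¹ • x) u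
        rw [smul_inv_smul] at this
        rw [← this]
        exact Submodule.mem_iSup_of_mem a ⟨_, hW₀G _ u hu, rfl⟩
      · refine Submodule.iSup_induction _ (motive := fun v => τ b v ∈ X) hv (fun a w hw => ?_) (by simp)
          (fun u w hu hw => by simpa using X.add_mem hu hw)
        obtain ⟨u, hu, rfl⟩ := hw
        rw [← Module.End.mul_apply, ← map_mul]
        exact Submodule.mem_iSup_of_mem (b * a) ⟨u, hu, rfl⟩
      · refine eq_bot_iff.2 fun w hw => (Submodule.mem_bot k).2 (Subtype.ext ?_)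
        have : (w : V) ∈ X := Submodule.mem_iSup_of_mem 1 ⟨(w : V), ⟨w, hw, rfl⟩, by simp⟩
        rwa [hb', Submodule.mem_bot] at this
    refine eq_top_iff.2 fun w _ => ?_
    have hwX : (w : V) ∈ X := hXt ▸ Submodule.mem_top
    have hproj : wproj Z ρ ν (w : V) ∈ W₀' := by
      refine Submodule.iSup_induction _ (motive := fun v => wproj Z ρ ν v ∈ W₀') hwX (fun a u hu => ?_)
        (by simp) (fun u u' hu hu' => by simpa using W₀'.add_mem hu hu')
      obtain ⟨u, hu, rfl⟩ := hu
      have huW : u ∈ W := Submodule.map_subtype_le W W₀ hu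
      rw [wproj_eq Z (tau_mem_wspace Z hZinv hR a huW)]
      split_ifs with e
      · refine W₀'.smul_mem _ ?_
        obtain ⟨n, rfl⟩ := (isOfFinOrder_of_finite a₀).mem_powers_iff_mem_zpowers.2 (hSt a e.symm)
        show τ (a₀ ^ n) u ∈ W₀'
        rw [map_pow]
        clear e
        induction n with
        | zero => simpa using hu
        | succ n ih => rw [pow_succ', Module.End.mul_apply]; exact hW₀τ _ ih
      · exact W₀'.zero_mem
    rw [wproj_eq Z w.2, if_pos rfl] at hproj
    obtain ⟨w', hw', hew⟩ := (Submodule.smul_mem_iff _ hZk).1 hproj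
    rwa [← show w' = w from Subtype.ext hew]
  have hcentW : ∀ x : G, ∀ v ∈ W, ρ (a₀ • x) v = ρ x v := fun x v hv => by
    have := HH.centralizes_solvable (HH.subRep ρ W hWG) φ T hok hoc hoex hφp hTp
      (fun y => LinearMap.ext fun w => Subtype.ext (hR.apply a₀ y (w : V))) hTfix hirrW x
    exact congrArg Subtype.val (LinearMap.congr_fun this ⟨v, hv⟩)
  -- translates of the kernel of the component
  let N : Subgroup G :=
    { carrier := {x | ∀ v ∈ W, ρ x v = v}
      one_mem' := fun v _ => by rw [map_one, Module.End.one_apply]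
      mul_mem' := fun {x y} hx hy v hv => by rw [map_mul, Module.End.mul_apply, hy v hv, hx v hv]
      inv_mem' := fun {x} hx v hv => by
        conv_lhs => rw [← hx v hv]
        rw [← Module.End.mul_apply, ← map_mul, inv_mul_cancel, map_one, Module.End.one_apply] }
  haveI hNn : N.Normal := ⟨fun x hx g v hv => by
    rw [map_mul, Module.End.mul_apply, map_mul, Module.End.mul_apply, hx _ (hWG g⁻¹ v hv),
      ← Module.End.mul_apply, ← map_mul, mul_inv_cancel, map_one, Module.End.one_apply]⟩
  have hdiff : ∀ x, x⁻¹ * a₀ • x ∈ N := fun x v hv => by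
    rw [map_mul, Module.End.mul_apply, hcentW x v hv, ← Module.End.mul_apply, ← map_mul, inv_mul_cancel,
      map_one, Module.End.one_apply]
  have hint : ∀ x, (∀ c : A, c⁻¹ • x ∈ N) → x = 1 := by
    intro x hx
    set X : Submodule k V := ⨆ a : A, W.map (τ a) with hX
    have hXt : X = ⊤ := by
      refine (hirr X (fun y v hv => ?_) (fun b v hv => ?_)).resolve_left fun hb => hWne ?_
      · refine Submodule.iSup_induction _ (motive := fun v => ρ y v ∈ X) hv (fun a w hw => ?_) (by simp)
          (fun u w hu hw => by simpa using X.add_mem hu hw)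
        obtain ⟨u, hu, rfl⟩ := hw
        have := hR.apply a (a⁻¹ • y) u
        rw [smul_inv_smul] at this
        rw [← this]
        exact Submodule.mem_iSup_of_mem a ⟨_, hWG _ u hu, rfl⟩
      · refine Submodule.iSup_induction _ (motive := fun v => τ b v ∈ X) hv (fun a w hw => ?_) (by simp)
          (fun u w hu hw => by simpa using X.add_mem hu hw)
        obtain ⟨u, hu, rfl⟩ := hw
        rw [← Module.End.mul_apply, ← map_mul]
        exact Submodule.mem_iSup_of_mem (b * a) ⟨u, hu, rfl⟩
      · refine eq_bot_iff.2 fun w hw => ?_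
        have : w ∈ X := Submodule.mem_iSup_of_mem 1 ⟨w, hw, by simp⟩
        rwa [hb] at this
    refine hinj (LinearMap.ext fun v => ?_)
    rw [map_one, Module.End.one_apply]
    refine Submodule.iSup_induction _ (motive := fun v => ρ x v = v) (hXt ▸ Submodule.mem_top : v ∈ X)
      (fun a w hw => ?_) (by simp) (fun u w hu hw => by rw [map_add, hu, hw])
    obtain ⟨u, hu, rfl⟩ := hw
    have := hR.apply a (a⁻¹ • x) u
    rw [smul_inv_smul, hx a u hu] at this
    exact this.symm
  by_cases haN : a₀ ∈ zpowers γ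
  · -- the normal subgroup of `A` acts trivially on `G`
    haveI := h.normal
    have hγfix : ∀ x : G, γ • x = x := by
      intro x
      have hz : zpowers a₀ = zpowers γ := eq_of_le_of_card_ge (zpowers_le.2 haN) (by
        rw [Nat.card_zpowers, Nat.card_zpowers, h.order, ho]
        rcases (Nat.dvd_prime h.hq).1 (h.order ▸ Nat.card_zpowers γ ▸ Subgroup.orderOf_dvd_natCard _ haN) with e | e
        · exact absurd (orderOf_eq_one_iff.1 e) ha1
        · rw [← ho, e])
      have hz2 : ∀ g ∈ zpowers γ, ∀ y, y⁻¹ * g • y ∈ N := by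
        intro g hg
        obtain ⟨n, rfl⟩ := (isOfFinOrder_of_finite a₀).mem_powers_iff_mem_zpowers.2 (hz.symm ▸ hg)
        intro y
        show y⁻¹ * a₀ ^ n • y ∈ N
        clear hg
        induction n with
        | zero => simp
        | succ n ih =>
          have := N.mul_mem ih (hdiff (a₀ ^ n • y))
          rwa [mul_assoc, mul_inv_cancel_left, ← mul_smul, ← pow_succ'] at this
      have h0 : x⁻¹ * γ • x = 1 := hint _ fun c => by
        have := hz2 _ (h.normal.conj_mem γ (mem_zpowers γ) c⁻¹) (c⁻¹ • x)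
        rw [inv_inv, mul_smul, mul_smul, smul_inv_smul] at this
        rwa [smul_mul', smul_inv']
      exact (inv_mul_eq_one.1 h0).symm
    obtain ⟨b, hb⟩ : ∃ b : A, b ∉ zpowers γ := by
      by_contra hc
      push Not at hc
      haveI : IsCyclic A := ⟨γ, hc⟩
      exact h.nonab IsCyclic.isMulCommutative
    have hb1 : b ≠ 1 := fun e => hb (e ▸ one_mem _)
    have hbp := h.orderOf_eq hb1 hb
    have hfix : ∀ x : G, b • x = x → x = 1 := fun x hx => hfG x fun a => by
      have hle : Subgroup.closure ({γ, b} : Set A) ≤ MulAction.stabilizer A x := by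
        rw [Subgroup.closure_le]
        rintro y (rfl | rfl)
        exacts [hγfix x, hx]
      rw [h.sup_eq_top h.gamma_ne hb] at hle
      exact hle (mem_top a)
    let β : G ≃* G := MulDistribMulAction.toMulAut A G b
    have hit : (⇑β)^[p] = id := by
      funext x
      show (fun y : G => b • y)^[p] x = x
      rw [smul_iterate_apply, ← hbp, pow_orderOf_eq_one, one_smul]
    refine ⟨Cfsg.Agent.Solvable.isNilpotent_of_fpf_of_isSolvable h.hp (φ := β) hfix hit, fun hp2 _ => ?_⟩
    subst hp2
    exact fun x y => MonoidHom.FixedPointFree.commute_all_of_involutive (φ := β) hfix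
      (fun z => by have := congrFun hit z; simpa using this) x y
  · have hfin : ∀ x, (∀ i < q, (γ ^ i)⁻¹ • x ∈ N) → x = 1 := by
      intro x hx
      refine hint x fun c => ?_
      haveI := h.normal
      have hstab : ∀ a ∈ zpowers a₀, ∀ y ∈ N, a • y ∈ N := by
        intro a ha
        obtain ⟨n, rfl⟩ := (isOfFinOrder_of_finite a₀).mem_powers_iff_mem_zpowers.2 ha
        show ∀ y ∈ N, a₀ ^ n • y ∈ N
        clear ha
        induction n with
        | zero => intro y hy; rwa [pow_zero, one_smul]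
        | succ n ih =>
          intro y hy
          have := N.mul_mem (ih y hy) (hdiff (a₀ ^ n • y))
          rwa [mul_inv_cancel_left, ← mul_smul, ← pow_succ'] at this
      have hc : c ∈ (zpowers γ : Subgroup A) ⊔ zpowers a₀ := by
        have hle : Subgroup.closure ({γ, a₀} : Set A) ≤ zpowers γ ⊔ zpowers a₀ := by
          rw [Subgroup.closure_le]
          rintro y (rfl | rfl)
          exacts [mem_sup_left (mem_zpowers y), mem_sup_right (mem_zpowers y)]
        rw [h.sup_eq_top h.gamma_ne haN] at hle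
        exact hle (mem_top c)
      rw [Subgroup.mem_sup_of_normal_left] at hc
      obtain ⟨g, hg, d, hd, rfl⟩ := hc
      obtain ⟨n, rfl⟩ := (isOfFinOrder_of_finite γ).mem_powers_iff_mem_zpowers.2 hg
      show (γ ^ n * d)⁻¹ • x ∈ N
      rw [mul_inv_rev, mul_smul, pow_eq_pow_mod n (h.order ▸ pow_orderOf_eq_one γ)]
      exact hstab _ ((zpowers a₀).inv_mem hd) _ (hx _ (Nat.mod_lt _ h.hq.pos))
    obtain ⟨hnil, habl⟩ := nilpotent_of_conj_kernels h hcop hfG ha1 haN N hdiff hfin
    exact ⟨hnil, fun _ => habl⟩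

end Cfsg.Agent.FGS.PQ
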