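import Cfsg.Prelude.Def_KGroupFacts
import Cfsg.Agent.Perm.PrimeDegree
import Mathlib.RingTheory.Polynomial.Cyclotomic.Roots
import Mathlib.Analysis.Complex.Polynomial.Basic
import Mathlib.RingTheory.RootsOfUnity.Complex
import Mathlib.GroupTheory.Sylow
import Mathlib.GroupTheory.SpecificGroups.Cyclic
import Mathlib.GroupTheory.Subgroup.Simple

/-!
The automorphisms centralizing a `p`-element of a simple group with a subgroup of index `p`
commute: they are seen through intertwiners between twisted permutation representations, whose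
eigenvalues on a fixed character of the cycle are multiplicative up to rational scalars.
-/

set_option autoImplicit false
set_option linter.style.haveILetI false

namespace Cfsg.Agent.FGS.PrimeIndex

open MulAction Polynomial Finset

variable {G : Type*} [Group G] {X : Type*} [MulAction G X]

/-- Kernels intertwining the action with its twist by `φ`. -/
def Inter (φ : MulAut G) (S : X → X → ℚ) : Prop := ∀ (g : G) (y x : X), S (φ g • y) (g • x) = S y x

/-- Product of kernels. -/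
def comp [Fintype X] (S T : X → X → ℚ) : X → X → ℚ := fun y x => ∑ w, S y w * T w x

theorem Inter.comp [Fintype X] {φ ψ : MulAut G} {S T : X → X → ℚ} (hS : Inter φ S)
    (hT : Inter ψ T) : Inter (φ * ψ) (comp S T) := by
  intro g y x
  unfold PrimeIndex.comp
  refine (Fintype.sum_equiv (MulAction.toPerm (ψ g)) _ _ fun w => ?_).symm
  change _ = S ((φ * ψ) g • y) (ψ g • w) * T (ψ g • w) (g • x)
  rw [MulAut.mul_apply, hS, hT]

theorem exists_ratCast_eq_iff {p : ℕ} [hp : Fact p.Prime] {ζ : ℂ} (hζ : IsPrimitiveRoot ζ p)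
    (c : ZMod p → ℚ) (h : ∑ k : ZMod p, (c k : ℂ) * ζ ^ k.val = 0) (i j : ZMod p) : c i = c j := by
  haveI : NeZero p := ⟨hp.out.ne_zero⟩
  set P : ℚ[X] := ∑ k : ZMod p, C (c k) * Polynomial.X ^ k.val with hP
  have haev : aeval ζ P = 0 := by
    rw [hP, map_sum, ← h]
    refine Finset.sum_congr rfl fun k _ => ?_
    simp
  have hdvd : cyclotomic p ℚ ∣ P := by
    rw [cyclotomic_eq_minpoly_rat hζ hp.out.pos]
    exact minpoly.dvd ℚ ζ haev
  obtain ⟨Q, hQ⟩ := hdvd
  have hcoeff : ∀ k : ZMod p, P.coeff k.val = c k := by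
    intro k
    rw [hP, finsetSum_coeff, Finset.sum_eq_single k]
    · simp
    · intro b _ hb
      rw [coeff_C_mul, coeff_X_pow, if_neg (fun e => hb (ZMod.val_injective p e).symm), mul_zero]
    · simp
  by_cases hP0 : P = 0
  · rw [← hcoeff, ← hcoeff, hP0, coeff_zero, coeff_zero]
  have hQ0 : Q ≠ 0 := fun e => hP0 (by rw [hQ, e, mul_zero])
  have hdeg : P.natDegree ≤ p - 1 := by
    refine natDegree_sum_le_of_forall_le _ _ fun k _ => (natDegree_C_mul_X_pow_le _ _).trans ?_
    have := ZMod.val_lt k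
    omega
  rw [hQ, natDegree_mul (cyclotomic_ne_zero p ℚ) hQ0, natDegree_cyclotomic,
    Nat.totient_prime hp.out] at hdeg
  obtain ⟨a, rfl⟩ : ∃ a, C a = Q := ⟨Q.coeff 0, (eq_C_of_natDegree_le_zero (by omega)).symm⟩
  have hall : ∀ k : ZMod p, c k = a := by
    intro k
    rw [← hcoeff, hQ, mul_comm, coeff_C_mul, cyclotomic_prime, finsetSum_coeff,
      Finset.sum_eq_single k.val]
    · simp
    · intro b _ hb
      rw [coeff_X_pow, if_neg hb.symm]
    · intro hk
      exact absurd (Finset.mem_range.2 (ZMod.val_lt k)) hk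
  rw [hall, hall]

section

variable [Fintype X] [DecidableEq X] [FaithfulSMul G X] {p : ℕ} [hp : Fact p.Prime]

/-- The eigenvalue of a kernel on a fixed character. -/
noncomputable def eig (e : ZMod p ≃ X) (ζ : ℂ) (S : X → X → ℚ) : ℂ :=
  ∑ k : ZMod p, (S (e k) (e 0) : ℂ) * ζ ^ k.val

variable {e : ZMod p ≃ X} {σ : G} (he : ∀ j, σ • e j = e (j + 1)) {ζ : ℂ}
  (hζ : IsPrimitiveRoot ζ p)

include he

omit [Fintype X] [DecidableEq X] [FaithfulSMul G X] in
theorem Inter.shift {φ : MulAut G} (hφ : φ σ = σ) {S : X → X → ℚ} (hS : Inter φ S) (i j : ZMod p)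
    [NeZero p] : S (e i) (e j) = S (e (i - j)) (e 0) := by
  obtain ⟨n, rfl⟩ := ZMod.natCast_zmod_surjective j
  have hpow : ∀ (n : ℕ) (k : ZMod p), σ ^ n • e k = e (k + n) := by
    intro n
    induction n with
    | zero => simp
    | succ n ih => intro k; rw [pow_succ', mul_smul, ih, he, Nat.cast_succ, add_assoc]
  have := hS (σ ^ n) (e (i - n)) (e 0)
  rw [map_pow, hφ, hpow, hpow, sub_add_cancel, zero_add] at this
  exact this

include hζ

omit [DecidableEq X] [FaithfulSMul G X] in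
theorem eig_comp {φ ψ : MulAut G} (hφ : φ σ = σ) {S T : X → X → ℚ} (hS : Inter φ S) :
    Inter ψ T → eig e ζ (comp S T) = eig e ζ S * eig e ζ T := by
  intro _
  haveI : NeZero p := ⟨hp.out.ne_zero⟩
  have hexp : ∀ a b : ZMod p, ζ ^ (a + b).val = ζ ^ a.val * ζ ^ b.val := by
    intro a b
    rw [← pow_add, ← pow_mod_orderOf ζ ((a + b).val), ← pow_mod_orderOf ζ (a.val + b.val),
      ← hζ.eq_orderOf, ZMod.val_add, Nat.mod_mod]
  simp only [eig, PrimeIndex.comp, Rat.cast_sum, Rat.cast_mul]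
  rw [Finset.sum_mul_sum]
  simp only [Finset.sum_mul]
  rw [Finset.sum_comm]
  conv_rhs => rw [Finset.sum_comm]
  refine (Fintype.sum_equiv e _ _ fun b => ?_).symm
  refine Fintype.sum_equiv (Equiv.addRight b) _ _ fun a => ?_
  simp only [Equiv.coe_addRight]
  rw [Inter.shift he hφ hS (a + b) b, add_sub_cancel_right, hexp]
  ring

omit [DecidableEq X] [FaithfulSMul G X] in
/-- Intertwiners of the untwisted action have rational eigenvalues. -/
theorem eig_one (h2 : IsMultiplyPretransitive G X 2) {S : X → X → ℚ} (hS : Inter (1 : MulAut G) S) :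
    ∃ r : ℚ, eig e ζ S = r := by
  haveI : NeZero p := ⟨hp.out.ne_zero⟩
  classical
  have hconst : ∀ k : ZMod p, k ≠ 0 → S (e k) (e 0) = S (e 1) (e 0) := by
    intro k hk
    obtain ⟨g, hg1, hg2⟩ : ∃ g : G, g • e 1 = e k ∧ g • e 0 = e 0 :=
      is_two_pretransitive_iff.1 h2 (fun h => one_ne_zero (e.injective h)) (fun h => hk (e.injective h))
    have := hS g (e 1) (e 0)
    rwa [MulAut.one_apply, hg1, hg2] at this
  refine ⟨S (e 0) (e 0) - S (e 1) (e 0), ?_⟩
  have hsum : ∑ k : ZMod p, ζ ^ k.val = 0 := by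
    have h := hζ.geom_sum_eq_zero hp.out.one_lt
    rw [← h]
    refine Finset.sum_bij (fun k _ => k.val) (fun k _ => Finset.mem_range.2 (ZMod.val_lt k))
      (fun a _ b _ h => ZMod.val_injective p h)
      (fun n hn => ⟨(n : ZMod p), Finset.mem_univ _, ZMod.val_cast_of_lt (Finset.mem_range.1 hn)⟩)
      fun k _ => rfl
  calc eig e ζ S
      = ∑ k : ZMod p, ((S (e 1) (e 0) : ℂ) * ζ ^ k.val +
          if k = 0 then ((S (e 0) (e 0) : ℂ) - S (e 1) (e 0)) else 0) := by
        refine Finset.sum_congr rfl fun k _ => ?_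
        by_cases hk : k = 0
        · subst hk; simp
        · rw [if_neg hk, hconst k hk, add_zero]
    _ = _ := by
        rw [Finset.sum_add_distrib, ← Finset.mul_sum, hsum, mul_zero, zero_add,
          Finset.sum_ite_eq' Finset.univ (0 : ZMod p), if_pos (Finset.mem_univ _)]
        push_cast
        rfl

/-- The orbit kernel of a twist. -/
theorem exists_inter (hGp : ¬ p ^ 2 ∣ Nat.card G) {φ : MulAut G} (hφ : φ σ = σ) :
    ∃ S : X → X → ℚ, Inter φ S ∧ (∀ y x, S y x = 0 ∨ S y x = 1) ∧ eig e ζ S ≠ 0 := by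
  classical
  haveI : NeZero p := ⟨hp.out.ne_zero⟩
  let S : X → X → ℚ := fun y x => if ∃ g : G, φ g • e 0 = y ∧ g • e 0 = x then 1 else 0
  have hS : Inter φ S := by
    intro g y x
    simp only [S]
    refine if_congr ⟨fun ⟨h, h1, h2⟩ => ⟨g⁻¹ * h, ?_, ?_⟩, fun ⟨h, h1, h2⟩ => ⟨g * h, ?_, ?_⟩⟩ rfl rfl
    · rw [map_mul, map_inv, mul_smul, h1, inv_smul_smul]
    · rw [mul_smul, h2, inv_smul_smul]
    · rw [map_mul, mul_smul, h1]
    · rw [mul_smul, h2]
  refine ⟨S, hS, fun y x => ?_, fun h0 => hGp ?_⟩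
  · simp only [S]; by_cases hc : ∃ g : G, φ g • e 0 = y ∧ g • e 0 = x <;> simp [hc]
  have hc := exists_ratCast_eq_iff hζ (fun k => S (e k) (e 0)) h0
  have h00 : S (e 0) (e 0) = 1 := if_pos ⟨1, by simp, by simp⟩
  have hall : ∀ y x, S y x = 1 := by
    intro y x
    obtain ⟨i, rfl⟩ := e.surjective y
    obtain ⟨j, rfl⟩ := e.surjective x
    rw [Inter.shift he hφ hS]
    exact (hc (i - j) 0).trans h00
  -- transitivity on pairs
  letI act : MulAction G (X × X) :=
    { smul := fun g w => (φ g • w.1, g • w.2)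
      one_smul := fun w => Prod.ext (by change φ 1 • w.1 = w.1; rw [map_one, one_smul]) (one_smul G w.2)
      mul_smul := fun a b w => Prod.ext
        (by change φ (a * b) • w.1 = φ a • (φ b • w.1); rw [map_mul, mul_smul]) (mul_smul a b w.2) }
  have htrans : @IsPretransitive G (X × X) act.toSMul :=
    (isPretransitive_iff_base ((e 0, e 0) : X × X)).2 fun w => by
    have hw := hall w.1 w.2
    simp only [S, ite_eq_left_iff, zero_ne_one, imp_false, not_not] at hw
    obtain ⟨g, h1, h2⟩ := hw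
    exact ⟨g, Prod.ext h1 h2⟩
  have hidx := @index_stabilizer_of_transitive G (X × X) _ act (e 0, e 0) htrans
  have hcard : Nat.card (X × X) = p ^ 2 := by
    rw [Nat.card_prod, pow_two, ← Nat.card_congr e, Nat.card_zmod]
  rw [← hcard, ← hidx]
  exact Subgroup.index_dvd_card _

/-- Automorphisms centralizing the cycle commute. -/
theorem commute_of_fix (h2 : IsMultiplyPretransitive G X 2) (hGp : ¬ p ^ 2 ∣ Nat.card G)
    {φ ψ : MulAut G} (hφ : φ σ = σ) (hψ : ψ σ = σ) : φ * ψ = ψ * φ := by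
  haveI : NeZero p := ⟨hp.out.ne_zero⟩
  have hinv : ∀ χ : MulAut G, χ σ = σ → χ⁻¹ σ = σ := fun χ hχ => by
    rw [MulAut.inv_apply, MulEquiv.symm_apply_eq]; exact hχ.symm
  obtain ⟨A, hA, -, hA0⟩ := exists_inter he hζ hGp hφ
  obtain ⟨B, hB, -, hB0⟩ := exists_inter he hζ hGp hψ
  obtain ⟨A', hA', -, hA0'⟩ := exists_inter he hζ hGp (hinv φ hφ)
  obtain ⟨B', hB', -, hB0'⟩ := exists_inter he hζ hGp (hinv ψ hψ)
  obtain ⟨r₁, hr₁⟩ := eig_one he hζ h2 (mul_inv_cancel φ ▸ hA.comp hA' : Inter (1 : MulAut G) (comp A A'))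
  obtain ⟨r₂, hr₂⟩ := eig_one he hζ h2 (mul_inv_cancel ψ ▸ hB.comp hB' : Inter (1 : MulAut G) (comp B B'))
  rw [eig_comp he hζ hφ hA hA'] at hr₁
  rw [eig_comp he hζ hψ hB hB'] at hr₂
  set γ := φ * ψ * φ⁻¹ * ψ⁻¹ with hγ
  have hfix2 : (φ * ψ) σ = σ := by rw [MulAut.mul_apply, hψ, hφ]
  have hfix3 : (φ * ψ * φ⁻¹) σ = σ := by rw [MulAut.mul_apply, hinv φ hφ, hfix2]
  have hγσ : γ σ = σ := by rw [hγ, MulAut.mul_apply, hinv ψ hψ, hfix3]
  set T := comp (comp (comp A B) A') B'
  have hT : Inter γ T := ((hA.comp hB).comp hA').comp hB'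
  have hTeig : eig e ζ T = ((r₁ * r₂ : ℚ) : ℂ) := by
    rw [eig_comp he hζ hfix3 ((hA.comp hB).comp hA') hB', eig_comp he hζ hfix2 (hA.comp hB) hA',
      eig_comp he hζ hφ hA hB, Rat.cast_mul, ← hr₁, ← hr₂]
    ring
  obtain ⟨S, hS, hS01, hS0⟩ := exists_inter he hζ hGp hγσ
  obtain ⟨R, hR, -, hR0⟩ := exists_inter he hζ hGp (hinv γ hγσ)
  obtain ⟨r₃, hr₃⟩ := eig_one he hζ h2 (inv_mul_cancel γ ▸ hR.comp hT : Inter (1 : MulAut G) (comp R T))
  obtain ⟨r₄, hr₄⟩ := eig_one he hζ h2 (inv_mul_cancel γ ▸ hR.comp hS : Inter (1 : MulAut G) (comp R S))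
  rw [eig_comp he hζ (hinv γ hγσ) hR hT, hTeig] at hr₃
  rw [eig_comp he hζ (hinv γ hγσ) hR hS] at hr₄
  have h12 : (r₁ * r₂ : ℚ) ≠ 0 := by
    intro h
    have h' : (r₁ : ℂ) * r₂ = 0 := by rw [← Rat.cast_mul, h, Rat.cast_zero]
    rw [← hr₁, ← hr₂] at h'
    exact mul_ne_zero (mul_ne_zero hA0 hA0') (mul_ne_zero hB0 hB0') h'
  -- the eigenvalue of the orbit kernel of the commutator is rational
  obtain ⟨r, hr⟩ : ∃ r : ℚ, eig e ζ S = r := by
    refine ⟨r₄ * (r₁ * r₂) / r₃, ?_⟩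
    have h3 : (r₃ : ℂ) ≠ 0 := by rw [← hr₃]; exact mul_ne_zero hR0 (Rat.cast_ne_zero.2 h12)
    push_cast
    rw [eq_div_iff h3, ← hr₃, ← hr₄]
    push_cast
    ring
  have hc : ∀ k : ZMod p, k ≠ 0 →
      S (e k) (e 0) = S (e 0) (e 0) - r := by
    intro k hk
    have h0 := exists_ratCast_eq_iff hζ
      (fun i : ZMod p => S (e i) (e 0) - if i = 0 then r else 0) ?_ k 0
    · simpa [hk] using h0
    · calc (∑ i : ZMod p, (((S (e i) (e 0) - if i = 0 then r else 0 : ℚ)) : ℂ) * ζ ^ i.val)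
          = eig e ζ S - ∑ i : ZMod p, if i = 0 then (r : ℂ) else 0 := by
            rw [eig, ← Finset.sum_sub_distrib]
            refine Finset.sum_congr rfl fun i _ => ?_
            by_cases hi : i = 0
            · subst hi; simp
            · simp [hi]
        _ = 0 := by rw [Finset.sum_ite_eq' Finset.univ (0 : ZMod p), if_pos (Finset.mem_univ _), hr,
              sub_self]
  have hrne : r ≠ 0 := fun h => hS0 (by rw [hr, h, Rat.cast_zero])
  -- so the kernel detects the diagonal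
  have hdiag : ∀ y x : X, S y x = S (e 0) (e 0) ↔ y = x := by
    intro y x
    obtain ⟨i, rfl⟩ := e.surjective y
    obtain ⟨j, rfl⟩ := e.surjective x
    rw [Inter.shift he hγσ hS]
    refine ⟨fun h => ?_, fun h => by rw [e.injective h, sub_self]⟩
    by_contra hne
    rw [hc _ (fun e0 => hne (congrArg e (sub_eq_zero.1 e0)))] at h
    exact hrne (by linarith)
  have hone : γ = 1 := by
    refine MulEquiv.ext fun g => ?_
    refine FaithfulSMul.eq_of_smul_eq_smul (α := X) fun x => ?_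
    rw [MulAut.one_apply]
    exact (hdiag _ _).1 ((hS g x x).trans ((hdiag x x).2 rfl))
  calc φ * ψ = γ * (ψ * φ) := by rw [hγ]; group
    _ = ψ * φ := by rw [hone, one_mul]

end

end Cfsg.Agent.FGS.PrimeIndex
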