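import Cfsg.Agent.Coprime.Generation
import Cfsg.Agent.Coprime.Action
import Mathlib.GroupTheory.Schreier

/-!
An elementary abelian group of rank three acting coprimely: invariant nilpotent subgroups are
bounded products of fixed-point subgroups of corank one.
-/

set_option autoImplicit false
set_option linter.style.haveILetI false

namespace Cfsg.Agent.FGS.RankThree

open Subgroup
open scoped Pointwise commutatorElement

variable {Γ : Type*} [Group Γ]

/-- The subgroups of order `q ^ 2` of `A`. -/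
def planes (A : Subgroup Γ) (q : ℕ) : Set (Subgroup Γ) := {B | B ≤ A ∧ Nat.card B = q ^ 2}

/-- Elements of `K` fixed by some subgroup of order `q ^ 2` of `A`. -/
def fixedSet (A K : Subgroup Γ) (q : ℕ) : Set Γ :=
  {x | x ∈ K ∧ ∃ B ∈ planes A q, x ∈ centralizer (B : Set Γ)}

/-- The conditions on an elementary abelian acting group of order `q ^ 3`. -/
structure Setup (A K : Subgroup Γ) (q : ℕ) : Prop where
  hq : q.Prime
  hcard : Nat.card A = q ^ 3
  hcomm : ∀ a ∈ A, ∀ b ∈ A, a * b = b * a
  hexp : ∀ a ∈ A, a ^ q = 1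
  hnorm : A ≤ normalizer (K : Set Γ)
  hcop : (Nat.card A).Coprime (Nat.card K)

variable [Finite Γ] {A K : Subgroup Γ} {q : ℕ}

theorem Setup.of_le (h : Setup A K q) {L : Subgroup Γ} (hL : L ≤ K)
    (hLn : A ≤ normalizer (L : Set Γ)) : Setup A L q :=
  ⟨h.hq, h.hcard, h.hcomm, h.hexp, hLn, h.hcop.coprime_dvd_right (card_dvd_of_le hL)⟩

theorem Setup.isMulCommutative (h : Setup A K q) : IsMulCommutative A :=
  ⟨⟨fun a b => Subtype.ext (h.hcomm a a.2 b b.2)⟩⟩

theorem Setup.centralizer_singleton_le (h : Setup A K q) {a : Γ} (ha : a ∈ A) :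
    A ≤ normalizer ((centralizer {a} : Subgroup Γ) : Set Γ) := by
  refine le_trans ?_ le_normalizer
  intro b hb
  exact mem_centralizer_singleton_iff.2 (h.hcomm b hb a ha)

/-- Two distinct cyclic subgroups generate a plane. -/
theorem Setup.plane_mem (h : Setup A K q) {a b : Γ} (ha : a ∈ A) (ha1 : a ≠ 1) (hb : b ∈ A)
    (hba : b ∉ zpowers a) : zpowers a ⊔ zpowers b ∈ planes A q := by
  haveI := Fact.mk h.hq
  refine ⟨sup_le (zpowers_le.2 ha) (zpowers_le.2 hb), ?_⟩
  have hb1 : b ≠ 1 := fun e => hba (e ▸ one_mem _)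
  have hoa : orderOf a = q := orderOf_eq_prime (h.hexp a ha) ha1
  have hob : orderOf b = q := orderOf_eq_prime (h.hexp b hb) hb1
  have hdisj : zpowers a ⊓ zpowers b = ⊥ := by
    have hd : Nat.card (zpowers a ⊓ zpowers b : Subgroup Γ) ∣ q := by
      have := card_dvd_of_le (inf_le_right : zpowers a ⊓ zpowers b ≤ zpowers b)
      rwa [Nat.card_zpowers, hob] at this
    rcases (Nat.dvd_prime h.hq).1 hd with e | e
    · exact eq_bot_of_card_eq _ e
    · exfalso
      have := eq_of_le_of_card_ge (inf_le_right : zpowers a ⊓ zpowers b ≤ zpowers b)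
        (by rw [e, Nat.card_zpowers, hob])
      exact hba ((inf_le_left : zpowers a ⊓ zpowers b ≤ zpowers a) (this.symm ▸ mem_zpowers b))
  haveI := h.isMulCommutative
  have hnorm : zpowers b ≤ normalizer (zpowers a : Set Γ) := by
    refine le_trans ?_ (centralizer_le_normalizer _)
    refine zpowers_le.2 (mem_centralizer_iff.2 fun c hc => ?_)
    exact h.hcomm c (zpowers_le.2 ha hc) b hb
  have hmul : (zpowers a ⊔ zpowers b : Subgroup Γ) = (zpowers a : Subgroup Γ) ⊔ zpowers b := rfl
  have hcardmul := Nat.card_congr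
    ((Equiv.ofInjective (fun x : zpowers a × zpowers b => (x.1 : Γ) * x.2) (by
      rintro ⟨x, y⟩ ⟨x', y'⟩ e
      have e' : (x' : Γ)⁻¹ * x = y' * (y : Γ)⁻¹ := by
        rw [eq_mul_inv_iff_mul_eq, mul_assoc, inv_mul_eq_iff_eq_mul]; exact e
      have hmem : (x' : Γ)⁻¹ * x ∈ zpowers a ⊓ zpowers b :=
        mem_inf.2 ⟨mul_mem (inv_mem x'.2) x.2, e' ▸ mul_mem y'.2 (inv_mem y.2)⟩
      rw [hdisj, mem_bot] at hmem
      rw [hmem, eq_comm, mul_inv_eq_one] at e'
      exact Prod.ext (Subtype.ext (inv_mul_eq_one.1 hmem).symm) (Subtype.ext e'.symm))))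
  rw [Nat.card_prod, Nat.card_zpowers, Nat.card_zpowers, hoa, hob] at hcardmul
  rw [pow_two, hcardmul]
  refine Nat.card_congr (Equiv.setCongr ?_)
  rw [coe_mul_of_right_le_normalizer_left _ _ hnorm]
  ext x
  constructor
  · rintro ⟨u, hu, v, hv, rfl⟩
    exact ⟨(⟨u, hu⟩, ⟨v, hv⟩), rfl⟩
  · rintro ⟨⟨u, v⟩, rfl⟩
    exact Set.mul_mem_mul u.2 v.2

theorem Setup.not_isCyclic (h : Setup A K q) : ¬ IsCyclic A := by
  intro hc
  obtain ⟨g, hg⟩ := hc.exists_ofOrder_eq_natCard
  have := orderOf_dvd_of_pow_eq_one (n := q) (x := g) (Subtype.ext (by simpa using h.hexp g g.2))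
  rw [hg, h.hcard] at this
  have := Nat.le_of_dvd h.hq.pos this
  nlinarith [h.hq.two_le, Nat.pow_le_pow_right h.hq.pos (show 2 ≤ 3 by norm_num)]

/-- Any nontrivial element extends to a complementary noncyclic subgroup. -/
theorem Setup.exists_complement (h : Setup A K q) {a : Γ} (ha : a ∈ A) (ha1 : a ≠ 1) :
    ∃ B ∈ planes A q, a ∉ B := by
  haveI := Fact.mk h.hq
  have hoa : orderOf a = q := orderOf_eq_prime (h.hexp a ha) ha1
  obtain ⟨b, hb, hba⟩ : ∃ b ∈ A, b ∉ zpowers a := by
    by_contra hcon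
    push Not at hcon
    have := card_le_of_le (fun x hx => hcon x hx : A ≤ zpowers a)
    rw [h.hcard, Nat.card_zpowers, hoa] at this
    nlinarith [h.hq.two_le, Nat.pow_le_pow_right h.hq.pos (show 2 ≤ 3 by norm_num)]
  have hP := h.plane_mem ha ha1 hb hba
  obtain ⟨c, hc, hcP⟩ : ∃ c ∈ A, c ∉ zpowers a ⊔ zpowers b := by
    by_contra hcon
    push Not at hcon
    have := card_le_of_le (fun x hx => hcon x hx : A ≤ zpowers a ⊔ zpowers b)
    rw [h.hcard, hP.2] at this
    exact absurd this (not_le.2 (Nat.pow_lt_pow_right h.hq.one_lt (by norm_num)))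
  have hb1 : b ≠ 1 := fun e => hba (e ▸ one_mem _)
  have hcb : c ∉ zpowers b := fun e => hcP (mem_sup_right e)
  refine ⟨_, h.plane_mem hb hb1 hc hcb, fun haB => hcP ?_⟩
  have hle : zpowers a ⊔ zpowers b ≤ zpowers b ⊔ zpowers c :=
    sup_le (zpowers_le.2 haB) le_sup_left
  have := eq_of_le_of_card_ge hle (le_of_eq ((h.plane_mem hb hb1 hc hcb).2.trans hP.2.symm))
  exact this ▸ mem_sup_right (mem_zpowers c)

/-- An invariant subgroup is generated by the fixed points of planes. -/
theorem Setup.le_closure (h : Setup A K q) : K ≤ closure (fixedSet A K q) := by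
  haveI := h.isMulCommutative
  haveI := Fact.mk h.hq
  conv_lhs => rw [← Coprime.iSup_centralizer_eq h.not_isCyclic h.hnorm h.hcop]
  refine iSup₂_le fun a ha => ?_
  obtain ⟨ha, ha1⟩ := ha
  obtain ⟨B, hB, haB⟩ := h.exists_complement ha ha1
  haveI : IsMulCommutative B := ⟨⟨fun x y => Subtype.ext (h.hcomm x (hB.1 x.2) y (hB.1 y.2))⟩⟩
  have hBc : ¬ IsCyclic B := by
    intro hc
    obtain ⟨g, hg⟩ := hc.exists_ofOrder_eq_natCard
    have := orderOf_dvd_of_pow_eq_one (n := q) (x := g)
      (Subtype.ext (by simpa using h.hexp g (hB.1 g.2)))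
    rw [hg, hB.2] at this
    have := Nat.le_of_dvd h.hq.pos this
    nlinarith [h.hq.two_le]
  have hBn : B ≤ normalizer ((K ⊓ centralizer {a} : Subgroup Γ) : Set Γ) :=
    hB.1.trans ((le_inf h.hnorm (h.centralizer_singleton_le ha)).trans
      inf_normalizer_le_normalizer_inf)
  have hBcop : (Nat.card B).Coprime (Nat.card (K ⊓ centralizer {a} : Subgroup Γ)) :=
    (h.hcop.coprime_dvd_left (card_dvd_of_le hB.1)).coprime_dvd_right (card_dvd_of_le inf_le_left)
  conv_lhs => rw [← Coprime.iSup_centralizer_eq hBc hBn hBcop]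
  refine iSup₂_le fun b hb => ?_
  obtain ⟨hb, hb1⟩ := hb
  have hba : b ∉ zpowers a := by
    intro hmem
    have hoa : orderOf a = q := orderOf_eq_prime (h.hexp a ha) ha1
    have hob : orderOf b = q := orderOf_eq_prime (h.hexp b (hB.1 hb)) hb1
    have := eq_of_le_of_card_ge (zpowers_le.2 hmem) (by rw [Nat.card_zpowers, Nat.card_zpowers, hoa, hob])
    exact haB (zpowers_le.2 hb (this.symm ▸ mem_zpowers a))
  rintro x ⟨⟨hxK, hxa⟩, hxb⟩
  refine subset_closure ⟨hxK, _, h.plane_mem ha ha1 (hB.1 hb) hba, ?_⟩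
  have hle : zpowers a ⊔ zpowers b ≤ centralizer {x} :=
    sup_le (zpowers_le.2 (mem_centralizer_singleton_iff.2 ((mem_centralizer_singleton_iff.1 hxa).symm)))
      (zpowers_le.2 (mem_centralizer_singleton_iff.2 ((mem_centralizer_singleton_iff.1 hxb).symm)))
  exact mem_centralizer_iff.2 fun c hc => mem_centralizer_singleton_iff.1 (hle hc)

theorem prod_mul_congr {M Q : Type*} [Group M] [Group Q] (π : M →* Q) :
    ∀ (l : List (M × M)), (∀ p ∈ l, π p.2 ∈ center Q) →
      π ((l.map Prod.fst).prod * (l.map Prod.snd).prod) = π (l.map fun p => p.1 * p.2).prod := by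
  intro l
  induction l with
  | nil => simp
  | cons p l ih =>
    intro hl
    have hc := mem_center_iff.1 (hl p (List.mem_cons_self ..))
    have ih' := ih fun r hr => hl r (List.mem_cons_of_mem _ hr)
    simp only [List.map_cons, List.prod_cons, map_mul] at ih' ⊢
    rw [← ih']
    calc π p.1 * π (l.map Prod.fst).prod * (π p.2 * π (l.map Prod.snd).prod)
        = π p.1 * (π (l.map Prod.fst).prod * π p.2) * π (l.map Prod.snd).prod := by group
      _ = π p.1 * (π p.2 * π (l.map Prod.fst).prod) * π (l.map Prod.snd).prod := by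
          rw [hc (π (l.map Prod.fst).prod)]
      _ = _ := by group

theorem prod_indicator {ι M : Type*} [Monoid M] [DecidableEq ι] (v : M) {i₀ : ι} :
    ∀ {l : List ι}, l.Nodup → i₀ ∈ l → (l.map fun i => if i = i₀ then v else 1).prod = v := by
  intro l hl hi
  induction l with
  | nil => cases hi
  | cons a l ih =>
    rw [List.nodup_cons] at hl
    rw [List.map_cons, List.prod_cons]
    rcases List.mem_cons.1 hi with rfl | hi
    · rw [if_pos rfl, List.prod_eq_one, mul_one]
      intro x hx
      obtain ⟨b, hb, rfl⟩ := List.mem_map.1 hx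
      exact if_neg fun e : b = i₀ => hl.1 (e ▸ hb)
    · rw [if_neg (fun e : a = i₀ => hl.1 (e ▸ hi)), one_mul, ih hl.2 hi]

/-- A list of all planes. -/
theorem exists_plane_list (A : Subgroup Γ) (hA : ∀ a ∈ A, a ^ q = 1) :
    ∃ l : List (Subgroup Γ), l.length ≤ 2 ^ Nat.card A ∧ l.Nodup ∧ ∀ B, B ∈ l ↔ B ∈ planes A q := by
  classical
  haveI := Fintype.ofFinite Γ
  haveI : Fintype (Subgroup Γ) := Fintype.ofFinite _
  refine ⟨(planes A q).toFinset.toList, ?_, Finset.nodup_toList _, fun B => by simp⟩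
  rw [Finset.length_toList]
  calc (planes A q).toFinset.card = Nat.card (planes A q) := by
        rw [Nat.card_eq_card_toFinset]
    _ ≤ Nat.card (Set A) := Nat.card_le_card_of_injective
        (fun B => {a : A | (a : Γ) ∈ (B : Subgroup Γ)}) (by
          rintro ⟨B, hB, _⟩ ⟨B', hB', _⟩ e
          refine Subtype.ext (SetLike.ext fun x => ?_)
          by_cases hx : x ∈ A
          · exact Set.ext_iff.1 e ⟨x, hx⟩
          · exact ⟨fun h => absurd (hB h) hx, fun h => absurd (hB' h) hx⟩)
    _ = 2 ^ Nat.card A := by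
        haveI := Fintype.ofFinite A
        rw [Nat.card_eq_fintype_card, Fintype.card_set, Nat.card_eq_fintype_card]

/-- A product in the order of the list of planes. -/
theorem Setup.exists_prod (h : Setup A K q) [Group.IsNilpotent K] (l : List (Subgroup Γ))
    (hnd : l.Nodup) (hl : ∀ B, B ∈ l ↔ B ∈ planes A q) (x : Γ) (hx : x ∈ K) :
    ∃ f : Subgroup Γ → Γ, (∀ B ∈ l, f B ∈ K ⊓ centralizer (B : Set Γ)) ∧ (l.map f).prod = x := by
  classical
  -- `S n` : congruence modulo the n-th term of the lower central series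
  have key : ∀ n, ∀ y : K, ∃ f : Subgroup Γ → K, (∀ B ∈ l, (f B : Γ) ∈ centralizer (B : Set Γ)) ∧
      (l.map f).prod⁻¹ * y ∈ (⊤ : Subgroup K).lowerCentralSeries n := by
    intro n
    induction n with
    | zero => intro y; exact ⟨fun _ => 1, fun B _ => one_mem _, by simp⟩
    | succ n ih =>
      set N := (⊤ : Subgroup K).lowerCentralSeries n
      set N' := (⊤ : Subgroup K).lowerCentralSeries (n + 1)
      set π := QuotientGroup.mk' N'
      have hNN : N' ≤ N := Subgroup.lowerCentralSeries_antitone _ (Nat.le_succ n)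
      have hcent : ∀ z ∈ N, π z ∈ center (K ⧸ N') := by
        intro z hz
        refine mem_center_iff.2 fun w => ?_
        obtain ⟨w, rfl⟩ := QuotientGroup.mk'_surjective N' w
        rw [← map_mul, ← map_mul]
        refine QuotientGroup.eq.2 ?_
        have : ⁅z⁻¹, w⁻¹⁆ ∈ N' := commutator_mem_commutator (inv_mem hz) (mem_top _)
        rw [commutatorElement_def, inv_inv, inv_inv] at this
        have h2 := (inferInstance : N'.Normal).conj_mem _ this 1
        simpa [mul_assoc, mul_inv_rev] using this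
      -- elements of `N` are products of fixed points modulo `N'`
      have hNprod : ∀ z ∈ N, ∃ g : Subgroup Γ → K,
          (∀ B ∈ l, (g B : Γ) ∈ centralizer (B : Set Γ) ∧ g B ∈ N) ∧
            π (l.map g).prod = π z := by
        have hNmap : Setup A (N.map K.subtype) q := by
          refine h.of_le (map_subtype_le _) ?_
          haveI : N.Characteristic := inferInstance
          exact h.hnorm.trans (Coprime.normalizer_le_normalizer_map_characteristic K N)
        intro z hz
        have hzc := hNmap.le_closure ⟨z, hz, rfl⟩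
        set P : Γ → Prop := fun w => ∃ hw : w ∈ K, (⟨w, hw⟩ : K) ∈ N ∧ ∃ g : Subgroup Γ → K,
          (∀ B ∈ l, (g B : Γ) ∈ centralizer (B : Set Γ) ∧ g B ∈ N) ∧ π (l.map g).prod = π ⟨w, hw⟩
        suffices hP : P (z : Γ) by
          obtain ⟨hw, -, g, hg, hgp⟩ := hP
          exact ⟨g, hg, hgp⟩
        have hmul : ∀ u v, P u → P v → P (u * v) := by
          rintro u v ⟨hu, huN, g, hg, hgp⟩ ⟨hv, hvN, g', hg', hgp'⟩
          refine ⟨mul_mem hu hv, mul_mem huN hvN, fun B => g B * g' B,
            fun B hB => ⟨mul_mem (hg B hB).1 (hg' B hB).1, mul_mem (hg B hB).2 (hg' B hB).2⟩, ?_⟩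
          have := prod_mul_congr π (l.map fun B => (g B, g' B)) (by
            intro p hp
            obtain ⟨B, hB, rfl⟩ := List.mem_map.1 hp
            exact hcent _ (hg' B hB).2)
          simp only [List.map_map, Function.comp_def] at this
          rw [← this, map_mul, hgp, hgp', ← map_mul]
          rfl
        have hone : P 1 := ⟨one_mem K, one_mem N, fun _ => 1,
          fun B _ => ⟨one_mem _, one_mem N⟩, congrArg π (List.prod_eq_one (by simp))⟩
        refine closure_induction_left (p := fun w _ => P w) hone ?_ ?_ hzc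
        · rintro u ⟨huN, B₀, hB₀, huB⟩ v _ hv
          refine hmul u v ?_ hv
          obtain ⟨⟨u', hu'⟩, hu'N, rfl⟩ := huN
          refine ⟨hu', hu'N, fun B => if B = B₀ then ⟨u', hu'⟩ else 1, fun B _ => ?_, ?_⟩
          · dsimp only
            split
            · rename_i e; subst e; exact ⟨huB, hu'N⟩
            · exact ⟨one_mem _, one_mem N⟩
          · exact congrArg π (prod_indicator _ hnd ((hl B₀).2 hB₀))
        · rintro u ⟨huN, B₀, hB₀, huB⟩ v _ hv
          refine hmul u⁻¹ v ?_ hv
          obtain ⟨⟨u', hu'⟩, hu'N, rfl⟩ := huN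
          refine ⟨inv_mem hu', inv_mem hu'N, fun B => if B = B₀ then ⟨u', hu'⟩⁻¹ else 1,
            fun B _ => ?_, ?_⟩
          · dsimp only
            split
            · rename_i e; subst e; exact ⟨inv_mem huB, inv_mem hu'N⟩
            · exact ⟨one_mem _, one_mem N⟩
          · exact congrArg π (prod_indicator _ hnd ((hl B₀).2 hB₀))
      intro y
      obtain ⟨f, hf, hfy⟩ := ih y
      obtain ⟨g, hg, hgp⟩ := hNprod _ hfy
      refine ⟨fun B => f B * g B, fun B hB => mul_mem (hf B hB) (hg B hB).1, ?_⟩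
      refine QuotientGroup.eq.1 ?_
      have := prod_mul_congr π (l.map fun B => (f B, g B)) (by
        intro p hp
        obtain ⟨B, hB, rfl⟩ := List.mem_map.1 hp
        exact hcent _ (hg B hB).2)
      simp only [List.map_map, Function.comp_def] at this
      change π (l.map fun B => f B * g B).prod = π y
      rw [← this, map_mul, hgp, ← map_mul, mul_inv_cancel_left]
  obtain ⟨n, hn⟩ := Subgroup.nilpotent_iff_lowerCentralSeries.1 (inferInstance : Group.IsNilpotent K)
  obtain ⟨f, hf, hfy⟩ := key n ⟨x, hx⟩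
  rw [hn, mem_bot, inv_mul_eq_one] at hfy
  refine ⟨fun B => (f B : Γ), fun B hB => ⟨(f B).2, hf B hB⟩, ?_⟩
  have := congrArg K.subtype hfy
  rw [map_list_prod, List.map_map] at this
  exact this

end Cfsg.Agent.FGS.RankThree
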