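import Cfsg.Agent.FGS.RankThree
import Mathlib.Data.Set.Card.Arithmetic
import Mathlib.Algebra.Group.Subgroup.Pointwise

/-!
If the fixed points of every nontrivial element of an elementary abelian group of order `q ^ 3`
acting coprimely have derived subgroups of order at most `m`, then the derived subgroup is bounded
in terms of `q` and `m`.
-/

set_option autoImplicit false
set_option linter.style.haveILetI false
set_option maxHeartbeats 1000000

namespace Cfsg.Agent.FGS.RankThree

open Subgroup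
open scoped Pointwise commutatorElement

variable {Γ : Type*} [Group Γ] [Finite Γ] {A K : Subgroup Γ} {q : ℕ}

/-- The derived subgroups of the fixed-point subgroups, as a set. -/
def derivedSet (A K : Subgroup Γ) : Set Γ :=
  ⋃ c ∈ {c : Γ | c ∈ A ∧ c ≠ 1}, ((⁅K ⊓ centralizer {c}, K ⊓ centralizer {c}⁆ : Subgroup Γ) : Set Γ)

/-- The conjugates of `x` under `H`. -/
def orb (H : Subgroup Γ) (x : Γ) : Set Γ := (fun h => h * x * h⁻¹) '' (H : Set Γ)

theorem ncard_orb (H : Subgroup Γ) (x : Γ) : (orb H x).ncard = (centralizer {x}).relIndex H := by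
  rw [relIndex, index_eq_card, ← Nat.card_coe_set_eq]
  refine Nat.card_congr (Equiv.symm (Equiv.ofBijective
    (Quotient.lift (fun h : H => (⟨(h : Γ) * x * (h : Γ)⁻¹, ⟨h, h.2, rfl⟩⟩ : orb H x)) ?_) ⟨?_, ?_⟩))
  · intro a b hab
    have hab' : a⁻¹ * b ∈ (centralizer {x}).subgroupOf H := QuotientGroup.leftRel_apply.1 hab
    rw [mem_subgroupOf, mem_centralizer_singleton_iff] at hab'
    push_cast at hab'
    refine Subtype.ext ?_
    calc (a : Γ) * x * (a : Γ)⁻¹ = a * (x * ((a : Γ)⁻¹ * b)) * (b : Γ)⁻¹ := by group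
      _ = a * ((a : Γ)⁻¹ * b * x) * (b : Γ)⁻¹ := by rw [hab']
      _ = _ := by group
  · intro u v
    induction u using Quotient.inductionOn with | _ a => ?_
    induction v using Quotient.inductionOn with | _ b => ?_
    intro e
    have e' : (a : Γ) * x * (a : Γ)⁻¹ = b * x * (b : Γ)⁻¹ := congrArg Subtype.val e
    refine Quotient.sound (QuotientGroup.leftRel_apply.2 ?_)
    rw [mem_subgroupOf, mem_centralizer_singleton_iff]
    push_cast
    calc (a : Γ)⁻¹ * b * x = (a : Γ)⁻¹ * (b * x * (b : Γ)⁻¹) * b := by group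
      _ = (a : Γ)⁻¹ * (a * x * (a : Γ)⁻¹) * b := by rw [e']
      _ = _ := by group
  · rintro ⟨_, h, hh, rfl⟩
    exact ⟨Quotient.mk _ ⟨h, hh⟩, rfl⟩

theorem exists_length {S : Set Γ} (h1 : (1 : Γ) ∈ S) {x : Γ} (hx : x ∈ closure S) (n : ℕ)
    (hn : Nat.card (closure S) ≤ n) :
    ∃ l : List Γ, l.length ≤ n ∧ (∀ s ∈ l, s ∈ S) ∧ l.prod = x := by
  classical
  rw [← mem_toSubmonoid, closure_toSubmonoid_of_finite] at hx
  obtain ⟨l, hl, hlx⟩ := Submonoid.exists_list_of_mem_closure hx
  -- shorten a representing list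
  suffices h : ∀ k, ∀ l : List Γ, l.length = k → (∀ s ∈ l, s ∈ S) →
      ∃ l' : List Γ, l'.length ≤ n ∧ (∀ s ∈ l', s ∈ S) ∧ l'.prod = l.prod by
    obtain ⟨l', h1', h2', h3'⟩ := h _ l rfl hl
    exact ⟨l', h1', h2', h3'.trans hlx⟩
  intro k
  induction k using Nat.strong_induction_on with
  | _ k ih =>
    intro l hk hl
    by_cases hkn : k ≤ n
    · exact ⟨l, hk ▸ hkn, hl, rfl⟩
    push Not at hkn
    let g : Fin (k + 1) → (closure S : Subgroup Γ) := fun i => ⟨(l.take i).prod,
      list_prod_mem fun s hs => subset_closure (hl s (List.mem_of_mem_take hs))⟩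
    obtain ⟨i, j, hij, e⟩ : ∃ i j : Fin (k + 1), i < j ∧ g i = g j := by
      by_contra hne
      push Not at hne
      have : Function.Injective g := fun i j e => by
        rcases lt_trichotomy i j with h | h | h
        · exact absurd e (hne i j h)
        · exact h
        · exact absurd e.symm (hne j i h)
      have := Nat.card_le_card_of_injective g this
      rw [Nat.card_fin] at this
      omega
    have e' : (l.take i).prod = (l.take j).prod := congrArg Subtype.val e
    have hij' : (i : ℕ) < j := hij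
    obtain ⟨l', h1', h2', h3'⟩ := ih ((l.take i ++ l.drop j).length) (by
      have := j.is_lt
      simp only [List.length_append, List.length_take, List.length_drop]
      omega) _ rfl (by
      intro s hs
      rcases List.mem_append.1 hs with h | h
      · exact hl s (List.mem_of_mem_take h)
      · exact hl s (List.mem_of_mem_drop h))
    refine ⟨l', h1', h2', h3'.trans ?_⟩
    rw [List.prod_append, e', ← List.prod_append, List.take_append_drop]

/-- The words of length `n` in a set. -/
theorem ncard_words_le (S : Set Γ) (h1 : (1 : Γ) ∈ S) (n : ℕ) :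
    {x : Γ | ∃ l : List Γ, l.length ≤ n ∧ (∀ s ∈ l, s ∈ S) ∧ l.prod = x}.ncard ≤ S.ncard ^ n := by
  have hsub : {x : Γ | ∃ l : List Γ, l.length ≤ n ∧ (∀ s ∈ l, s ∈ S) ∧ l.prod = x} ⊆
      Set.range fun f : Fin n → S => (List.ofFn fun i => (f i : Γ)).prod := by
    rintro x ⟨l, hl, hS, rfl⟩
    refine ⟨fun i => ⟨(l ++ List.replicate (n - l.length) 1).getD i 1, ?_⟩, ?_⟩
    · by_cases hi : (i : ℕ) < l.length
      · rw [List.getD_eq_getElem?_getD, List.getElem?_append_left hi,
          List.getElem?_eq_getElem hi]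
        exact hS _ (List.getElem_mem hi)
      · rw [List.getD_eq_getElem _ _ (by simp; omega), List.getElem_append_right (by omega)]
        simpa using h1
    · have hlist : (List.ofFn fun i : Fin n => (l ++ List.replicate (n - l.length) (1 : Γ)).getD i 1)
          = l ++ List.replicate (n - l.length) 1 := by
        refine List.ext_getElem (by simp; omega) fun i h h' => ?_
        rw [List.getElem_ofFn, List.getD_eq_getElem _ _ h']
      show (List.ofFn fun i : Fin n => (l ++ List.replicate (n - l.length) (1 : Γ)).getD i 1).prod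
        = l.prod
      rw [hlist, List.prod_append, List.prod_replicate, one_pow, mul_one]
  refine (Set.ncard_le_ncard hsub).trans ?_
  refine (le_of_eq (Nat.card_coe_set_eq _).symm).trans ((Finite.card_range_le _).trans (le_of_eq ?_))
  rw [Nat.card_fun, Nat.card_fin, Nat.card_coe_set_eq]

/-- The bound for the size of the derived subgroup of an elementary abelian coprime action. -/
def bound (q m : ℕ) : ℕ :=
  let F := Nat.factorial ((q ^ 3 * m + 2) ^ ((m + 1) ^ 2 ^ (q ^ 3)))
  let U := (q ^ 3 * m) * F ^ m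
  let J := (F ^ m) ^ U
  (Nat.factorial m) ^ U * (Finset.range (J * J + 1)).sup cardCommutatorBound

section

variable (h : Setup A K q) {m : ℕ}
  (hm : ∀ c ∈ A, c ≠ 1 → Nat.card ↥(⁅K ⊓ centralizer {c}, K ⊓ centralizer {c}⁆) ≤ m)

include h hm

theorem ncard_derivedSet_le : (derivedSet A K).ncard ≤ q ^ 3 * m := by
  classical
  haveI := Fintype.ofFinite Γ
  have hfin : {c : Γ | c ∈ A ∧ c ≠ 1} = ((Finset.univ.filter fun c : Γ => c ∈ A ∧ c ≠ 1) : Set Γ) := by
    ext; simp
  rw [derivedSet, hfin]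
  refine (Finset.set_ncard_biUnion_le _ _).trans ?_
  refine (Finset.sum_le_card_nsmul _ _ m fun c hc => ?_).trans ?_
  · rw [Finset.mem_filter] at hc
    rw [← Nat.card_coe_set_eq]
    exact hm c hc.2.1 hc.2.2
  · rw [smul_eq_mul]
    refine Nat.mul_le_mul_right m ?_
    rw [← h.hcard]
    calc _ ≤ (Finset.univ.filter fun c : Γ => c ∈ A).card :=
          Finset.card_le_card fun c hc => by simp at hc ⊢; exact hc.1
      _ = Nat.card A := by rw [Nat.card_eq_fintype_card, Fintype.card_subtype]

omit hm in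
theorem one_mem_derivedSet : (1 : Γ) ∈ derivedSet A K := by
  haveI := h.not_isCyclic
  obtain ⟨c, hc, hc1⟩ : ∃ c ∈ A, c ≠ (1 : Γ) := by
    by_contra hne
    push Not at hne
    exact h.not_isCyclic (by
      haveI : Subsingleton A := ⟨fun a b => Subtype.ext ((hne a a.2).trans (hne b b.2).symm)⟩
      infer_instance)
  exact Set.mem_biUnion (show c ∈ {c : Γ | c ∈ A ∧ c ≠ 1} from ⟨hc, hc1⟩) (one_mem _)

omit hm in
theorem one_mem_fixedSet : (1 : Γ) ∈ fixedSet A K q := by
  obtain ⟨c, hc, hc1⟩ : ∃ c ∈ A, c ≠ (1 : Γ) := by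
    by_contra hne
    push Not at hne
    exact h.not_isCyclic (by
      haveI : Subsingleton A := ⟨fun a b => Subtype.ext ((hne a a.2).trans (hne b b.2).symm)⟩
      infer_instance)
  obtain ⟨B, hB, -⟩ := h.exists_complement hc hc1
  exact ⟨one_mem _, B, hB, one_mem _⟩

omit hm in
theorem comm_mem_derivedSet {x y : Γ} (hx : x ∈ fixedSet A K q) (hy : y ∈ fixedSet A K q) :
    ⁅x, y⁆ ∈ derivedSet A K := by
  obtain ⟨hxK, B, hB, hxB⟩ := hx
  obtain ⟨hyK, B', hB', hyB⟩ := hy
  obtain ⟨c, hcB, hcB', hc1⟩ : ∃ c, c ∈ B ∧ c ∈ B' ∧ c ≠ 1 := by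
    by_contra hne
    push Not at hne
    let f : B × B' → A := fun p => ⟨p.1 * p.2, mul_mem (hB.1 p.1.2) (hB'.1 p.2.2)⟩
    have hf : Function.Injective f := by
      rintro ⟨u, v⟩ ⟨u', v'⟩ e
      have e' : (u : Γ) * v = u' * v' := congrArg Subtype.val e
      have e2 : (u' : Γ)⁻¹ * u = v' * (v : Γ)⁻¹ := by
        rw [eq_mul_inv_iff_mul_eq, mul_assoc, inv_mul_eq_iff_eq_mul]; exact e'
      have h1 := hne _ (mul_mem (inv_mem u'.2) u.2) (e2 ▸ mul_mem v'.2 (inv_mem v.2))
      have e3 : (u : Γ) = u' := (inv_mul_eq_one.1 h1).symm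
      rw [e3] at e'
      exact Prod.ext (Subtype.ext e3) (Subtype.ext (mul_left_cancel e'))
    have := Nat.card_le_card_of_injective f hf
    rw [Nat.card_prod, hB.2, hB'.2, h.hcard, ← pow_add] at this
    have := (Nat.pow_le_pow_iff_right h.hq.one_lt).1 this
    omega
  have hx' : x ∈ K ⊓ centralizer {c} :=
    ⟨hxK, mem_centralizer_singleton_iff.2 (mem_centralizer_iff.1 hxB c hcB).symm⟩
  have hy' : y ∈ K ⊓ centralizer {c} :=
    ⟨hyK, mem_centralizer_singleton_iff.2 (mem_centralizer_iff.1 hyB c hcB').symm⟩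
  exact Set.mem_biUnion (show c ∈ {c : Γ | c ∈ A ∧ c ≠ 1} from ⟨hB.1 hcB, hc1⟩)
    (commutator_mem_commutator hx' hy')

/-- A derived element is a short word in fixed derived elements. -/
theorem derivedSet_word {t : Γ} (ht : t ∈ derivedSet A K) :
    ∃ l : List Γ, l.length ≤ m ∧ (∀ s ∈ l, s ∈ derivedSet A K ∩ fixedSet A K q) ∧ l.prod = t := by
  obtain ⟨c, hc, ht⟩ := Set.mem_iUnion₂.1 ht
  set H := ⁅K ⊓ centralizer {c}, K ⊓ centralizer {c}⁆
  have hHK : H ≤ K :=
    (commutator_le_self _).trans inf_le_left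
  have hHn : A ≤ normalizer (H : Set Γ) := by
    have hC : A ≤ normalizer ((K ⊓ centralizer {c} : Subgroup Γ) : Set Γ) :=
      (le_inf h.hnorm (h.centralizer_singleton_le hc.1)).trans inf_normalizer_le_normalizer_inf
    exact (le_inf hC hC).trans (Coprime.normalizer_inf_le_normalizer_commutator _ _)
  have h' := h.of_le hHK hHn
  have hsub : closure (fixedSet A H q) ≤ H := (closure_le _).2 fun x hx => hx.1
  obtain ⟨l, hl, hlS, rfl⟩ := exists_length (one_mem_fixedSet h') (h'.le_closure ht) m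
    ((card_le_of_le hsub).trans (hm c hc.1 hc.2))
  refine ⟨l, hl, fun s hs => ?_, rfl⟩
  obtain ⟨hsH, hB⟩ := hlS s hs
  exact ⟨Set.mem_biUnion hc hsH, hHK hsH, hB⟩

/-- Orbits of fixed elements under invariant nilpotent subgroups are bounded. -/
theorem ncard_orb_nilpotent {x : Γ} (hx : x ∈ fixedSet A K q) {P : Subgroup Γ} (hPK : P ≤ K)
    (hPn : A ≤ normalizer (P : Set Γ)) [Group.IsNilpotent P] :
    (orb P x).ncard ≤ (q ^ 3 * m + 2) ^ ((m + 1) ^ 2 ^ (q ^ 3)) := by
  obtain ⟨L, hL, hLnd, hLmem⟩ := exists_plane_list (q := q) A h.hexp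
  set S : Set Γ := (derivedSet A K ∩ fixedSet A K q) ∪ {x} with hS
  have hSX : ∀ s ∈ S, s ∈ fixedSet A K q := by
    rintro s (hs | rfl)
    exacts [hs.2, hx]
  have hS1 : (1 : Γ) ∈ S := Or.inl ⟨one_mem_derivedSet h, one_mem_fixedSet h⟩
  -- conjugation by a fixed element stretches a word by a bounded factor
  have hstep : ∀ y ∈ fixedSet A K q, ∀ l : List Γ, (∀ s ∈ l, s ∈ S) →
      ∃ l' : List Γ, l'.length ≤ (m + 1) * l.length ∧ (∀ s ∈ l', s ∈ S) ∧
        l'.prod = y * l.prod * y⁻¹ := by
    intro y hy l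
    induction l with
    | nil => intro _; exact ⟨[], by simp⟩
    | cons s l ih =>
      intro hl
      obtain ⟨l', h1, h2, h3⟩ := ih fun r hr => hl r (List.mem_cons_of_mem _ hr)
      obtain ⟨w, hw1, hw2, hw3⟩ := derivedSet_word h hm
        (comm_mem_derivedSet h hy (hSX s (hl s (List.mem_cons_self ..))))
      refine ⟨w ++ s :: l', ?_, ?_, ?_⟩
      · simp only [List.length_append, List.length_cons]
        rw [Nat.mul_succ]
        omega
      · intro r hr
        rcases List.mem_append.1 hr with hr | hr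
        · exact Or.inl (hw2 r hr)
        · rcases List.mem_cons.1 hr with rfl | hr
          · exact hl r (List.mem_cons_self ..)
          · exact h2 r hr
      · rw [List.prod_append, List.prod_cons, List.prod_cons, hw3, h3, commutatorElement_def]
        group
  have hconj : ∀ (ys : List Γ), (∀ y ∈ ys, y ∈ fixedSet A K q) →
      ∃ l : List Γ, l.length ≤ (m + 1) ^ ys.length ∧ (∀ s ∈ l, s ∈ S) ∧
        l.prod = ys.prod * x * ys.prod⁻¹ := by
    intro ys
    induction ys with
    | nil => intro _; exact ⟨[x], by simp [hS]⟩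
    | cons y ys ih =>
      intro hys
      obtain ⟨l, h1, h2, h3⟩ := ih fun r hr => hys r (List.mem_cons_of_mem _ hr)
      obtain ⟨l', h1', h2', h3'⟩ := hstep y (hys y (List.mem_cons_self ..)) l h2
      refine ⟨l', h1'.trans ?_, h2', ?_⟩
      · rw [List.length_cons, pow_succ']
        exact Nat.mul_le_mul_left _ h1
      · rw [h3', h3, List.prod_cons, mul_inv_rev]
        group
  have hsub : orb P x ⊆
      {z : Γ | ∃ l : List Γ, l.length ≤ (m + 1) ^ L.length ∧ (∀ s ∈ l, s ∈ S) ∧ l.prod = z} := by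
    rintro _ ⟨u, hu, rfl⟩
    obtain ⟨f, hf, hfu⟩ := (h.of_le hPK hPn).exists_prod L hLnd hLmem u hu
    have := hconj (L.map f) (fun y hy => by
      obtain ⟨B, hB, rfl⟩ := List.mem_map.1 hy
      exact ⟨hPK (hf B hB).1, B, (hLmem B).1 hB, (hf B hB).2⟩)
    rw [List.length_map, hfu] at this
    exact this
  refine ((Set.ncard_le_ncard hsub).trans (ncard_words_le S hS1 _)).trans ?_
  refine (Nat.pow_le_pow_left ?_ _).trans (Nat.pow_le_pow_right (by omega)
    (Nat.pow_le_pow_right (by omega) (h.hcard ▸ hL)))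
  refine (Set.ncard_union_le _ _).trans ?_
  rw [Set.ncard_singleton]
  have := (Set.ncard_le_ncard (Set.inter_subset_left : derivedSet A K ∩ fixedSet A K q ⊆ _)).trans
    (ncard_derivedSet_le h hm)
  omega

/-- Fixed elements have boundedly many conjugates. -/
theorem orb_le_of_fixed {x : Γ} (hx : x ∈ fixedSet A K q) :
    (orb K x).ncard ≤ Nat.factorial ((q ^ 3 * m + 2) ^ ((m + 1) ^ 2 ^ (q ^ 3))) := by
  set F := (q ^ 3 * m + 2) ^ ((m + 1) ^ 2 ^ (q ^ 3))
  rw [ncard_orb]
  refine Nat.le_of_dvd (Nat.factorial_pos _) ((Nat.dvd_iff_prime_pow_dvd_dvd _ _).2 ?_)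
  intro p k hp hpk
  haveI := Fact.mk hp
  obtain ⟨hxK, B, hB, hxB⟩ := hx
  set C := K ⊓ centralizer {x}
  have hAs : Group.IsSolvable A := Group.isSolvable_of_comm fun a b =>
    Subtype.ext (h.hcomm a a.2 b b.2)
  have hBs : Group.IsSolvable B := Coprime.isSolvable_of_le hB.1 hAs
  have hBK : B ≤ normalizer (K : Set Γ) := hB.1.trans h.hnorm
  have hBC : B ≤ normalizer (C : Set Γ) := by
    refine (le_inf hBK ?_).trans inf_normalizer_le_normalizer_inf
    refine le_trans ?_ le_normalizer
    intro b hb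
    exact mem_centralizer_singleton_iff.2 (mem_centralizer_iff.1 hxB b hb)
  have hcopB : (Nat.card B).Coprime (Nat.card K) := h.hcop.coprime_dvd_left (card_dvd_of_le hB.1)
  obtain ⟨U, hU⟩ := Coprime.exists_invariant_sylow p hBC
    (hcopB.coprime_dvd_right (card_dvd_of_le inf_le_left)) (Or.inl hBs)
  set Um := (U : Subgroup C).map C.subtype with hUm
  obtain ⟨P₁, hP₁U, hP₁⟩ := Coprime.exists_invariant_sylow_ge (p := p) hBK hcopB (Or.inl hBs)
    ((map_subtype_le _).trans inf_le_left) hU (U.isPGroup'.map _)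
  obtain ⟨P, hP⟩ := Coprime.exists_invariant_sylow p h.hnorm h.hcop (Or.inl hAs)
  obtain ⟨c, hc, hcP⟩ := Coprime.exists_centralizer_conj_sylow hBK hcopB (Or.inl hBs) P₁ P hP₁
    (hB.1.trans hP)
  set Pm := (P : Subgroup K).map K.subtype with hPm
  have hx' : c * x * c⁻¹ ∈ fixedSet A K q :=
    ⟨mul_mem (mul_mem hc.1 hxK) (inv_mem hc.1), B, hB,
      mul_mem (mul_mem hc.2 hxB) (inv_mem hc.2)⟩
  haveI : Group.IsNilpotent Pm := (P.isPGroup'.map K.subtype).isNilpotent
  have horb := ncard_orb_nilpotent h hm hx' (map_subtype_le _) hP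
  rw [ncard_orb] at horb
  -- the centralizer in `Pm` of the conjugate is a conjugate of `Um`
  set W := centralizer {c * x * c⁻¹} ⊓ Pm
  have hWle : Nat.card W ≤ Nat.card Um := by
    have hW' : (MulAut.conj c⁻¹ • W : Subgroup Γ) ≤ C := by
      rintro _ ⟨w, hw, rfl⟩
      obtain ⟨hwC, hwP⟩ := mem_inf.1 hw
      refine mem_inf.2 ⟨?_, mem_centralizer_singleton_iff.2 ?_⟩
      · change c⁻¹ * w * c⁻¹⁻¹ ∈ K
        rw [inv_inv]
        exact mul_mem (mul_mem (inv_mem (mem_inf.1 hc).1) (map_subtype_le _ hwP)) (mem_inf.1 hc).1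
      · have := mem_centralizer_singleton_iff.1 hwC
        change c⁻¹ * w * c⁻¹⁻¹ * x = x * (c⁻¹ * w * c⁻¹⁻¹)
        rw [inv_inv]
        calc c⁻¹ * w * c * x = c⁻¹ * (w * (c * x * c⁻¹)) * c := by group
          _ = c⁻¹ * ((c * x * c⁻¹) * w) * c := by rw [this]
          _ = _ := by group
    have hp' : IsPGroup p ((MulAut.conj c⁻¹ • W : Subgroup Γ).subgroupOf C) :=
      ((((P.isPGroup'.map K.subtype).to_le inf_le_right).map
        (MulDistribMulAction.toMonoidEnd (MulAut Γ) Γ (MulAut.conj c⁻¹))).of_equiv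
        (subgroupOfEquivOfLe hW').symm)
    obtain ⟨U', hU'⟩ := hp'.exists_le_sylow
    calc Nat.card W = Nat.card ((MulAut.conj c⁻¹ • W : Subgroup Γ).subgroupOf C) := by
          rw [Nat.card_congr (subgroupOfEquivOfLe hW').toEquiv]
          exact (Nat.card_congr (equivSMul (MulAut.conj c⁻¹) W).toEquiv)
      _ ≤ Nat.card U' := card_le_of_le hU'
      _ = Nat.card Um := by
          rw [hUm, card_map_of_injective C.subtype_injective]
          exact Nat.card_congr (U'.equiv U).toEquiv
  -- hence the p-part of the index is bounded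
  have hpart : p ^ k * Nat.card Um ∣ Nat.card Pm := by
    have hUcard : Nat.card Um = p ^ (Nat.card C).factorization p := by
      rw [hUm, card_map_of_injective C.subtype_injective, U.card_eq_multiplicity]
    have hPcard : Nat.card Pm = p ^ (Nat.card K).factorization p := by
      rw [hPm, card_map_of_injective K.subtype_injective, P.card_eq_multiplicity]
    rw [hUcard, hPcard, ← pow_add]
    refine pow_dvd_pow p ?_
    rw [← hp.pow_dvd_iff_le_factorization Nat.card_pos.ne', pow_add]
    have : Nat.card C * (centralizer {x}).relIndex K = Nat.card K := by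
      rw [← inf_relIndex_left, ← relIndex_bot_left C, ← relIndex_bot_left K]
      exact relIndex_mul_relIndex _ _ _ bot_le inf_le_left
    rw [← this, mul_comm (Nat.card C)]
    exact mul_dvd_mul hpk (Nat.ordProj_dvd _ _)
  have hidx : p ^ k ≤ F := by
    refine le_trans ?_ horb
    have hmul : Nat.card W * (centralizer {c * x * c⁻¹}).relIndex Pm = Nat.card Pm := by
      rw [← inf_relIndex_right, ← relIndex_bot_left W, ← relIndex_bot_left Pm]
      exact relIndex_mul_relIndex _ _ _ bot_le inf_le_right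
    have h1 := Nat.le_of_dvd Nat.card_pos hpart
    rw [← hmul, mul_comm (p ^ k)] at h1
    have h2 : Nat.card W * p ^ k ≤ Nat.card W * (centralizer {c * x * c⁻¹}).relIndex Pm :=
      (Nat.mul_le_mul_right _ hWle).trans h1
    exact Nat.le_of_mul_le_mul_left h2 Nat.card_pos
  exact Nat.dvd_factorial (pow_pos hp.pos k) hidx

/-- The derived subgroup is bounded. -/
theorem card_commutator_le (hm0 : 0 < m) : Nat.card ↥(⁅K, K⁆) ≤ bound q m := by
  classical
  haveI := Fintype.ofFinite Γ
  set F := Nat.factorial ((q ^ 3 * m + 2) ^ ((m + 1) ^ 2 ^ (q ^ 3))) with hF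
  set T := derivedSet A K with hT
  -- derived elements have bounded class
  have hTorb : ∀ t ∈ T, (orb K t).ncard ≤ F ^ m := by
    intro t ht
    obtain ⟨l, hl, hlS, rfl⟩ := derivedSet_word h hm ht
    refine le_trans ?_ (Nat.pow_le_pow_right (Nat.factorial_pos _) hl)
    clear hl ht
    induction l with
    | nil =>
      simp only [List.length_nil, pow_zero, List.prod_nil]
      refine (Set.ncard_le_ncard (t := {1}) ?_).trans (Set.ncard_singleton _).le
      rintro _ ⟨k, -, rfl⟩
      simp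
    | cons s l ih =>
      have hs := orb_le_of_fixed h hm (hlS s (List.mem_cons_self ..)).2
      have ih' := ih fun r hr => hlS r (List.mem_cons_of_mem _ hr)
      have hsub : orb K (s :: l).prod ⊆
          (fun p : Γ × Γ => p.1 * p.2) '' (orb K s ×ˢ orb K l.prod) := by
        rintro _ ⟨k, hk, rfl⟩
        exact ⟨(k * s * k⁻¹, k * l.prod * k⁻¹), ⟨⟨k, hk, rfl⟩, ⟨k, hk, rfl⟩⟩, by
          simp only [List.prod_cons]; group⟩
      refine (Set.ncard_le_ncard hsub).trans ((Set.ncard_image_le).trans ?_)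
      rw [Set.ncard_prod, List.length_cons, pow_succ']
      exact Nat.mul_le_mul hs ih'
  -- the set of all conjugates
  set U : Set Γ := ⋃ t ∈ T, orb K t with hUdef
  have hUcard : U.ncard ≤ (q ^ 3 * m) * F ^ m := by
    have : U = ⋃ t ∈ T.toFinset, orb K t := by simp [hUdef]
    rw [this]
    refine (Finset.set_ncard_biUnion_le _ _).trans
      ((Finset.sum_le_card_nsmul _ _ (F ^ m) fun t ht => hTorb t (Set.mem_toFinset.1 ht)).trans ?_)
    rw [smul_eq_mul, ← Set.ncard_eq_toFinset_card']
    exact Nat.mul_le_mul_right _ (ncard_derivedSet_le h hm)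
  have hTK : T ⊆ K := fun t ht => by
    obtain ⟨c, -, htc⟩ := Set.mem_iUnion₂.1 ht
    exact inf_le_left (a := K) (commutator_le_self _ htc)
  have hUK : U ⊆ K := fun u hu => by
    obtain ⟨t, ht, k, hk, rfl⟩ := Set.mem_iUnion₂.1 hu
    exact mul_mem (mul_mem hk (hTK ht)) (inv_mem hk)
  -- the conjugates generate the derived subgroup
  set D := closure U with hD
  have hDK : D ≤ K := (closure_le _).2 hUK
  have hKD : K ≤ normalizer (D : Set Γ) := by
    refine fun k hk => mem_normalizer_iff.2 ?_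
    have key : ∀ k ∈ K, ∀ d ∈ D, k * d * k⁻¹ ∈ D := by
      intro k hk d hd
      induction hd using closure_induction with
      | mem u hu =>
        obtain ⟨t, ht, k', hk', rfl⟩ := Set.mem_iUnion₂.1 hu
        refine subset_closure (Set.mem_iUnion₂.2 ⟨t, ht, k * k', mul_mem hk hk', ?_⟩)
        group
      | one => simp
      | mul a b _ _ ha hb => simpa [mul_assoc] using mul_mem ha hb
      | inv a _ ha => simpa [mul_assoc] using inv_mem ha
    intro d
    refine ⟨key k hk d, fun hd => ?_⟩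
    simpa [mul_assoc] using key k⁻¹ (inv_mem hk) _ hd
  have hTD : T ⊆ D := fun t ht =>
    subset_closure (Set.mem_iUnion₂.2 ⟨t, ht, 1, one_mem K, by simp⟩)
  have hcomm : ⁅K, K⁆ ≤ D := by
    have key : ∀ x ∈ fixedSet A K q, ∀ y ∈ K, ⁅x, y⁆ ∈ D := by
      intro x hx y hy
      have hy' := h.le_closure hy
      induction hy' using closure_induction with
      | mem z hz => exact hTD (comm_mem_derivedSet h hx hz)
      | one => simp
      | mul a b ha hb iha ihb =>
        have hsub : closure (fixedSet A K q) ≤ K := (closure_le _).2 fun z hz => hz.1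
        have e : ⁅x, a * b⁆ = ⁅x, a⁆ * (a * ⁅x, b⁆ * a⁻¹) := by
          simp only [commutatorElement_def]; group
        rw [e]
        exact mul_mem (iha (hsub ha))
          ((mem_normalizer_iff.1 (hKD (hsub ha)) _).1 (ihb (hsub hb)))
      | inv a ha iha =>
        have hsub : closure (fixedSet A K q) ≤ K := (closure_le _).2 fun z hz => hz.1
        have e : ⁅x, a⁻¹⁆ = a⁻¹ * ⁅x, a⁆⁻¹ * (a⁻¹)⁻¹ := by
          simp only [commutatorElement_def]; group
        rw [e]
        exact (mem_normalizer_iff.1 (hKD (inv_mem (hsub ha))) _).1 (inv_mem (iha (hsub ha)))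
    refine commutator_le.2 fun u hu v hv => ?_
    have hu' := h.le_closure hu
    induction hu' using closure_induction with
    | mem z hz => exact key z hz v hv
    | one => simp
    | mul a b ha hb iha ihb =>
      have hsub : closure (fixedSet A K q) ≤ K := (closure_le _).2 fun z hz => hz.1
      have e : ⁅a * b, v⁆ = (a * ⁅b, v⁆ * a⁻¹) * ⁅a, v⁆ := by
        simp only [commutatorElement_def]; group
      rw [e]
      exact mul_mem ((mem_normalizer_iff.1 (hKD (hsub ha)) _).1 (ihb (hsub hb))) (iha (hsub ha))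
    | inv a ha iha =>
      have hsub : closure (fixedSet A K q) ≤ K := (closure_le _).2 fun z hz => hz.1
      have e : ⁅a⁻¹, v⁆ = a⁻¹ * ⁅a, v⁆⁻¹ * (a⁻¹)⁻¹ := by
        simp only [commutatorElement_def]; group
      rw [e]
      exact (mem_normalizer_iff.1 (hKD (inv_mem (hsub ha))) _).1 (inv_mem (iha (hsub ha)))
  refine (card_le_of_le hcomm).trans ?_
  -- the centre of `D` has bounded index
  have horbD : ∀ u ∈ U, (centralizer {u}).relIndex D ≤ F ^ m := by
    intro u hu
    obtain ⟨t, ht, k, hk, rfl⟩ := Set.mem_iUnion₂.1 hu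
    refine le_trans ?_ (hTorb t ht)
    rw [← ncard_orb]
    refine Set.ncard_le_ncard ?_
    rintro _ ⟨d, hd, rfl⟩
    exact ⟨d * k, mul_mem (hDK hd) hk, by group⟩
  set J := (F ^ m) ^ ((q ^ 3 * m) * F ^ m) with hJ
  have hFm : 1 ≤ F ^ m := Nat.one_le_pow _ _ (Nat.factorial_pos _)
  have hZ : (center D).index ≤ J := by
    have hinf : ∀ s : Finset Γ, ↑s ⊆ U → (⨅ u ∈ s, centralizer {u}).relIndex D ≤ (F ^ m) ^ s.card := by
      intro s
      induction s using Finset.induction_on with
      | empty => intro _; simp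
      | insert a s has ih =>
        intro hs
        rw [Finset.coe_insert, Set.insert_subset_iff] at hs
        rw [Finset.iInf_insert, Finset.card_insert_of_notMem has, pow_succ']
        exact relIndex_inf_le.trans (Nat.mul_le_mul (horbD a hs.1) (ih hs.2))
    have h1 := hinf U.toFinset (by simp)
    rw [← Set.ncard_eq_toFinset_card'] at h1
    refine le_trans ?_ (h1.trans (Nat.pow_le_pow_right hFm hUcard))
    refine Nat.le_of_dvd (Nat.pos_of_ne_zero FiniteIndex.index_ne_zero) (index_dvd_of_le ?_)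
    intro d hd
    rw [mem_subgroupOf] at hd
    refine mem_center_iff.2 fun e => Subtype.ext ?_
    have hle : D ≤ centralizer {(d : Γ)} := by
      refine (closure_le _).2 fun u hu => ?_
      refine mem_centralizer_singleton_iff.2 ?_
      exact (mem_centralizer_singleton_iff.1
        ((mem_iInf.1 (mem_iInf.1 hd u)) (Set.mem_toFinset.2 hu))).symm
    exact mem_centralizer_singleton_iff.1 (hle e.2)
  -- Schur and the abelian quotient
  have hD' : Nat.card (_root_.commutator D) ≤ (Finset.range (J * J + 1)).sup cardCommutatorBound := by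
    refine (card_commutator_le_of_finite_commutatorSet D).trans (Finset.le_sup ?_)
    rw [Finset.mem_range, Nat.lt_succ_iff]
    refine le_trans ?_ (Nat.mul_le_mul hZ hZ)
    rw [index_eq_card, ← Nat.card_prod]
    refine Nat.card_le_card_of_surjective
      (f := fun p : (D ⧸ center D) × (D ⧸ center D) =>
        (⟨⁅p.1.out, p.2.out⁆, commutator_mem_commutatorSet _ _⟩ : commutatorSet D)) ?_
    rintro ⟨_, g₁, g₂, rfl⟩
    refine ⟨(QuotientGroup.mk g₁, QuotientGroup.mk g₂), Subtype.ext ?_⟩
    obtain ⟨z₁, hz₁⟩ := QuotientGroup.mk_out_eq_mul (center D) g₁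
    obtain ⟨z₂, hz₂⟩ := QuotientGroup.mk_out_eq_mul (center D) g₂
    show ⁅(QuotientGroup.mk g₁ : D ⧸ center D).out, (QuotientGroup.mk g₂ : D ⧸ center D).out⁆
      = ⁅g₁, g₂⁆
    rw [hz₁, hz₂]
    have c1 := fun w => mem_center_iff.1 z₁.2 w
    have c2 := fun w => mem_center_iff.1 z₂.2 w
    have step1 : ⁅g₁ * (z₁ : D), g₂ * (z₂ : D)⁆ = ⁅g₁, g₂ * (z₂ : D)⁆ := by
      rw [commutatorElement_def, commutatorElement_def, mul_inv_rev g₁]
      calc g₁ * (z₁ : D) * (g₂ * z₂) * ((z₁ : D)⁻¹ * g₁⁻¹) * (g₂ * z₂)⁻¹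
          = g₁ * ((z₁ : D) * (g₂ * z₂)) * (z₁ : D)⁻¹ * g₁⁻¹ * (g₂ * z₂)⁻¹ := by group
        _ = g₁ * ((g₂ * z₂) * (z₁ : D)) * (z₁ : D)⁻¹ * g₁⁻¹ * (g₂ * z₂)⁻¹ := by rw [c1]
        _ = _ := by group
    rw [step1, commutatorElement_def, commutatorElement_def, mul_inv_rev]
    calc g₁ * (g₂ * (z₂ : D)) * g₁⁻¹ * ((z₂ : D)⁻¹ * g₂⁻¹)
        = g₁ * g₂ * ((z₂ : D) * g₁⁻¹) * (z₂ : D)⁻¹ * g₂⁻¹ := by group
      _ = g₁ * g₂ * (g₁⁻¹ * (z₂ : D)) * (z₂ : D)⁻¹ * g₂⁻¹ := by rw [c2]
      _ = _ := by group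
  rw [card_eq_card_quotient_mul_card_subgroup (_root_.commutator D), bound]
  refine Nat.mul_le_mul ?_ hD'
  -- the abelian quotient
  set gens : Finset (Abelianization D) :=
    (Finset.univ.filter fun d : D => (d : Γ) ∈ U).image Abelianization.of with hgens
  have hexp0 : ∀ d : D, Abelianization.of d ^ Nat.factorial m = 1 := by
    rintro ⟨d, hd⟩
    induction hd using closure_induction with
    | mem u hu =>
      obtain ⟨t, ht, k, hk, rfl⟩ := Set.mem_iUnion₂.1 hu
      obtain ⟨c, hc, htc⟩ := Set.mem_iUnion₂.1 ht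
      have ho : t ^ Nat.factorial m = 1 := by
        refine orderOf_dvd_iff_pow_eq_one.1 ((orderOf_dvd_natCard _ htc).trans
          (Nat.dvd_factorial Nat.card_pos (hm c hc.1 hc.2)))
      rw [← map_pow]
      refine (congrArg Abelianization.of (Subtype.ext ?_ : _ = (1 : D))).trans (map_one _)
      rw [Subgroup.coe_pow, OneMemClass.coe_one, conj_pow, ho]
      group
    | one =>
      rw [show (⟨1, _⟩ : D) = 1 from rfl, map_one, one_pow]
    | mul a b ha hb iha ihb =>
      rw [show (⟨a * b, _⟩ : D) = ⟨a, ha⟩ * ⟨b, hb⟩ from rfl, map_mul, mul_pow, iha, ihb, one_mul]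
    | inv a ha iha =>
      rw [show (⟨a⁻¹, _⟩ : D) = (⟨a, ha⟩ : D)⁻¹ from rfl, map_inv, inv_pow, iha, inv_one]
  have hexp : ∀ g : Abelianization D, g ^ Nat.factorial m = 1 := by
    intro g
    obtain ⟨d, hd⟩ : ∃ d : D, Abelianization.of d = g := QuotientGroup.mk'_surjective _ g
    exact hd ▸ hexp0 d
  haveI : Group.FG (Abelianization D) := inferInstance
  have hrank : Group.rank (Abelianization D) ≤ (q ^ 3 * m) * F ^ m := by
    have hclos : closure (gens : Set (Abelianization D)) = ⊤ := by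
      rw [hgens, Finset.coe_image, ← MonoidHom.map_closure]
      rw [eq_top_iff]
      intro g _
      obtain ⟨d, rfl⟩ := QuotientGroup.mk'_surjective _ g
      refine mem_map_of_mem _ ?_
      have hmap : (closure ((Finset.univ.filter fun d : D => (d : Γ) ∈ U) : Set D)).map D.subtype
          = D := by
        rw [MonoidHom.map_closure, hD]
        congr 1
        ext u
        simp only [Finset.coe_filter, Finset.mem_univ, true_and, coe_subtype, Set.mem_image,
          Set.mem_setOf_eq]
        exact ⟨fun ⟨d, hd, e⟩ => e ▸ hd, fun hu => ⟨⟨u, subset_closure hu⟩, hu, rfl⟩⟩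
      obtain ⟨d', hd', e⟩ := hmap.ge d.2
      exact Subtype.ext e ▸ hd'
    refine (Group.rank_le hclos).trans (Finset.card_image_le.trans (le_trans ?_ hUcard))
    rw [← Set.ncard_coe_finset]
    refine Set.ncard_le_ncard_of_injOn (fun d : D => (d : Γ)) ?_ (fun a _ b _ e => Subtype.ext e)
    intro d hd
    simpa using hd
  refine le_trans ?_ (Nat.pow_le_pow_right (Nat.factorial_pos _) hrank)
  exact Nat.le_of_dvd (pow_pos (Nat.factorial_pos _) _) (card_dvd_exponent_pow_rank' (Abelianization D) hexp)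

end

end Cfsg.Agent.FGS.RankThree
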