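import Mathlib.GroupTheory.Sylow
import Mathlib.GroupTheory.SpecificGroups.Cyclic
import Mathlib.GroupTheory.Perm.Cycle.Type
import Mathlib.Tactic.NormNum.Prime
import Mathlib.GroupTheory.IndexNormal
import Mathlib.Combinatorics.Enumerative.DoubleCounting
import Mathlib.GroupTheory.GroupAction.Blocks

/-! No finite group has exactly fifteen Sylow 7-subgroups (M. Hall). -/

namespace Cfsg.Agent.FGS.Fifteen

open Subgroup MulAction
open scoped Pointwise

variable {G : Type*} [Group G]

theorem card_sylow_mul_card_normalizer [Finite G] {p : ℕ} [Fact p.Prime] (P : Sylow p G) :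
    Nat.card (Sylow p G) * Nat.card (normalizer (P : Set G)) = Nat.card G := by
  rw [P.card_eq_index_normalizer, Subgroup.index_mul_card]

theorem card_sylow_eq [Finite G] {p k m : ℕ} [Fact p.Prime] (P : Sylow p G)
    (hG : Nat.card G = p ^ k * m) (hm : ¬ p ∣ m) : Nat.card P = p ^ k := by
  have hp : p.Prime := Fact.out
  have hm0 : m ≠ 0 := fun h => hm (h ▸ dvd_zero p)
  rw [P.card_eq_multiplicity, hG, Nat.factorization_mul (pow_ne_zero _ hp.ne_zero) hm0]
  simp [Nat.factorization_eq_zero_of_not_dvd hm, hp.factorization_self]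

/-- A normal subgroup of order 3, 5 or 9 is centralized by a subgroup of order a power of 7. -/
theorem normal_le_normalizer [Finite G] (R : Subgroup G) [R.Normal] (P : Sylow 7 G)
    (hR : Nat.card R = 3 ∨ Nat.card R = 5 ∨ Nat.card R = 9) : R ≤ normalizer (P : Set G) := by
  haveI : Fact (Nat.Prime 7) := ⟨by norm_num⟩
  letI : MulAction P R := MulAction.compHom R ((MulAut.conjNormal (H := R)).comp (P : Subgroup G).subtype)
  have h := P.isPGroup'.card_modEq_card_fixedPoints (α := R)
  set T : Subgroup R := (centralizer ((P : Subgroup G) : Set G)).subgroupOf R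
  have hfix : fixedPoints P R = (T : Set R) := by
    ext r
    simp only [mem_fixedPoints, SetLike.mem_coe, T, mem_subgroupOf, mem_centralizer_iff]
    constructor
    · intro hr x hx
      have h1 : x * (r : G) * x⁻¹ = r := congrArg Subtype.val (hr ⟨x, hx⟩)
      calc x * (r : G) = x * r * x⁻¹ * x := by group
        _ = r * x := by rw [h1]
    · intro hr x
      apply Subtype.ext
      change (x : G) * (r : G) * (x : G)⁻¹ = r
      rw [hr x x.2, mul_inv_cancel_right]
  rw [hfix] at h
  change Nat.card R ≡ Nat.card T [MOD 7] at h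
  have hd := T.card_subgroup_dvd_card
  have hT : T = ⊤ := by
    apply Subgroup.eq_top_of_card_eq
    rcases hR with e | e | e <;> rw [e] at h hd ⊢ <;>
      · have h1 := Nat.le_of_dvd (by norm_num) hd
        interval_cases hc : Nat.card T <;> first | rfl | (exfalso; revert h hd; decide)
  intro r hr
  have : (⟨r, hr⟩ : R) ∈ T := by rw [hT]; exact mem_top _
  exact centralizer_le_normalizer _ this

theorem no_fifteen_small [Finite G] (hG : Nat.card G = 105 ∨ Nat.card G = 315) :
    Nat.card (Sylow 7 G) ≠ 15 := by
  haveI : Fact (Nat.Prime 7) := ⟨by norm_num⟩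
  haveI : Fact (Nat.Prime 5) := ⟨by norm_num⟩
  haveI : Fact (Nat.Prime 3) := ⟨by norm_num⟩
  intro h15
  obtain ⟨P⟩ : Nonempty (Sylow 7 G) := inferInstance
  obtain ⟨F⟩ : Nonempty (Sylow 5 G) := inferInstance
  obtain ⟨R⟩ : Nonempty (Sylow 3 G) := inferInstance
  have hN := card_sylow_mul_card_normalizer P
  rw [h15] at hN
  have hF5 : Nat.card F = 5 := by
    rcases hG with e | e
    · exact (card_sylow_eq F (k := 1) (m := 21) (by rw [e]; norm_num) (by norm_num)).trans (pow_one 5)
    · exact (card_sylow_eq F (k := 1) (m := 63) (by rw [e]; norm_num) (by norm_num)).trans (pow_one 5)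
  have hR3 : Nat.card R * 35 = Nat.card G := by
    rcases hG with e | e
    · rw [card_sylow_eq R (k := 1) (m := 35) (by rw [e]; norm_num) (by norm_num), e]; norm_num
    · rw [card_sylow_eq R (k := 2) (m := 35) (by rw [e]; norm_num) (by norm_num), e]; norm_num
  -- number of Sylow 3-subgroups
  have hn3 : Nat.card (Sylow 3 G) = 7 := by
    have hd : Nat.card (Sylow 3 G) ∣ 35 := by
      refine (R.card_dvd_index).trans (dvd_of_eq ?_)
      have := Subgroup.card_mul_index (R : Subgroup G)
      rw [← hR3] at this
      exact Nat.eq_of_mul_eq_mul_left Nat.card_pos this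
    have hm := card_sylow_modEq_one 3 G
    have h1 : Nat.card (Sylow 3 G) ≠ 1 := by
      intro h1
      haveI : Subsingleton (Sylow 3 G) := (Nat.card_eq_one_iff_unique.1 h1).1
      haveI := R.normal_of_subsingleton
      have hle := Subgroup.card_dvd_of_le (normal_le_normalizer (R : Subgroup G) P (by omega))
      rcases hG with e | e <;> rw [e] at hN hR3
      · rw [show Nat.card (normalizer (P : Set G)) = 7 by omega, show Nat.card R = 3 by omega] at hle
        revert hle; decide
      · rw [show Nat.card (normalizer (P : Set G)) = 21 by omega, show Nat.card R = 9 by omega] at hle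
        revert hle; decide
    have hle := Nat.le_of_dvd (by norm_num) hd
    unfold Nat.ModEq at hm
    interval_cases hc : Nat.card (Sylow 3 G) <;> omega
  -- the Sylow 5-subgroup is not normal
  have hn5 : Nat.card (Sylow 5 G) = 21 := by
    have hm := card_sylow_modEq_one 5 G
    have hi := Subgroup.card_mul_index (F : Subgroup G)
    rw [hF5] at hi
    have hd := F.card_dvd_index
    have h1 : Nat.card (Sylow 5 G) ≠ 1 := by
      intro h1
      haveI : Subsingleton (Sylow 5 G) := (Nat.card_eq_one_iff_unique.1 h1).1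
      haveI := F.normal_of_subsingleton
      have hle := Subgroup.card_dvd_of_le (normal_le_normalizer (F : Subgroup G) P (by omega))
      rw [hF5] at hle
      rcases hG with e | e <;> rw [e] at hN
      · rw [show Nat.card (normalizer (P : Set G)) = 7 by omega] at hle; revert hle; decide
      · rw [show Nat.card (normalizer (P : Set G)) = 21 by omega] at hle; revert hle; decide
    unfold Nat.ModEq at hm
    rcases hG with e | e <;> rw [e] at hi
    · rw [show (F : Subgroup G).index = 21 by omega] at hd
      have hle := Nat.le_of_dvd (by norm_num) hd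
      interval_cases hc : Nat.card (Sylow 5 G) <;> omega
    · rw [show (F : Subgroup G).index = 63 by omega] at hd
      have hle := Nat.le_of_dvd (by norm_num) hd
      interval_cases hc : Nat.card (Sylow 5 G) <;> omega
  -- the normalizer of R has a normal Sylow 5-subgroup
  set N := normalizer (R : Set G)
  have hNR := card_sylow_mul_card_normalizer R
  rw [hn3] at hNR
  change 7 * Nat.card N = _ at hNR
  obtain ⟨F0⟩ : Nonempty (Sylow 5 N) := inferInstance
  have hF0 : Nat.card F0 = 5 := by
    have h5 : (5 : ℕ) ^ 1 ∣ Nat.card N := by rcases hG with e | e <;> rw [e] at hNR <;> omega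
    have := F0.pow_dvd_card_of_pow_dvd_card h5
    have h2 : Nat.card ((F0 : Subgroup N).map N.subtype) ∣ Nat.card F := by
      obtain ⟨F', hF'⟩ := (F0.isPGroup'.map N.subtype).exists_le_sylow
      have := Subgroup.card_dvd_of_le hF'
      rwa [F'.card_eq_multiplicity, ← F.card_eq_multiplicity] at this
    rw [card_map_of_injective (subtype_injective N), hF5] at h2
    exact Nat.dvd_antisymm h2 (by simpa using this)
  have hn : Nat.card (Sylow 5 N) = 1 := by
    have hm := card_sylow_modEq_one 5 N
    have hd := F0.card_dvd_index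
    have hi := Subgroup.card_mul_index (F0 : Subgroup N)
    rw [hF0] at hi
    unfold Nat.ModEq at hm
    rcases hG with e | e <;> rw [e] at hNR
    · rw [show (F0 : Subgroup N).index = 3 by omega] at hd
      have hle := Nat.le_of_dvd (by norm_num) hd
      interval_cases hc : Nat.card (Sylow 5 N) <;> omega
    · rw [show (F0 : Subgroup N).index = 9 by omega] at hd
      have hle := Nat.le_of_dvd (by norm_num) hd
      interval_cases hc : Nat.card (Sylow 5 N) <;> omega
  haveI : Subsingleton (Sylow 5 N) := (Nat.card_eq_one_iff_unique.1 hn).1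
  haveI := F0.normal_of_subsingleton
  set F1 := (F0 : Subgroup N).map N.subtype
  have hc1 : Nat.card F1 = Nat.card F := by
    rw [card_map_of_injective (subtype_injective N), hF0, hF5]
  let S : Sylow 5 G := Sylow.ofCard F1 (by rw [hc1, F.card_eq_multiplicity])
  have hNS : N ≤ normalizer (S : Set G) := by
    have h := Subgroup.le_normalizer_map (H := (F0 : Subgroup N)) N.subtype
    rw [normalizer_eq_top_iff.2 inferInstance, ← MonoidHom.range_eq_map, N.range_subtype] at h
    exact h
  have hS := card_sylow_mul_card_normalizer S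
  have := Subgroup.card_dvd_of_le hNS
  have := Nat.le_of_dvd Nat.card_pos this
  rw [hn5] at hS
  rcases hG with e | e <;> rw [e] at hS hNR <;> omega

theorem sign_involution {α : Type*} [Fintype α] [DecidableEq α] (σ : Equiv.Perm α)
    (h2 : orderOf σ = 2) {k : ℕ} (hk : σ.support.card = 2 * k) (hodd : Odd k) :
    Equiv.Perm.sign σ = -1 := by
  obtain ⟨n, hn⟩ := Equiv.Perm.cycleType_prime_order (by rw [h2]; exact Nat.prime_two)
  rw [h2] at hn
  have hs := σ.sum_cycleType
  rw [hn, Multiset.sum_replicate, hk, smul_eq_mul] at hs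
  rw [Equiv.Perm.sign_of_cycleType, hn, Multiset.sum_replicate, Multiset.card_replicate, smul_eq_mul,
    show (n + 1) * 2 + (n + 1) = 2 * (n + 1) + k by omega, pow_add, pow_mul, neg_one_sq, one_pow, one_mul,
    hodd.neg_one_pow]

theorem exists_index_two [Finite G] {m : ℕ} (hm : Odd m) (hG : Nat.card G = 2 * m) :
    ∃ H : Subgroup G, H.index = 2 := by
  classical
  haveI := Fintype.ofFinite G
  haveI : Fact (Nat.Prime 2) := ⟨Nat.prime_two⟩
  obtain ⟨t, ht⟩ := exists_prime_orderOf_dvd_card' 2 (G := G) (by rw [hG]; exact dvd_mul_right 2 m)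
  let φ : G →* ℤˣ := Equiv.Perm.sign.comp (MulAction.toPermHom G G)
  have hσ : φ t = -1 := by
    refine sign_involution (k := m) _ ?_ ?_ hm
    · rw [← ht]; exact orderOf_injective _ (MulAction.toPerm_injective (α := G) (β := G)) t
    · rw [← hG, Nat.card_eq_fintype_card, ← Finset.card_univ]
      congr 1
      ext x
      simp only [Equiv.Perm.mem_support, Finset.mem_univ, iff_true]
      intro h
      change t * x = x at h
      have : t = 1 := mul_eq_right.1 h
      rw [this] at ht; simp at ht
  exact ⟨φ.ker, by
    rw [Subgroup.index_ker, show φ.range = ⊤ by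
      rw [eq_top_iff]; intro u _
      rcases Int.units_eq_one_or u with rfl | rfl
      · exact one_mem _
      · exact ⟨t, hσ⟩]
    simp [Nat.card_eq_fintype_card]⟩

theorem card_sylow_index_two [Finite G] (H : Subgroup G) (hH : H.index = 2) :
    Nat.card (Sylow 7 H) = Nat.card (Sylow 7 G) := by
  haveI : Fact (Nat.Prime 7) := ⟨by norm_num⟩
  haveI := Subgroup.normal_of_index_eq_two hH
  have hle : ∀ P : Sylow 7 G, (P : Subgroup G) ≤ H := by
    intro P x hx
    obtain ⟨k, hk⟩ := P.isPGroup' ⟨x, hx⟩
    have hk' : x ^ 7 ^ k = 1 := congrArg Subtype.val hk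
    have hodd : Odd (7 ^ k) := by apply Odd.pow; decide
    obtain ⟨j, hj⟩ := hodd
    have h2 : x ^ (2 * j) ∈ H := by rw [pow_mul]; exact H.pow_mem (Subgroup.sq_mem_of_index_two hH x) j
    rw [hj, pow_succ] at hk'
    rwa [eq_inv_of_mul_eq_one_right hk', inv_mem_iff]
  refine (Nat.card_congr (Equiv.ofBijective (fun P => P.subtype (hle P))
    ⟨fun P Q h => Sylow.subtype_injective h, fun Q => ?_⟩)).symm
  obtain ⟨P, hP⟩ := Sylow.exists_comap_subtype_eq Q
  exact ⟨P, Sylow.ext (by rw [Sylow.coe_subtype]; exact hP)⟩

theorem no_fifteen_odd_reduce [Finite G] {e : ℕ} (he : e = 1 ∨ e = 2 ∨ e = 3 ∨ e = 6)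
    (hG : Nat.card G = 105 * e) : Nat.card (Sylow 7 G) ≠ 15 := by
  rcases he with rfl | rfl | rfl | rfl
  · exact no_fifteen_small (Or.inl (by rw [hG]))
  · obtain ⟨H, hH⟩ := exists_index_two (m := 105) (by decide) (by rw [hG])
    have := H.card_mul_index
    rw [← card_sylow_index_two H hH]
    exact no_fifteen_small (Or.inl (by rw [hH, hG] at this; omega))
  · exact no_fifteen_small (Or.inr (by rw [hG]))
  · obtain ⟨H, hH⟩ := exists_index_two (m := 315) (by decide) (by rw [hG])
    have := H.card_mul_index
    rw [← card_sylow_index_two H hH]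
    exact no_fifteen_small (Or.inr (by rw [hH, hG] at this; omega))

theorem card_orbit_eq_seven [Finite G] (P : Sylow 7 G) (hn : Nat.card (Sylow 7 G) = 15)
    (q : Sylow 7 G) (hq : q ≠ P) : Nat.card (orbit (P : Subgroup G) q) = 7 := by
  classical
  haveI : Fact (Nat.Prime 7) := ⟨by norm_num⟩
  obtain ⟨k, hk⟩ := P.isPGroup'.card_orbit q
  have hle : Nat.card (orbit (P : Subgroup G) q) ≤ 14 := by
    have hsub : orbit (P : Subgroup G) q ⊆ {P}ᶜ := by
      rintro r ⟨x, rfl⟩ h
      apply hq
      have h' : (x : G) • q = P := h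
      rw [← inv_smul_smul (x : G) q, h']
      exact Sylow.smul_eq_iff_mem_normalizer.2 (le_normalizer (inv_mem x.2))
    have := Nat.card_mono (Set.toFinite _) hsub
    rwa [Nat.card_coe_set_eq ({P}ᶜ : Set (Sylow 7 G)), Set.ncard_compl, Set.ncard_singleton, hn] at this
  rcases k with _ | _ | k
  · exfalso
    rw [pow_zero, Nat.card_eq_one_iff_unique] at hk
    haveI := hk.1
    have hfix : q ∈ fixedPoints (P : Subgroup G) (Sylow 7 G) := fun x =>
      congrArg Subtype.val (Subsingleton.elim (⟨x • q, mem_orbit q x⟩ : orbit (P : Subgroup G) q) ⟨q, mem_orbit_self q⟩)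
    exact hq (Sylow.ext (P.is_maximal' q.2 (P.isPGroup'.sylow_mem_fixedPoints_iff.1 hfix)).symm).symm
  · simpa using hk
  · rw [hk] at hle
    have h49 : 7 ^ 2 ≤ 7 ^ (k + 2) := Nat.pow_le_pow_right (by norm_num) (by omega)
    linarith

theorem two_orbits [Finite G] (P : Sylow 7 G) (hn : Nat.card (Sylow 7 G) = 15)
    {a b : Sylow 7 G} (ha : a ≠ P) (hb : b ≠ P) (hab : orbit (P : Subgroup G) a ≠ orbit (P : Subgroup G) b)
    (c : Sylow 7 G) (hc : c ≠ P) :
    orbit (P : Subgroup G) c = orbit (P : Subgroup G) a ∨ orbit (P : Subgroup G) c = orbit (P : Subgroup G) b := by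
  classical
  by_contra h
  push Not at h
  have d1 : Disjoint (orbit (P : Subgroup G) a) (orbit (P : Subgroup G) b) :=
    (orbit.eq_or_disjoint a b).resolve_left hab
  have d2 : Disjoint (orbit (P : Subgroup G) c) (orbit (P : Subgroup G) a ∪ orbit (P : Subgroup G) b) :=
    Set.disjoint_union_right.2
      ⟨(orbit.eq_or_disjoint c a).resolve_left h.1,
       (orbit.eq_or_disjoint c b).resolve_left h.2⟩
  have key : ∀ q : Sylow 7 G, q ≠ P → (orbit (P : Subgroup G) q).ncard = 7 := fun q hq => by
    rw [← Nat.card_coe_set_eq]; exact card_orbit_eq_seven P hn q hq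
  have := Set.ncard_le_ncard (Set.subset_univ (orbit (P : Subgroup G) c ∪ (orbit (P : Subgroup G) a ∪ orbit (P : Subgroup G) b)))
  rw [Set.ncard_union_eq d2, Set.ncard_union_eq d1, key a ha, key b hb, key c hc, Set.ncard_univ, hn] at this
  omega

theorem card_ne_fifteen_of_faithful [Finite G]
    (hf : ∀ g : G, (∀ Q : Sylow 7 G, g • Q = Q) → g = 1) : Nat.card (Sylow 7 G) ≠ 15 := by
  classical
  haveI : Fact (Nat.Prime 7) := ⟨by norm_num⟩
  intro hn
  obtain ⟨P⟩ : Nonempty (Sylow 7 G) := inferInstance
  haveI := Fintype.ofFinite (Sylow 7 G)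
  let φ : G →* Equiv.Perm (Sylow 7 G) := MulAction.toPermHom G (Sylow 7 G)
  have hφ : Function.Injective φ := by
    refine (injective_iff_map_eq_one φ).2 fun g hg => hf g fun Q => ?_
    exact congrFun (congrArg DFunLike.coe hg) Q
  obtain ⟨k, hk⟩ := IsPGroup.iff_card.1 P.isPGroup'
  have hk2 : k ≤ 2 := by
    have := Subgroup.card_dvd_of_injective (φ.comp (P : Subgroup G).subtype)
      (hφ.comp (P : Subgroup G).subtype_injective)
    rw [hk, Nat.card_perm, hn] at this
    by_contra hk2
    have h3 : 7 ^ 3 ∣ Nat.factorial 15 := (pow_dvd_pow 7 (by omega)).trans this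
    revert h3; decide
  have hpos : ∃ a : Sylow 7 G, a ≠ P := by
    by_contra h
    push Not at h
    haveI : Subsingleton (Sylow 7 G) := ⟨fun a b => (h a).trans (h b).symm⟩
    rw [Nat.card_of_subsingleton P] at hn
    omega
  obtain ⟨a, ha⟩ := hpos
  have horb : ∀ (Q q : Sylow 7 G), q ≠ Q → Nat.card (orbit (Q : Subgroup G) q) = 7 :=
    fun Q q hq => card_orbit_eq_seven Q hn q hq
  have hstab : ∀ Q q : Sylow 7 G, q ≠ Q →
      Nat.card ↥((Q : Subgroup G) ⊓ q) * 7 = 7 ^ k := by
    intro Q q hq
    have h := orbitProdStabilizerEquivGroup (Q : Subgroup G) q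
    have h1 := Nat.card_congr h
    rw [Nat.card_prod, horb Q q hq] at h1
    have h2 : Nat.card Q = 7 ^ k := by rw [← hk]; exact Nat.card_congr (Sylow.equiv Q P).toEquiv
    rw [h2] at h1
    rw [← h1, mul_comm 7]
    congr 1
    have e : stabilizer (Q : Subgroup G) q = ((Q : Subgroup G) ⊓ q).subgroupOf (Q : Subgroup G) := by
      ext x
      rw [mem_stabilizer_iff, mem_subgroupOf, Subgroup.mem_inf]
      constructor
      · intro hx
        have hx' : (x : G) ∈ normalizer (q : Set G) :=
          Sylow.smul_eq_iff_mem_normalizer.1 hx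
        refine ⟨x.2, ?_⟩
        have := (Q.isPGroup'.inf_normalizer_sylow q).le
        exact (this ⟨x.2, hx'⟩).2
      · intro hx
        exact Sylow.smul_eq_iff_mem_normalizer.2 (le_normalizer hx.2)
    rw [e]
    exact (Nat.card_congr (subgroupOfEquivOfLe inf_le_left).toEquiv).symm
  have hk0 : k ≠ 0 := by
    rintro rfl
    have := hstab P a ha
    omega
  interval_cases k
  · omega
  · -- Sylow subgroups of order 7
    simp only [pow_one] at hk hstab
    set C := centralizer ((P : Subgroup G) : Set G)
    have hCfix : ∀ c ∈ C, c • P = P := fun c hc =>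
      Sylow.smul_eq_iff_mem_normalizer.2 (centralizer_le_normalizer _ hc)
    have hcomm : ∀ c ∈ C, ∀ q : Sylow 7 G, ∀ x : (P : Subgroup G), c • (x • q) = x • (c • q) := by
      intro c hc q x
      change c • ((x : G) • q) = (x : G) • (c • q)
      rw [smul_smul, smul_smul, (mem_centralizer_iff.1 hc x x.2)]
    have himg : ∀ c ∈ C, ∀ q r : Sylow 7 G, orbit (P : Subgroup G) q = orbit (P : Subgroup G) r →
        orbit (P : Subgroup G) (c • q) = orbit (P : Subgroup G) (c • r) := by
      intro c hc q r h
      rw [orbit_eq_iff] at h ⊢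
      obtain ⟨x, rfl⟩ := h
      exact ⟨x, (hcomm c hc r x).symm⟩
    have hne : ∀ c ∈ C, ∀ q : Sylow 7 G, q ≠ P → c • q ≠ P := by
      intro c hc q hq h
      exact hq (smul_left_cancel c (h.trans (hCfix c hc).symm))
    set C0 : Subgroup C :=
      { carrier := {c | ∀ q : Sylow 7 G, orbit (P : Subgroup G) ((c : G) • q) = orbit (P : Subgroup G) q}
        one_mem' := by simp
        mul_mem' := by
          intro x y hx hy q
          rw [Subgroup.coe_mul, mul_smul, hx, hy]
        inv_mem' := by
          intro x hx q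
          have := hx (((x⁻¹ : C) : G) • q)
          rw [smul_smul, ← Subgroup.coe_mul, mul_inv_cancel, Subgroup.coe_one, one_smul] at this
          exact this.symm }
    have hC0P : ∀ c ∈ C0, (c : G) ∈ (P : Subgroup G) := by
      intro c hc
      have h7 : (c : G) ^ 7 = 1 := by
        refine hf _ fun q => ?_
        have hm := hc q
        rw [orbit_eq_iff] at hm
        obtain ⟨x, hx⟩ := hm
        have key : ∀ i : ℕ, (c : G) ^ i • q = (x ^ i) • q := by
          intro i
          induction i with
          | zero => simp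
          | succ i ih =>
            rw [pow_succ', mul_smul, ih, hcomm c c.2, ← hx, smul_smul, ← pow_succ]
        rw [key, show x ^ 7 = 1 from (congrArg (x ^ ·) hk.symm).trans pow_card_eq_one', one_smul]
      have hp : IsPGroup 7 (zpowers (c : G)) := by
        rintro ⟨y, i, rfl⟩
        refine ⟨1, Subtype.ext ?_⟩
        change ((c : G) ^ i) ^ (7 ^ 1) = 1
        rw [pow_one, ← zpow_natCast, ← zpow_mul, mul_comm, zpow_mul, zpow_natCast, h7, one_zpow]
      have := (hp.inf_normalizer_sylow P).le
      exact (this ⟨mem_zpowers _, centralizer_le_normalizer _ c.2⟩).2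
    have hPC : (P : Subgroup G) ≤ C := by
      intro x hx y hy
      haveI : IsCyclic (P : Subgroup G) := isCyclic_of_prime_card hk
      letI := IsCyclic.commGroup (α := (P : Subgroup G))
      exact congrArg Subtype.val (mul_comm (⟨y, hy⟩ : (P : Subgroup G)) ⟨x, hx⟩)
    have hC0 : Nat.card C0 = 7 := by
      have e : C0 = (P : Subgroup G).subgroupOf C := by
        refine le_antisymm (fun c hc => hC0P c hc) (fun c hc q => ?_)
        rw [orbit_eq_iff]
        exact ⟨⟨c, hc⟩, rfl⟩
      rw [e, Nat.card_congr (subgroupOfEquivOfLe hPC).toEquiv, hk]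
    have hidx : C0.index = 1 ∨ C0.index = 2 := by
      by_cases htop : C0 = ⊤
      · exact Or.inl (index_eq_one.2 htop)
      right
      obtain ⟨c0, -, hc0⟩ := SetLike.exists_of_lt (lt_top_iff_ne_top.2 htop)
      rw [Subgroup.index_eq_two_iff']
      refine ⟨c0, fun d => ?_⟩
      by_cases hd : d ∈ C0
      · exact Or.inr ⟨hd, fun h => hc0 ((mul_mem_cancel_right hd).1 h)⟩
      · refine Or.inl ⟨?_, hd⟩
        have hswap : ∀ c : C, c ∉ C0 → ∀ q : Sylow 7 G, q ≠ P →
            orbit (P : Subgroup G) ((c : G) • q) ≠ orbit (P : Subgroup G) q := by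
          intro c hc q hq h
          apply hc
          intro r
          by_cases hr : r = P
          · rw [hr, hCfix c c.2]
          by_cases hrq : orbit (P : Subgroup G) r = orbit (P : Subgroup G) q
          · rw [himg c c.2 r q hrq, h, hrq]
          · rcases two_orbits P hn hr hq hrq _ (hne c c.2 r hr) with e | e
            · exact e
            · exfalso
              apply hrq
              have := himg _ (inv_mem c.2) _ _ (e.trans h.symm)
              simpa using this
        intro q
        by_cases hq : q = P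
        · rw [hq, hCfix _ (c0 * d).2]
        have h1 := hne d d.2 q hq
        have h2 := hswap d hd q hq
        have h3 := hswap c0 hc0 _ h1
        rw [Subgroup.coe_mul, mul_smul]
        rcases two_orbits P hn h1 hq h2 _ (hne c0 c0.2 _ h1) with e | e
        · exact absurd e h3
        · exact e
    have hN : ∃ d, d ∣ 6 ∧ Nat.card (normalizer (P : Set G)) = C0.index * 7 * d := by
      have h1 := Subgroup.card_mul_index ((P : Subgroup G).normalizerMonoidHom.ker)
      have h2 := (P : Subgroup G).normalizerMonoidHom.range.card_subgroup_dvd_card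
      rw [Subgroup.normalizerMonoidHom_ker, Subgroup.index_eq_card] at h1
      haveI : IsCyclic (P : Subgroup G) := isCyclic_of_prime_card hk
      rw [IsCyclic.card_mulAut, hk, Nat.totient_prime (by norm_num : Nat.Prime 7)] at h2
      refine ⟨_, h2, ?_⟩
      rw [← Nat.card_congr (QuotientGroup.quotientKerEquivRange (P : Subgroup G).normalizerMonoidHom).toEquiv]
      change Nat.card (normalizer ((P : Subgroup G) : Set G)) = _
      rw [← Subgroup.index_eq_card]
      conv_lhs => rw [← Subgroup.card_mul_index ((P : Subgroup G).normalizerMonoidHom.ker)]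
      congr 1
      rw [Subgroup.normalizerMonoidHom_ker,
        Nat.card_congr (subgroupOfEquivOfLe (centralizer_le_normalizer _)).toEquiv]
      change Nat.card C = _
      rw [← C0.card_mul_index, hC0, mul_comm]
    obtain ⟨d, hd6, hNd⟩ := hN
    have hG := card_sylow_mul_card_normalizer P
    rw [hn, hNd] at hG
    have hd' : d = 1 ∨ d = 2 ∨ d = 3 ∨ d = 6 := by
      have := Nat.le_of_dvd (by norm_num) hd6
      have : d ≠ 0 := fun h => by rw [h] at hd6; norm_num at hd6
      interval_cases d <;> first | omega | (exfalso; revert hd6; decide)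
    rcases hidx with hi | hi
    · exact no_fifteen_odd_reduce hd' (by rw [← hG, hi]; ring) hn
    · haveI : Fact (Nat.Prime 2) := ⟨Nat.prime_two⟩
      obtain ⟨c, hc⟩ := exists_prime_orderOf_dvd_card' 2 (G := C)
        ⟨7, by rw [← C0.card_mul_index, hC0, hi]⟩
      have hcC0 : c ∉ C0 := by
        intro h
        have h1 : orderOf (⟨c, h⟩ : C0) ∣ Nat.card C0 := orderOf_dvd_natCard _
        rw [hC0, ← orderOf_injective C0.subtype C0.subtype_injective] at h1
        change orderOf c ∣ 7 at h1
        rw [hc] at h1
        norm_num at h1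
      let χ : G →* ℤˣ := Equiv.Perm.sign.comp φ
      have hχ : χ (c : G) = -1 := by
        refine sign_involution (k := 7) _ ?_ ?_ (by decide)
        · rw [orderOf_injective _ hφ, ← hc]
          exact orderOf_injective C.subtype C.subtype_injective c
        · have hsupp : (φ (c : G)).support = Finset.univ.erase P := by
            ext q
            simp only [Equiv.Perm.mem_support, Finset.mem_erase, Finset.mem_univ, and_true]
            constructor
            · rintro h rfl; exact h (hCfix c c.2)
            · intro hq h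
              apply hcC0
              have hq' : orbit (P : Subgroup G) ((c : G) • q) = orbit (P : Subgroup G) q := congrArg _ h
              intro r
              by_cases hr : r = P
              · rw [hr, hCfix c c.2]
              by_cases hrq : orbit (P : Subgroup G) r = orbit (P : Subgroup G) q
              · rw [himg c c.2 r q hrq, hq', hrq]
              · rcases two_orbits P hn hr hq hrq _ (hne c c.2 r hr) with e | e
                · exact e
                · exfalso
                  apply hrq
                  have := himg _ (inv_mem c.2) _ _ (e.trans hq'.symm)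
                  simpa using this
          rw [hsupp, Finset.card_erase_of_mem (Finset.mem_univ P), Finset.card_univ,
            ← Nat.card_eq_fintype_card, hn]
      have hk2 : χ.ker.index = 2 := by
        rw [Subgroup.index_ker, show χ.range = ⊤ by
          rw [eq_top_iff]; intro u _
          rcases Int.units_eq_one_or u with rfl | rfl
          · exact one_mem _
          · exact ⟨_, hχ⟩]
        simp [Nat.card_eq_fintype_card]
      have h2 := χ.ker.card_mul_index
      rw [hk2, ← hG, hi] at h2
      refine no_fifteen_odd_reduce hd' (G := χ.ker) ?_ ((card_sylow_index_two _ hk2).trans hn)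
      omega
  · -- Sylow subgroups of order 49
    have hD : ∀ Q q : Sylow 7 G, q ≠ Q → Nat.card ↥((Q : Subgroup G) ⊓ q) = 7 := fun Q q hq => by
      have := hstab Q q hq; omega
    have hab : ∀ Q : Sylow 7 G, IsMulCommutative (Q : Subgroup G) := fun Q => by
      have h2 : Nat.card Q = 7 ^ 2 := by rw [← hk]; exact Nat.card_congr (Sylow.equiv Q P).toEquiv
      exact IsPGroup.isMulCommutative_of_card_eq_prime_sq h2
    have h8 : ∀ D : Subgroup G, Nat.card D = 7 → ∀ Q q : Sylow 7 G, q ≠ Q → D ≤ Q → D ≤ q →
        {r : Sylow 7 G | D ≤ r}.ncard = 8 ∧ ∀ r, r ≠ Q → (D ≤ r ↔ (Q : Subgroup G) ⊓ r = D) := by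
      intro D hD7 Q q hq hDQ hDq
      haveI := hab Q
      have hinter : ∀ r, r ≠ Q → (D ≤ r ↔ (Q : Subgroup G) ⊓ r = D) := fun r hr =>
        ⟨fun h => (Subgroup.eq_of_le_of_card_ge (le_inf hDQ h) (by rw [hD Q r hr, hD7])).symm,
          fun h => h ▸ inf_le_right⟩
      refine ⟨?_, hinter⟩
      have hinv : ∀ (x : (Q : Subgroup G)) (r : Sylow 7 G), D ≤ r → D ≤ (x • r : Sylow 7 G) := by
        intro x r hr d hd
        change d ∈ (((x : G) • r : Sylow 7 G) : Subgroup G)
        rw [Sylow.coe_subgroup_smul]
        refine ⟨d, hr hd, ?_⟩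
        change (x : G) * d * (x : G)⁻¹ = d
        have h2 : (x : G) * d = d * x :=
          congrArg Subtype.val (mul_comm' x (⟨d, hDQ hd⟩ : (Q : Subgroup G)))
        rw [h2, mul_inv_cancel_right]
      set S := {r : Sylow 7 G | D ≤ r} with hS
      have hsub : insert Q (orbit (Q : Subgroup G) q) ⊆ S := by
        rintro r (rfl | ⟨x, rfl⟩)
        · exact hDQ
        · exact hinv x q hDq
      have hQnot : Q ∉ orbit (Q : Subgroup G) q := by
        rintro ⟨x, hx⟩
        apply hq
        have h' : (x : G) • q = Q := hx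
        rw [← inv_smul_smul (x : G) q, h']
        exact Sylow.smul_eq_iff_mem_normalizer.2 (le_normalizer (inv_mem x.2))
      by_cases heq : S = insert Q (orbit (Q : Subgroup G) q)
      · rw [heq, Set.ncard_insert_of_notMem hQnot, ← Nat.card_coe_set_eq, horb Q q hq]
      · exfalso
        obtain ⟨b, hbS, hb⟩ : ∃ b ∈ S, b ∉ insert Q (orbit (Q : Subgroup G) q) := by
          by_contra h
          push Not at h
          exact heq (Set.Subset.antisymm h hsub)
        simp only [Set.mem_insert_iff, not_or] at hb
        have hall : ∀ r : Sylow 7 G, D ≤ r := by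
          intro r
          by_cases hr : r = Q
          · rw [hr]; exact hDQ
          have hbo : orbit (Q : Subgroup G) q ≠ orbit (Q : Subgroup G) b := fun h => hb.2 (h ▸ mem_orbit_self b)
          rcases two_orbits Q hn hq hb.1 hbo r hr with e | e
          · obtain ⟨x, rfl⟩ := orbit_eq_iff.1 e
            exact hinv x q hDq
          · obtain ⟨x, rfl⟩ := orbit_eq_iff.1 e
            exact hinv x b hbS
        have hbot : D = ⊥ := by
          rw [eq_bot_iff]
          intro d hd
          exact hf d fun r => Sylow.smul_eq_iff_mem_normalizer.2 (le_normalizer (hall r hd))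
        rw [hbot, Subgroup.card_bot] at hD7
        omega
    -- the special subgroups
    set 𝒟 : Finset (Subgroup G) :=
      ((Finset.univ : Finset (Sylow 7 G × Sylow 7 G)).filter fun x => x.2 ≠ x.1).image
        fun x => (x.1 : Subgroup G) ⊓ x.2 with h𝒟
    have hcount1 : ∀ D ∈ 𝒟, ((Finset.univ : Finset (Sylow 7 G)).filter fun r : Sylow 7 G => D ≤ (r : Subgroup G)).card = 8 := by
      intro D hD'
      simp only [h𝒟, Finset.mem_image, Finset.mem_filter, Finset.mem_univ, true_and] at hD'
      obtain ⟨⟨Q, q⟩, hq, rfl⟩ := hD'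
      rw [← (h8 _ (hD Q q hq) Q q hq inf_le_left inf_le_right).1, ← Set.ncard_coe_finset]
      congr 1
      ext r; simp
    have hcount2 : ∀ Q : Sylow 7 G, (𝒟.filter fun D => D ≤ (Q : Subgroup G)).card = 2 := by
      intro Q
      have e : (𝒟.filter fun D => D ≤ (Q : Subgroup G)) =
          (Finset.univ.erase Q).image fun q : Sylow 7 G => (Q : Subgroup G) ⊓ q := by
        ext D
        simp only [h𝒟, Finset.mem_image, Finset.mem_filter, Finset.mem_univ, true_and,
          Finset.mem_erase, and_true]
        constructor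
        · rintro ⟨⟨⟨R, r⟩, hr, rfl⟩, hle⟩
          by_cases hRQ : R = Q
          · exact ⟨r, hRQ ▸ hr, by rw [hRQ]⟩
          · exact ⟨R, hRQ, Subgroup.eq_of_le_of_card_ge (le_inf hle inf_le_left)
              (by rw [hD Q R hRQ, hD R r hr]) |>.symm⟩
        · rintro ⟨q, hq, rfl⟩
          exact ⟨⟨⟨Q, q⟩, hq, rfl⟩, inf_le_left⟩
      rw [e]
      have hfib : ∀ D ∈ (Finset.univ.erase Q).image (fun q : Sylow 7 G => (Q : Subgroup G) ⊓ q),
          ((Finset.univ.erase Q).filter fun q : Sylow 7 G => (Q : Subgroup G) ⊓ q = D).card = 7 := by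
        intro D hD'
        simp only [Finset.mem_image, Finset.mem_erase, Finset.mem_univ, and_true] at hD'
        obtain ⟨q, hq, rfl⟩ := hD'
        obtain ⟨h1, h2⟩ := h8 _ (hD Q q hq) Q q hq inf_le_left inf_le_right
        have : ((Finset.univ.erase Q).filter fun r : Sylow 7 G => (Q : Subgroup G) ⊓ r = (Q : Subgroup G) ⊓ q) =
            ((Finset.univ : Finset (Sylow 7 G)).filter fun r : Sylow 7 G => (Q : Subgroup G) ⊓ q ≤ (r : Subgroup G)).erase Q := by
          ext r
          simp only [Finset.mem_filter, Finset.mem_erase, Finset.mem_univ, true_and, and_true]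
          exact ⟨fun h => ⟨h.1, (h2 r h.1).2 h.2⟩, fun h => ⟨h.1, (h2 r h.1).1 h.2⟩⟩
        rw [this, Finset.card_erase_of_mem (by simp),
          hcount1 _ (by simp only [h𝒟, Finset.mem_image, Finset.mem_filter, Finset.mem_univ, true_and]
                        exact ⟨⟨Q, q⟩, hq, rfl⟩)]
      have := Finset.card_eq_sum_card_image (fun q : Sylow 7 G => (Q : Subgroup G) ⊓ q) (Finset.univ.erase Q)
      rw [Finset.sum_congr rfl hfib, Finset.sum_const, smul_eq_mul,
        Finset.card_erase_of_mem (Finset.mem_univ Q), Finset.card_univ, ← Nat.card_eq_fintype_card, hn] at this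
      omega
    have hdbl : ∑ D ∈ 𝒟, ((Finset.univ : Finset (Sylow 7 G)).filter fun r : Sylow 7 G => D ≤ (r : Subgroup G)).card =
        ∑ Q : Sylow 7 G, (𝒟.filter fun D => D ≤ (Q : Subgroup G)).card :=
      Finset.sum_card_bipartiteAbove_eq_sum_card_bipartiteBelow (fun D (r : Sylow 7 G) => D ≤ (r : Subgroup G))
    rw [Finset.sum_congr rfl hcount1, Finset.sum_congr rfl (fun Q _ => hcount2 Q), Finset.sum_const,
      Finset.sum_const, smul_eq_mul, smul_eq_mul, Finset.card_univ, ← Nat.card_eq_fintype_card, hn] at hdbl
    omega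

theorem card_ne_fifteen [Finite G] : Nat.card (Sylow 7 G) ≠ 15 := by
  haveI : Fact (Nat.Prime 7) := ⟨by norm_num⟩
  intro hn
  set φ : G →* Equiv.Perm (Sylow 7 G) := MulAction.toPermHom G (Sylow 7 G)
  set f := φ.rangeRestrict
  have hf := φ.rangeRestrict_surjective
  have hinj : Function.Injective (fun P : Sylow 7 G => P.mapSurjective hf) := by
    intro P Q h
    have h' : (P : Subgroup G).map f = (Q : Subgroup G).map f := congrArg (fun S : Sylow 7 φ.range => (S : Subgroup φ.range)) h
    have hQ : (Q : Subgroup G) ≤ normalizer (P : Set G) := by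
      intro x hx
      obtain ⟨y, hy, hxy⟩ := (h'.symm ▸ ⟨x, hx, rfl⟩ : f x ∈ (P : Subgroup G).map f)
      have hk : y⁻¹ * x ∈ normalizer (P : Set G) := by
        refine Sylow.smul_eq_iff_mem_normalizer.1 ?_
        have h1 : φ (y⁻¹ * x) = 1 := by
          have := congrArg Subtype.val hxy
          change φ y = φ x at this
          rw [map_mul, map_inv, this, inv_mul_cancel]
        exact congrFun (congrArg DFunLike.coe h1) P
      have := mul_mem (le_normalizer hy) hk
      simpa using this
    have e := Q.isPGroup'.inf_normalizer_sylow P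
    have hle : (Q : Subgroup G) ≤ P := fun x hx => (e.le ⟨hx, hQ hx⟩).2
    exact Sylow.ext (Q.is_maximal' P.2 hle)
  have hbij : Function.Bijective (fun P : Sylow 7 G => P.mapSurjective hf) :=
    ⟨hinj, Sylow.mapSurjective_surjective hf 7⟩
  have hn' : Nat.card (Sylow 7 φ.range) = 15 := by
    rw [← hn]; exact (Nat.card_congr (Equiv.ofBijective _ hbij)).symm
  refine card_ne_fifteen_of_faithful (G := φ.range) (fun h hh => ?_) hn'
  obtain ⟨g, rfl⟩ := hf h
  apply Subtype.ext
  refine Equiv.ext fun Q => hinj ?_
  change (g • Q).mapSurjective hf = Q.mapSurjective hf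
  refine Eq.trans ?_ (hh (Q.mapSurjective hf))
  refine Sylow.ext ?_
  rw [Sylow.coe_subgroup_smul]
  change ((g • Q : Sylow 7 G) : Subgroup G).map f = MulAut.conj (f g) • (Q : Subgroup G).map f
  rw [Sylow.coe_subgroup_smul]
  change ((Q : Subgroup G).map (MulAut.conj g).toMonoidHom).map f =
    ((Q : Subgroup G).map f).map (MulAut.conj (f g)).toMonoidHom
  rw [map_map, map_map]
  congr 1
  ext x
  simp

end Cfsg.Agent.FGS.Fifteen
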